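import Cfsg.Agent.Chars2.SplitBN.Unique

/-!
The scalar by which a class sum acts on a module of non-maximal weight: only the unipotent part of
the class contributes.
-/

set_option autoImplicit false
set_option linter.unusedSectionVars false
set_option linter.style.haveILetI false
set_option maxHeartbeats 1000000

namespace Cfsg.Agent.Chars2.SplitBN

open Matrix
open Cfsg.Agent.Chars2.SLDef (sum_eq_zero_add_sum_units natCard_F_cast)
open scoped Classical

universe u v w w' x y

variable {F : Type u} [Field F] [Fintype F] {G : Type x} [Group G] [Fintype G] {ι : Type w'}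
  (S : Data F G ι) {k : Type v} [Field k] {V : Type w} [AddCommGroup V] [Module k V]

/-- The sum over the cosets in an orbit of the unipotent group. -/
noncomputable def tsum' (ρ : Representation k G V) (v : V) (hU : ∀ u ∈ S.U, ρ u v = v) (g : G) :
    V :=
  ∑ x ∈ cosetOrb S S.U g, cosetVec S ρ v hU x

theorem tsum_fixed (ρ : Representation k G V) (v : V) (hU : ∀ u ∈ S.U, ρ u v = v) (g : G) :
    ∀ u ∈ S.U, ρ u (tsum' S ρ v hU g) = tsum' S ρ v hU g := fun u hu =>
  sum_cosetOrb_fixed S ρ v hU fun r hr => ⟨u * r, mul_mem hu hr, rfl⟩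

theorem tsum_T (ρ : Representation k G V) (v : V) (hU : ∀ u ∈ S.U, ρ u v = v) {d : G}
    (hd : d ∈ S.T) : tsum' S ρ v hU d = ρ d v := by
  have : cosetOrb S S.U d = {((d : G) : G ⧸ S.U)} := by
    ext x
    rw [mem_cosetOrb, Finset.mem_singleton]
    constructor
    · rintro ⟨a, ha, rfl⟩
      show ((a * d : G) : G ⧸ S.U) = _
      rw [QuotientGroup.eq]
      have h := S.T_U _ (inv_mem hd) _ (inv_mem ha)
      rw [inv_inv] at h
      convert h using 1
      group
    · exact fun h => ⟨1, one_mem _, by rw [h, one_smul]⟩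
  rw [tsum', this, Finset.sum_singleton, cosetVec_mk]

/-- A simple reflection lengthening `g` acts through its rank one operator. -/
theorem tsum_ww_mul (ρ : Representation k G V) (v : V) (hU : ∀ u ∈ S.U, ρ u v = v) (i : ι) {g : G}
    (hgN : g ∈ S.N) (hA : ∀ b, g⁻¹ * S.xp i b * g ∈ S.U) :
    tsum' S ρ v hU (S.ww i * g) = sig S ρ i (ρ (S.ww i) (tsum' S ρ v hU g)) := by
  have hfix : ∀ b : F, (S.xp i b) • (g : G ⧸ S.U) = (g : G ⧸ S.U) := fun b => by
    show ((S.xp i b * g : G) : G ⧸ S.U) = _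
    rw [QuotientGroup.eq]
    have h2 : g⁻¹ * S.xp i (-b) * g ∈ S.U := hA (-b)
    have h3 : (S.xp i b * g)⁻¹ * g = g⁻¹ * S.xp i (-b) * g := by rw [S.xp_neg]; group
    rw [h3]; exact h2
  have horb : cosetOrb S S.U g = cosetOrb S (S.R i) g := by
    ext x
    rw [mem_cosetOrb, mem_cosetOrb]
    constructor
    · rintro ⟨a, ha, rfl⟩
      obtain ⟨b, r, hr, e⟩ := S.dec i a ha
      refine ⟨S.xp i b * r * (S.xp i b)⁻¹, S.R_conj i (SLDef.up2 b) r hr, ?_⟩
      rw [show a = S.xp i b * r from e]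
      conv_rhs => rw [← hfix b, smul_smul, inv_mul_cancel_right]
    · rintro ⟨a, ha, rfl⟩; exact ⟨a, S.R_le i ha, rfl⟩
  let Φ : F × (G ⧸ S.U) → G ⧸ S.U := fun z => (S.xp i z.1 * S.ww i) • z.2
  have hinj : Set.InjOn Φ ↑((Finset.univ : Finset F) ×ˢ cosetOrb S S.U g) := by
    rintro ⟨a, x⟩ hx ⟨a', x'⟩ hx' he
    simp only [Finset.coe_product, Set.mem_prod, Finset.mem_coe] at hx hx'
    rw [horb] at hx hx'
    obtain ⟨r, hr, rfl⟩ := (mem_cosetOrb S).1 hx.2
    obtain ⟨r', hr', rfl⟩ := (mem_cosetOrb S).1 hx'.2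
    simp only [Φ, smul_smul] at he
    have h2 : g⁻¹ * ((S.xp i a' * S.ww i * r')⁻¹ * (S.xp i a * S.ww i * r)) * g ∈ S.U := by
      have h3 := QuotientGroup.eq.1 (he.symm : ((_ : G) : G ⧸ S.U) = _)
      simpa [mul_assoc] using h3
    have hxw : (S.ww i)⁻¹ * S.xp i (a - a') * S.ww i = S.xm i (a' - a) := by
      have h4 := S.ww_mul_xm i (a' - a)
      rw [neg_sub] at h4
      rw [mul_assoc, ← h4, inv_mul_cancel_left]
    have h5 : (S.xp i a' * S.ww i * r')⁻¹ * (S.xp i a * S.ww i * r) =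
        r'⁻¹ * S.xm i (a' - a) * r := by
      rw [← hxw, sub_eq_neg_add a a', S.xp_add, S.xp_neg]
      group
    rw [h5] at h2
    have haa : a = a' := by
      by_contra hne
      set q := S.xm i (a' - a) with hq
      have hr'' : q⁻¹ * r'⁻¹ * q ∈ S.R i := by
        have := S.R_conj i (SLDef.lo2 (a' - a))⁻¹ _ (inv_mem hr')
        rwa [map_inv, inv_inv] at this
      rw [show r'⁻¹ * q * r = q * ((q⁻¹ * r'⁻¹ * q) * r) by group] at h2
      exact S.key i g hgN hA _ (sub_ne_zero.2 (Ne.symm hne)) _ (mul_mem hr'' hr) h2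
    subst haa
    refine Prod.ext rfl ?_
    have h7 : (S.xp i a * S.ww i) • (r • (g : G ⧸ S.U)) =
        (S.xp i a * S.ww i) • (r' • (g : G ⧸ S.U)) := by
      rw [smul_smul, smul_smul]; exact he
    exact MulAction.injective _ h7
  have himg : ((Finset.univ : Finset F) ×ˢ cosetOrb S S.U g).image Φ =
      cosetOrb S S.U (S.ww i * g) := by
    ext x
    rw [Finset.mem_image, mem_cosetOrb]
    constructor
    · rintro ⟨⟨a, y⟩, hy, rfl⟩
      obtain ⟨r, hr, rfl⟩ := (mem_cosetOrb S).1 (horb ▸ (Finset.mem_product.1 hy).2)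
      refine ⟨S.xp i a * (S.ww i * r * (S.ww i)⁻¹),
        mul_mem (S.xp_mem i a) (S.R_le i (S.ww_conj_mem_R i hr)), ?_⟩
      show (S.xp i a * S.ww i) • r • (g : G ⧸ S.U) =
        (S.xp i a * (S.ww i * r * (S.ww i)⁻¹)) • ((S.ww i * g : G) : G ⧸ S.U)
      rw [smul_mk_eq, smul_smul, smul_smul]
      congr 1
      group
    · rintro ⟨a, ha, rfl⟩
      obtain ⟨b, r, hr, e⟩ := S.dec i a ha
      rw [show a = S.xp i b * r from e]
      refine ⟨(b, ((S.ww i)⁻¹ * r * S.ww i) • (g : G ⧸ S.U)),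
        Finset.mem_product.2 ⟨Finset.mem_univ _,
          (mem_cosetOrb S).2 ⟨_, S.R_le i (S.ww_inv_conj_mem_R i hr), rfl⟩⟩, ?_⟩
      show (S.xp i b * S.ww i) • _ • (g : G ⧸ S.U) = _
      rw [smul_mk_eq, smul_smul, smul_smul]
      congr 1
      group
  rw [tsum', tsum', ← himg, Finset.sum_image hinj, Finset.sum_product, sig_apply]
  refine Finset.sum_congr rfl fun a _ => ?_
  simp only [map_sum, Φ, cosetVec_smul, rho_mul]

/-- An invariant function has vanishing sum over a set on which a `p`-group has no fixed point. -/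
theorem sum_eq_zero_of_no_fixed {p : ℕ} [Fact p.Prime] [CharP k p] {H : Type*} [Group H]
    {X : Type*} [Fintype X] [MulAction H X] (hH : IsPGroup p H) (f : X → k)
    (hf : ∀ (h : H) (x : X), f (h • x) = f x) (hfix : ∀ x : X, ∃ h : H, h • x ≠ x) :
    ∑ x, f x = 0 := by
  classical
  let O := MulAction.orbitRel.Quotient H X
  haveI : Fintype O := Fintype.ofFinite _
  rw [← Finset.sum_fiberwise (s := (Finset.univ : Finset X))
    (g := fun x => (Quotient.mk'' x : O))]
  refine Finset.sum_eq_zero fun o _ => ?_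
  obtain ⟨y, rfl⟩ := Quotient.mk''_surjective o
  have hmem : ∀ x, x ∈ Finset.univ.filter (fun x => (Quotient.mk'' x : O) = Quotient.mk'' y) ↔
      x ∈ MulAction.orbit H y := fun x => by
    rw [Finset.mem_filter, Quotient.eq'', MulAction.orbitRel_apply]
    exact and_iff_right (Finset.mem_univ _)
  rw [Finset.sum_congr rfl (g := fun _ => f y) fun x hx => by
    obtain ⟨h, rfl⟩ := (hmem x).1 hx; exact hf h y, Finset.sum_const]
  obtain ⟨e, he⟩ := hH.card_orbit y
  rw [show (Finset.univ.filter fun x => (Quotient.mk'' x : O) = Quotient.mk'' y).card = p ^ e by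
      rw [← he, Nat.card_eq_fintype_card, ← Set.toFinset_card]
      congr 1
      ext x
      rw [hmem, Set.mem_toFinset],
    ← Nat.cast_smul_eq_nsmul k, Nat.cast_pow, CharP.cast_eq_zero k p, zero_pow ?_, zero_smul]
  rintro rfl
  obtain ⟨h, hh⟩ := hfix y
  rw [pow_zero, Nat.card_eq_one_iff_unique] at he
  exact hh (congrArg Subtype.val (he.1.elim ⟨h • y, MulAction.mem_orbit y h⟩
    ⟨y, MulAction.mem_orbit_self y⟩))

variable (p : ℕ) [Fact p.Prime] [CharP k p]

/-- Either the cell sum vanishes or the coset has no point fixed by its stabiliser. -/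
def CellVanish (ρ : Representation k G V) (v : V) (hU : ∀ u ∈ S.U, ρ u v = v) : Prop :=
  ∀ n ∈ S.N, n ∉ S.U → tsum' S ρ v hU n = 0 ∨
    ∀ g : G, n⁻¹ * g ∈ S.U → ∃ u ∈ S.U, n⁻¹ * u * n ∈ S.U ∧ u * g ≠ g * u

include p in
theorem apply_vector (hP : IsPGroup p S.U)
    (hcov : ∀ g : G, ∃ n ∈ S.N, ∃ u ∈ S.U, ∃ u' ∈ S.U, g = u * n * u')
    (ρ : Representation k G V) (v : V) (hU : ∀ u ∈ S.U, ρ u v = v)
    (hcell : CellVanish S ρ v hU) (f : G → k) (hf : ∀ a g, f (a * g * a⁻¹) = f g) :
    ∑ g, f g • ρ g v = (∑ g ∈ Finset.univ.filter (fun g => g ∈ S.U), f g) • v := by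
  classical
  let m : G ⧸ S.U → k := fun x => ∑ g ∈ Finset.univ.filter (fun g : G => (g : G ⧸ S.U) = x), f g
  have hm1 : m ((1 : G) : G ⧸ S.U) = ∑ g ∈ Finset.univ.filter (fun g => g ∈ S.U), f g :=
    Finset.sum_congr (Finset.filter_congr fun g _ => by
      rw [QuotientGroup.eq, mul_one, inv_mem_iff]) fun _ _ => rfl
  have hsum : ∑ g, f g • ρ g v = ∑ x, m x • cosetVec S ρ v hU x := by
    rw [← Finset.sum_fiberwise (s := (Finset.univ : Finset G)) (g := fun g : G => (g : G ⧸ S.U))]
    refine Finset.sum_congr rfl fun x _ => ?_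
    rw [Finset.sum_smul]
    refine Finset.sum_congr rfl fun g hg => ?_
    rw [← (Finset.mem_filter.1 hg).2, cosetVec_mk]
  have hminv : ∀ u ∈ S.U, ∀ x, m (u • x) = m x := by
    intro u hu x
    obtain ⟨a, rfl⟩ := QuotientGroup.mk_surjective x
    refine Finset.sum_nbij' (fun g => u⁻¹ * g * u) (fun g => u * g * u⁻¹) ?_ ?_
      (fun g _ => by group) (fun g _ => by group)
      fun g _ => by conv_rhs => rw [← hf u (u⁻¹ * g * u)]
                    congr 1; group
    · intro g hg
      simp only [Finset.mem_filter, Finset.mem_univ, true_and, MulAction.Quotient.smul_mk,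
        smul_eq_mul, QuotientGroup.eq] at hg ⊢
      convert mul_mem (inv_mem hu) hg using 1
      group
    · intro g hg
      simp only [Finset.mem_filter, Finset.mem_univ, true_and, MulAction.Quotient.smul_mk,
        smul_eq_mul, QuotientGroup.eq] at hg ⊢
      convert mul_mem hu hg using 1
      group
  rw [hsum, ← hm1]
  let orb : G ⧸ S.U → Finset (G ⧸ S.U) := fun x => Finset.univ.filter fun y => ∃ a ∈ S.U, y = a • x
  have horb : ∀ x y, y ∈ orb x ↔ ∃ a ∈ S.U, y = a • x := fun x y => by simp [orb]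
  have horb_eq : ∀ x y, orb y = orb x ↔ y ∈ orb x := fun x y => by
    constructor
    · intro h; rw [← h, horb]; exact ⟨1, one_mem _, (one_smul _ _).symm⟩
    · rintro h
      obtain ⟨a, ha, rfl⟩ := (horb x y).1 h
      ext z
      rw [horb, horb]
      constructor
      · rintro ⟨b, hb, rfl⟩; exact ⟨b * a, mul_mem hb ha, smul_smul b a x⟩
      · rintro ⟨b, hb, rfl⟩
        exact ⟨b * a⁻¹, mul_mem hb (inv_mem ha), by rw [smul_smul, inv_mul_cancel_right]⟩
  have hbase : orb ((1 : G) : G ⧸ S.U) = {((1 : G) : G ⧸ S.U)} := by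
    ext x
    rw [horb, Finset.mem_singleton]
    constructor
    · rintro ⟨a, ha, rfl⟩
      show ((a * 1 : G) : G ⧸ S.U) = _
      rw [mul_one, QuotientGroup.eq, mul_one]
      exact inv_mem ha
    · exact fun h => ⟨1, one_mem _, by rw [h, one_smul]⟩
  rw [← Finset.sum_fiberwise_of_maps_to (s := (Finset.univ : Finset (G ⧸ S.U))) (g := orb)
    (t := Finset.univ.image orb) (fun x _ => Finset.mem_image_of_mem _ (Finset.mem_univ _)),
    Finset.sum_eq_single (orb ((1 : G) : G ⧸ S.U))]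
  · rw [Finset.filter_congr (q := fun y => y = ((1 : G) : G ⧸ S.U)) fun y _ => by
        rw [horb_eq, hbase, Finset.mem_singleton]]
    rw [Finset.sum_filter, Finset.sum_ite_eq']
    simp [cosetVec_mk]
  · intro o ho hne
    obtain ⟨x, -, rfl⟩ := Finset.mem_image.1 ho
    obtain ⟨g, rfl⟩ := QuotientGroup.mk_surjective x
    obtain ⟨n, hn, u, hu, u', hu', rfl⟩ := hcov g
    have hxn : (((u * n * u' : G)) : G ⧸ S.U) = u • (n : G ⧸ S.U) := by
      show _ = ((u * n : G) : G ⧸ S.U)
      rw [QuotientGroup.eq]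
      convert inv_mem hu' using 1
      group
    have hox : orb ((u * n * u' : G) : G ⧸ S.U) = orb (n : G ⧸ S.U) :=
      (horb_eq _ _).2 ((horb _ _).2 ⟨u, hu, hxn⟩)
    rw [hox] at hne ⊢
    have hnU : n ∉ S.U := fun h => hne (congrArg orb (QuotientGroup.eq.2 (by simpa using h)))
    have heq : (Finset.univ.filter fun y => orb y = orb (n : G ⧸ S.U)) = cosetOrb S S.U n := by
      ext y
      rw [Finset.mem_filter, horb_eq, horb, mem_cosetOrb]
      exact and_iff_right (Finset.mem_univ _)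
    rw [heq, Finset.sum_congr rfl (g := fun y => m (n : G ⧸ S.U) • cosetVec S ρ v hU y)
      fun y hy => by obtain ⟨a, ha, rfl⟩ := (mem_cosetOrb S).1 hy; rw [hminv a ha],
      ← Finset.smul_sum]
    rcases hcell n hn hnU with h | h
    · rw [show ∑ y ∈ cosetOrb S S.U n, cosetVec S ρ v hU y = 0 from h, smul_zero]
    suffices m (n : G ⧸ S.U) = 0 by rw [this, zero_smul]
    let K : Subgroup G := S.U ⊓ S.U.comap (MulAut.conj n⁻¹).toMonoidHom
    let X := {g : G // n⁻¹ * g ∈ S.U}
    letI : MulAction K X :=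
      { smul := fun a g => ⟨(a : G) * g.1 * (a : G)⁻¹, by
          have h1 : n⁻¹ * (a : G) * n ∈ S.U := by simpa using (Subgroup.mem_inf.1 a.2).2
          convert mul_mem (mul_mem h1 g.2) (inv_mem (Subgroup.mem_inf.1 a.2).1) using 1
          group⟩
        one_smul := fun g => Subtype.ext (show (1 : G) * g.1 * (1 : G)⁻¹ = g.1 by group)
        mul_smul := fun a b g => Subtype.ext (by
          show ((a : G) * b) * g.1 * ((a : G) * b)⁻¹ = (a : G) * ((b : G) * g.1 * (b : G)⁻¹) * (a : G)⁻¹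
          group) }
    have hK : IsPGroup p K := hP.to_le inf_le_left
    have h0 := sum_eq_zero_of_no_fixed (k := k) hK (fun g : X => f g.1) (fun a g => hf _ _)
      fun g => by
        obtain ⟨a, ha, ha', hne⟩ := h g.1 g.2
        refine ⟨⟨a, Subgroup.mem_inf.2 ⟨ha, by simpa using ha'⟩⟩, fun e => hne ?_⟩
        have e' : a * g.1 * a⁻¹ = g.1 := congrArg Subtype.val e
        exact mul_inv_eq_iff_eq_mul.1 e'
    rw [← h0]
    refine Finset.sum_subtype _ (fun g => ?_) f
    rw [Finset.mem_filter, eq_comm, QuotientGroup.eq]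
    exact and_iff_right (Finset.mem_univ _)
  · intro h
    exact absurd (Finset.mem_image_of_mem _ (Finset.mem_univ _)) h

variable [CharP F p] [IsAlgClosed k] {V' : Type y} [AddCommGroup V'] [Module k V']

/-- A module separated from one of maximal dimension has a vector of degenerate weight. -/
theorem exists_zero_weight (hP : IsPGroup p S.U) [FiniteDimensional k V] [FiniteDimensional k V']
    [Nontrivial V] (ρ : Representation k G V) (ρ' : Representation k G V')
    (hirr' : ∀ W : Submodule k V', (∀ g, ∀ x ∈ W, ρ' g x ∈ W) → W = ⊥ ∨ W = ⊤)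
    (hdim' : Nat.card S.Uneg ≤ Module.finrank k V')
    (f : G → k) (hf : ∑ g, f g • ρ g = 0) (hf' : ∑ g, f g • ρ' g = 1) :
    ∃ v : V, v ≠ 0 ∧ ∃ _hU : ∀ u ∈ S.U, ρ u v = v, (∀ d ∈ S.T, ∃ e : k, ρ d v = e • v) ∧
      (∀ j : ι, ∃ c : k, sig S ρ j (ρ (S.ww j) v) = c • v) ∧
      ∃ i : ι, sig S ρ i (ρ (S.ww i) v) = 0 := by
  obtain ⟨W, hW, hmin⟩ := wellFounded_lt.has_min
    {W : Submodule k V | W ≠ ⊥ ∧ ∀ g, ∀ x ∈ W, ρ g x ∈ W}
    ⟨⊤, top_ne_bot, fun g x _ => Submodule.mem_top⟩
  let σ : Representation k G W :=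
    { toFun := fun g => (ρ g).restrict (hW.2 g)
      map_one' := LinearMap.ext fun x => Subtype.ext (show ρ 1 x.1 = x.1 by simp)
      map_mul' := fun a b => LinearMap.ext fun x => Subtype.ext (rho_mul ρ a b x.1) }
  haveI : Nontrivial W := Submodule.nontrivial_iff_ne_bot.2 hW.1
  obtain ⟨v, hv0, hU, hT, hdata⟩ := exists_vector S p hP σ
  have hsig : ∀ (j : ι) (x : W), ((sig S σ j x : W) : V) = sig S ρ j (x : V) := fun j x => by
    rw [sig_apply, sig_apply, Submodule.coe_sum]; rfl
  by_cases hz : ∃ i, sig S σ i (σ (S.ww i) v) = 0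
  · refine ⟨(v : V), fun h => hv0 (Subtype.ext h), fun u hu => congrArg Subtype.val (hU u hu),
      fun d hd => ?_, fun j => ?_, ?_⟩
    · obtain ⟨e, he⟩ := hT d hd
      exact ⟨e, congrArg Subtype.val he⟩
    · obtain ⟨μ, -, c, hc, -⟩ := hdata j
      refine ⟨c, ?_⟩
      have h := congrArg Subtype.val hc
      rw [hsig] at h
      exact h
    · obtain ⟨i, hi⟩ := hz
      refine ⟨i, ?_⟩
      have h := congrArg Subtype.val hi
      rw [hsig] at h
      exact h
  push Not at hz
  exfalso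
  have hone : ∀ j, (∀ u, σ (S.hh j u) v = v) ∧ sig S σ j (σ (S.ww j) v) = -v := by
    intro j
    obtain ⟨μ, hμ, c, hc, hcμ⟩ := hdata j
    have hc0 : c ≠ 0 := fun h => hz j (by rw [hc, h, zero_smul])
    have hμmul : ∀ a b, μ (a * b) = μ a * μ b := fun a b => by
      refine smul_left_injective k hv0 ?_
      show μ (a * b) • v = (μ a * μ b) • v
      rw [← hμ, S.hh_mul, rho_mul, hμ, map_smul, hμ, smul_smul, mul_comm]
    have hμ1 : μ 1 = 1 := by
      refine smul_left_injective k hv0 ?_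
      show μ 1 • v = (1 : k) • v
      rw [← hμ, S.hh_one, map_one, one_smul]; rfl
    have hcμ' : c = ∑ u : Fˣ, μ u := hcμ.resolve_left hc0
    let μh : Fˣ →* k := { toFun := μ, map_one' := hμ1, map_mul' := hμmul }
    have hμh : μh = 1 := by
      by_contra h
      exact hc0 (hcμ'.trans (sum_hom_units_eq_zero μh h))
    have hμone : ∀ u, μ u = 1 := fun u => DFunLike.congr_fun hμh u
    refine ⟨fun u => by rw [hμ, hμone, one_smul], ?_⟩
    rw [hc, hcμ', Finset.sum_congr rfl (g := fun _ => (1 : k)) (fun u _ => hμone u),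
      Finset.sum_const, nsmul_one, Finset.card_univ, Fintype.card_units,
      Nat.cast_sub Fintype.card_pos, ← Nat.card_eq_fintype_card, natCard_F_cast p, zero_sub,
      Nat.cast_one, neg_one_smul]
  have hgood : IsGood S σ v := ⟨hU, fun i u => ⟨1, by rw [(hone i).1 u, one_smul]⟩,
    fun i => ⟨-1, by rw [(hone i).2, neg_one_smul]⟩⟩
  have hirrW : ∀ W' : Submodule k W, (∀ g, ∀ x ∈ W', σ g x ∈ W') → W' = ⊥ ∨ W' = ⊤ := by
    intro W' hst
    rcases eq_or_ne W' ⊥ with h | h
    · exact Or.inl h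
    right
    have hle : W'.map W.subtype ≤ W := Submodule.map_subtype_le W W'
    have hne : W'.map W.subtype ≠ ⊥ := fun e => h (Submodule.map_injective_of_injective
      W.subtype_injective (e.trans (Submodule.map_bot _).symm))
    have he : W'.map W.subtype = W := hle.lt_or_eq.resolve_left (hmin _ ⟨hne, by
      rintro g _ ⟨y, hy, rfl⟩
      exact ⟨σ g y, hst g y hy, rfl⟩⟩)
    exact Submodule.map_injective_of_injective W.subtype_injective
      (he.trans (Submodule.map_subtype_top W).symm)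
  have htop : lowSpan S σ v = ⊤ := (hirrW _ fun g x hx => hgood.stable S g hx).resolve_left
    fun h => hv0 ((Submodule.mem_bot k).1 (h ▸ self_mem_lowSpan S σ v))
  obtain ⟨v', htop', hU', hdata'⟩ := exists_top_vector S p hP ρ' hirr' hdim'
  have hfσ : ∑ g, f g • σ g = 0 := LinearMap.ext fun x => Subtype.ext (by
    have h := LinearMap.congr_fun hf (x : V)
    simp only [LinearMap.sum_apply, LinearMap.smul_apply, LinearMap.zero_apply] at h ⊢
    rw [Submodule.coe_sum, Submodule.coe_zero]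
    exact h)
  exact pair_false S p ρ' σ (by have := Module.finrank_pos (R := k) (M := W); omega)
    htop' hU' hdata' htop hU hone f hf' hfσ

/-- The scalar of a class function on a module separated from one of maximal dimension. -/
theorem scalar_eq (hP : IsPGroup p S.U) [FiniteDimensional k V] [FiniteDimensional k V']
    [Nontrivial V] (hcov : ∀ g : G, ∃ n ∈ S.N, ∃ u ∈ S.U, ∃ u' ∈ S.U, g = u * n * u')
    (ρ : Representation k G V) (ρ' : Representation k G V')
    (hirr' : ∀ W : Submodule k V', (∀ g, ∀ x ∈ W, ρ' g x ∈ W) → W = ⊥ ∨ W = ⊤)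
    (hdim' : Nat.card S.Uneg ≤ Module.finrank k V')
    (hcell : ∀ (v : V) (hU : ∀ u ∈ S.U, ρ u v = v), (∀ d ∈ S.T, ∃ e : k, ρ d v = e • v) →
      (∀ j : ι, ∃ c : k, sig S ρ j (ρ (S.ww j) v) = c • v) →
      (∃ i : ι, sig S ρ i (ρ (S.ww i) v) = 0) → CellVanish S ρ v hU)
    (f : G → k) (hf : ∑ g, f g • ρ g = 0) (hf' : ∑ g, f g • ρ' g = 1)
    (h : G → k) (hh : ∀ a g, h (a * g * a⁻¹) = h g) {a : k} (ha : ∑ g, h g • ρ g = a • 1) :
    a = ∑ g ∈ Finset.univ.filter (fun g => g ∈ S.U), h g := by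
  obtain ⟨v, hv0, hU, hT, hc, hi⟩ := exists_zero_weight S p hP ρ ρ' hirr' hdim' f hf hf'
  refine smul_left_injective k hv0 ?_
  show a • v = _ • v
  rw [← apply_vector S p hP hcov ρ v hU (hcell v hU hT hc hi) h hh]
  have := LinearMap.congr_fun ha v
  simp only [LinearMap.sum_apply, LinearMap.smul_apply, Module.End.one_apply] at this
  exact this.symm

end Cfsg.Agent.Chars2.SplitBN
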