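import Mathlib.RingTheory.SimpleModule.IsAlgClosed
import Mathlib.RingTheory.HopkinsLevitzki
import Mathlib.RingTheory.Jacobson.Semiprimary
import Mathlib.RepresentationTheory.Basic
import Mathlib.FieldTheory.IsAlgClosed.Basic
import Mathlib.LinearAlgebra.Matrix.Charpoly.Coeff
import Mathlib.Algebra.CharP.Lemmas
import Mathlib.LinearAlgebra.Matrix.Basis
import Mathlib.LinearAlgebra.Dimension.Constructions
import Mathlib.Algebra.MonoidAlgebra.Basic
import Mathlib.Data.Nat.ChineseRemainder
import Mathlib.GroupTheory.GroupAction.ConjAct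
import Cfsg.Agent.Chars2.SplitBN.CentralScalar

/-!
Brauer's theorem: over an algebraically closed field of characteristic `p` a finite group has as
many simple modules as classes of elements of order prime to `p`.
-/

set_option autoImplicit false
set_option linter.unusedSectionVars false
set_option linter.style.haveILetI false
set_option maxHeartbeats 1000000

namespace Cfsg.Agent.Chars2.SplitBN.BrauerCount

open scoped Classical MonoidAlgebra

universe u v w

variable (p : ℕ) [hp : Fact p.Prime] {G : Type u} [Group G] [Fintype G]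

/-- An exponent giving the `p'`-part of every element. -/
noncomputable def regExp (G : Type u) [Group G] [Fintype G] : ℕ :=
  (Nat.chineseRemainder
    (n := p ^ (Nat.card G).factorization p) (m := ordCompl[p] (Nat.card G))
    ((Nat.Prime.coprime_iff_not_dvd hp.out).2
      (Nat.not_dvd_ordCompl hp.out Nat.card_pos.ne') |>.pow_left _) 0 1).1

theorem regExp_spec : regExp p G ≡ 0 [MOD p ^ (Nat.card G).factorization p] ∧
    regExp p G ≡ 1 [MOD ordCompl[p] (Nat.card G)] :=
  (Nat.chineseRemainder _ 0 1).2

/-- The `p'`-part. -/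
noncomputable def pr (g : G) : G := g ^ regExp p G

theorem pow_eq_of_modEq {g : G} {a b n : ℕ} (hn : g ^ n = 1) (h : a ≡ b [MOD n]) : g ^ a = g ^ b :=
  pow_eq_pow_iff_modEq.2 (h.of_dvd (orderOf_dvd_of_pow_eq_one hn))

theorem pr_pow_ordCompl (g : G) : pr p g ^ ordCompl[p] (Nat.card G) = 1 := by
  rw [pr, ← pow_mul]
  have h := (regExp_spec p (G := G)).1.mul_right' (ordCompl[p] (Nat.card G))
  rw [Nat.ordProj_mul_ordCompl_eq_self, zero_mul] at h
  rw [pow_eq_of_modEq (pow_card_eq_one') h, pow_zero]

theorem pr_coprime (g : G) : (orderOf (pr p g)).Coprime p :=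
  Nat.Coprime.coprime_dvd_left (orderOf_dvd_of_pow_eq_one (pr_pow_ordCompl p g))
    ((Nat.Prime.coprime_iff_not_dvd hp.out).2
      (Nat.not_dvd_ordCompl hp.out Nat.card_pos.ne')).symm

theorem pow_ordCompl_of_coprime {g : G} (hg : (orderOf g).Coprime p) :
    g ^ ordCompl[p] (Nat.card G) = 1 :=
  orderOf_dvd_iff_pow_eq_one.1 ((hg.pow_right _).dvd_of_dvd_mul_left
    (by rw [Nat.ordProj_mul_ordCompl_eq_self]; exact orderOf_dvd_natCard g))

theorem pr_of_coprime {g : G} (hg : (orderOf g).Coprime p) : pr p g = g := by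
  rw [pr, pow_eq_of_modEq (pow_ordCompl_of_coprime p hg) (regExp_spec p (G := G)).2, pow_one]

theorem pr_conj (c g : G) : pr p (c * g * c⁻¹) = c * pr p g * c⁻¹ := by
  rw [pr, pr, conj_pow]

theorem pr_pow_p (g : G) : pr p (g ^ p) = pr p g ^ p := by
  rw [pr, pr, ← pow_mul, ← pow_mul, mul_comm]

theorem exists_split (g : G) : ∃ u : G, u * pr p g = g ∧ Commute u (pr p g) ∧
    ∃ m : ℕ, u ^ p ^ m = 1 := by
  refine ⟨g * (pr p g)⁻¹, inv_mul_cancel_right _ _, ?_, (Nat.card G).factorization p, ?_⟩
  · exact ((Commute.self_pow g (regExp p G)).mul_left (Commute.refl (pr p g)).inv_left)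
  · show (g * (g ^ regExp p G)⁻¹) ^ p ^ (Nat.card G).factorization p = 1
    rw [(Commute.self_pow g (regExp p G)).inv_right.mul_pow, inv_pow, ← pow_mul,
      mul_inv_eq_one]
    have h := (regExp_spec p (G := G)).2.mul_left' (p ^ (Nat.card G).factorization p)
    rw [Nat.ordProj_mul_ordCompl_eq_self, mul_one] at h
    exact (pow_eq_of_modEq pow_card_eq_one' (by rw [mul_comm]; exact h)).symm

variable (k : Type v) [Field k]

/-- The sum of the coefficients at the elements whose `p'`-part is conjugate to `s`. -/
noncomputable def clsSum (s : G) : k[G] →ₗ[k] k where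
  toFun a := ∑ g, if IsConj (pr p g) s then a.coeff g else 0
  map_add' a b := by
    simp only [MonoidAlgebra.coeff_add, Finsupp.add_apply, ← Finset.sum_add_distrib]
    exact Finset.sum_congr rfl fun g _ => by split_ifs <;> simp
  map_smul' c a := by
    simp only [MonoidAlgebra.coeff_smul, Finsupp.smul_apply, RingHom.id_apply, smul_eq_mul,
      Finset.mul_sum]
    exact Finset.sum_congr rfl fun g _ => by split_ifs <;> simp

theorem clsSum_single (s g : G) (c : k) :
    clsSum p k s (MonoidAlgebra.single g c) = if IsConj (pr p g) s then c else 0 := by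
  show (∑ x, if IsConj (pr p x) s then (MonoidAlgebra.single g c).coeff x else 0) = _
  rw [Finset.sum_eq_single g]
  · simp
  · intro x _ hx; simp [Finsupp.single_apply, Ne.symm hx]
  · simp

theorem decomp (a : k[G]) : a = ∑ g, MonoidAlgebra.single g (a.coeff g) := by
  ext x
  simp [MonoidAlgebra.coeff_sum, Finsupp.single_apply]

theorem clsSum_comm (s : G) (a b : k[G]) : clsSum p k s (a * b) = clsSum p k s (b * a) := by
  rw [decomp k a, decomp k b]
  simp only [Finset.sum_mul, Finset.mul_sum, map_sum, MonoidAlgebra.single_mul_single,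
    clsSum_single]
  rw [Finset.sum_comm]
  refine Finset.sum_congr rfl fun x _ => Finset.sum_congr rfl fun y _ => ?_
  rw [mul_comm (a.coeff _) (b.coeff _)]
  have h : IsConj (pr p (x * y)) (pr p (y * x)) :=
    isConj_iff.2 ⟨y, by rw [← pr_conj]; congr 1; group⟩
  by_cases h1 : IsConj (pr p (x * y)) s
  · rw [if_pos (h.symm.trans h1)]; first | rw [if_pos h1] | rfl
  · rw [if_neg fun h2 => h1 (h.trans h2)]; first | rw [if_neg h1] | rfl

theorem pow_eq_sum (a : k[G]) : ∀ n : ℕ, a ^ n =
    ∑ f : Fin n → G, MonoidAlgebra.single (List.ofFn f).prod (∏ i, a.coeff (f i)) := by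
  intro n
  induction n with
  | zero => simp [MonoidAlgebra.one_def]
  | succ n ih =>
    rw [pow_succ', ih]
    conv_lhs => rw [decomp k a]
    rw [Finset.sum_mul, ← (Fin.consEquiv fun _ : Fin (n + 1) => G).sum_comp, Fintype.sum_prod_type]
    refine Finset.sum_congr rfl fun x _ => ?_
    rw [Finset.mul_sum]
    refine Finset.sum_congr rfl fun f _ => ?_
    rw [MonoidAlgebra.single_mul_single, ← decomp k a]
    simp [List.ofFn_succ, Fin.prod_univ_succ]

theorem prod_rotate {n : ℕ} (f : Fin n → G) :
    ∀ i : Fin n, IsConj ((List.ofFn fun j => f (j + i)).prod) (List.ofFn f).prod := by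
  intro i
  have hn : NeZero n := ⟨by have := i.isLt; omega⟩
  have h : (List.ofFn fun j => f (j + i)) = (List.ofFn f).rotate i := by
    refine List.ext_getElem (by simp) fun j hj hj' => ?_
    simp [List.getElem_rotate, Fin.add_def]
  rw [h, List.rotate_eq_drop_append_take (by simp [i.isLt.le]), List.prod_append]
  conv_rhs => rw [← List.take_append_drop (i : ℕ) (List.ofFn f), List.prod_append]
  exact isConj_iff.2 ⟨((List.ofFn f).take i).prod, by group⟩

variable [CharP k p]

theorem clsSum_pow_p {s : G} (hs : (orderOf s).Coprime p) (a : k[G]) :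
    clsSum p k (s ^ p) (a ^ p) = clsSum p k s a ^ p := by
  haveI : NeZero p := ⟨hp.out.ne_zero⟩
  rw [pow_eq_sum k a p, map_sum]
  simp only [clsSum_single]
  let F : (Fin p → G) → k := fun f =>
    if IsConj (pr p (List.ofFn f).prod) (s ^ p) then ∏ i, a.coeff (f i) else 0
  show ∑ f, F f = _
  have hconst : Finset.univ.filter (fun f : Fin p → G => ∀ i, f i = f 0) =
      Finset.univ.image fun g : G => fun _ => g := by
    ext f
    simp only [Finset.mem_filter, Finset.mem_univ, true_and, Finset.mem_image]
    exact ⟨fun h => ⟨f 0, funext fun i => (h i).symm⟩, by rintro ⟨g, rfl⟩ i; rfl⟩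
  rw [← Finset.sum_filter_add_sum_filter_not _ (fun f : Fin p → G => ∀ i, f i = f 0)]
  have hzero : ∑ f ∈ Finset.univ.filter (fun f : Fin p → G => ¬ ∀ i, f i = f 0), F f = 0 := by
    rw [Finset.sum_subtype (F := Fintype.ofFinite {f : Fin p → G // ¬ ∀ i, f i = f 0}) _
      (fun f => by simp) F]
    let X := {f : Fin p → G // ¬ ∀ i, f i = f 0}
    letI : Fintype X := Fintype.ofFinite _
    letI : MulAction (Multiplicative (Fin p)) X :=
      { smul := fun h f => ⟨fun j => f.1 (j + Multiplicative.toAdd h), fun hf => f.2 fun i => by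
          have e1 := hf (i - Multiplicative.toAdd h)
          have e2 := hf (0 - Multiplicative.toAdd h)
          simp only [sub_add_cancel] at e1 e2
          exact e1.trans e2.symm⟩
        one_smul := fun f => Subtype.ext (funext fun j => by
          show f.1 (j + 0) = f.1 j
          rw [add_zero])
        mul_smul := fun h h' f => Subtype.ext (funext fun j => by
          show f.1 (j + (Multiplicative.toAdd h + Multiplicative.toAdd h')) =
            f.1 (j + Multiplicative.toAdd h + Multiplicative.toAdd h')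
          rw [add_assoc]) }
    have hP : IsPGroup p (Multiplicative (Fin p)) :=
      IsPGroup.of_card (n := 1) (by
        rw [Nat.card_congr Multiplicative.toAdd, Nat.card_eq_fintype_card, Fintype.card_fin,
          pow_one])
    refine sum_eq_zero_of_no_fixed (k := k) hP (fun f : X => F f.1) (fun h f => ?_) fun f => ?_
    · show F (fun j => f.1 (j + Multiplicative.toAdd h)) = F f.1
      have hc := prod_rotate f.1 (Multiplicative.toAdd h)
      have hpr : IsConj (pr p (List.ofFn fun j => f.1 (j + Multiplicative.toAdd h)).prod)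
          (pr p (List.ofFn f.1).prod) := by
        obtain ⟨c, hc⟩ := isConj_iff.1 hc
        exact isConj_iff.2 ⟨c, by rw [← pr_conj, hc]⟩
      simp only [F]
      rw [Fintype.prod_equiv (Equiv.addRight (Multiplicative.toAdd h)) (fun j =>
        a.coeff (f.1 (j + Multiplicative.toAdd h))) (fun j => a.coeff (f.1 j)) fun j => rfl]
      by_cases h1 : IsConj (pr p (List.ofFn f.1).prod) (s ^ p)
      · rw [if_pos (hpr.trans h1), if_pos h1]
      · rw [if_neg fun h2 => h1 (hpr.symm.trans h2), if_neg h1]
    · obtain ⟨i, hi⟩ := not_forall.1 f.2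
      refine ⟨Multiplicative.ofAdd i, fun e => hi ?_⟩
      have e' : f.1 (0 + i) = f.1 0 := congrFun (congrArg Subtype.val e) 0
      rwa [zero_add] at e'
  rw [hzero, add_zero, hconst, Finset.sum_image fun g _ g' _ h => congrFun h 0]
  show _ = (∑ g, if IsConj (pr p g) s then a.coeff g else 0) ^ p
  rw [sum_pow_char]
  refine Finset.sum_congr rfl fun g _ => ?_
  simp only [F, List.ofFn_const, List.prod_replicate, Finset.prod_const, Finset.card_univ,
    Fintype.card_fin, pr_pow_p]
  have hiff : IsConj (pr p g ^ p) (s ^ p) ↔ IsConj (pr p g) s := by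
    constructor
    · intro h
      obtain ⟨c, hc⟩ := isConj_iff.1 h
      have hcop : Nat.Coprime p (ordCompl[p] (Nat.card G)) :=
        (Nat.Prime.coprime_iff_not_dvd hp.out).2
          (Nat.not_dvd_ordCompl hp.out (Nat.card_pos (α := G)).ne')
      obtain ⟨t, ht⟩ : ∃ t, p * t ≡ 1 [MOD ordCompl[p] (Nat.card G)] := by
        refine ⟨p ^ (Nat.totient (ordCompl[p] (Nat.card G)) - 1), ?_⟩
        rw [← pow_succ', Nat.sub_add_cancel
          (Nat.totient_pos.2 (Nat.ordCompl_pos p (Nat.card_pos (α := G)).ne'))]
        exact Nat.ModEq.pow_totient hcop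
      refine isConj_iff.2 ⟨c, ?_⟩
      have := congrArg (· ^ t) hc
      simp only [conj_pow, ← pow_mul] at this
      rwa [pow_eq_of_modEq (pr_pow_ordCompl p g) ht,
        pow_eq_of_modEq (pow_ordCompl_of_coprime p hs) ht, pow_one, pow_one] at this
    · intro h
      obtain ⟨c, hc⟩ := isConj_iff.1 h
      exact isConj_iff.2 ⟨c, by rw [← conj_pow, hc]⟩
  by_cases h1 : IsConj (pr p g) s
  · rw [if_pos (hiff.2 h1), if_pos h1]
  · rw [if_neg fun h => h1 (hiff.1 h), if_neg h1, zero_pow hp.out.ne_zero]

theorem clsSum_nilpotent {s : G} (hs : (orderOf s).Coprime p) {a : k[G]} (ha : IsNilpotent a) :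
    clsSum p k s a = 0 := by
  have key : ∀ (n : ℕ) (s : G), (orderOf s).Coprime p →
      clsSum p k (s ^ p ^ n) (a ^ p ^ n) = clsSum p k s a ^ p ^ n := by
    intro n
    induction n with
    | zero => intro s _; simp
    | succ n ih =>
      intro s hs
      rw [pow_succ, pow_mul, pow_mul, pow_mul,
        clsSum_pow_p p k (Nat.Coprime.coprime_dvd_left (orderOf_pow_dvd _) hs), ih s hs]
  obtain ⟨n, hn⟩ := ha
  have h := key n s hs
  rw [pow_eq_zero_of_le (hp.out.one_lt.le.trans' le_rfl |> fun _ =>
    (Nat.lt_pow_self hp.out.one_lt).le) hn, map_zero] at h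
  exact eq_zero_of_pow_eq_zero h.symm

/-- A trace form on a matrix algebra is a multiple of the trace. -/
theorem tracial_eq {n : ℕ} [NeZero n] (L : Matrix (Fin n) (Fin n) k →ₗ[k] k)
    (hL : ∀ x y, L (x * y) = L (y * x)) (x : Matrix (Fin n) (Fin n) k) :
    L x = L (Matrix.single 0 0 1) * x.trace := by
  have hd : ∀ a b : Fin n, a ≠ b → L (Matrix.single a b 1) = 0 := by
    intro a b hab
    have h := hL (Matrix.single a a (1 : k)) (Matrix.single a b 1)
    rw [Matrix.single_mul_single_same, Matrix.single_mul_single_of_ne _ _ _ _ (Ne.symm hab),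
      map_zero, mul_one] at h
    exact h
  have hs : ∀ a : Fin n, L (Matrix.single a a 1) = L (Matrix.single 0 0 1) := by
    intro a
    have h := hL (Matrix.single a 0 (1 : k)) (Matrix.single 0 a 1)
    rwa [Matrix.single_mul_single_same, Matrix.single_mul_single_same, mul_one] at h
  conv_lhs => rw [Matrix.matrix_eq_sum_single x]
  rw [map_sum, Matrix.trace, Finset.mul_sum]
  refine Finset.sum_congr rfl fun a _ => ?_
  rw [map_sum, Finset.sum_eq_single a (fun b _ hb => by
    rw [show Matrix.single a b (x a b) = x a b • Matrix.single a b 1 by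
      rw [Matrix.smul_single, smul_eq_mul, mul_one],
      map_smul, hd a b hb.symm, smul_zero]) (by simp)]
  rw [show Matrix.single a a (x a a) = x a a • Matrix.single a a 1 by
      rw [Matrix.smul_single, smul_eq_mul, mul_one], map_smul, hs, smul_eq_mul, mul_comm]
  rfl

variable [IsAlgClosed k]

/-- The `p`-regular classes. -/
abbrev RegCls (p : ℕ) (G : Type u) [Group G] : Type u :=
  {c : ConjClasses G // ∃ g : G, ConjClasses.mk g = c ∧ (orderOf g).Coprime p}

/-- Separated irreducible representations exhausting all, as many as the `p`-regular classes. -/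
theorem exists_simples : ∃ (d : RegCls p G → ℕ) (ρ : ∀ i, Representation k G (Fin (d i) → k)),
    (∀ i, 0 < d i) ∧
    (∀ i, ∀ W : Submodule k (Fin (d i) → k), (∀ g, ∀ x ∈ W, ρ i g x ∈ W) → W = ⊥ ∨ W = ⊤) ∧
    (∀ i j, i ≠ j → ∃ f : G → k, ∑ g, f g • ρ i g = 1 ∧ ∑ g, f g • ρ j g = 0) ∧
    ∀ (V : Type w) [AddCommGroup V] [Module k V] [Nontrivial V] (σ : Representation k G V),
      (∀ W : Submodule k V, (∀ g, ∀ x ∈ W, σ g x ∈ W) → W = ⊥ ∨ W = ⊤) →
      ∃ i, ∃ ψ : (Fin (d i) → k) →ₗ[k] V, Function.Bijective ψ ∧
        ∀ g z, σ g (ψ z) = ψ (ρ i g z) := by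
  haveI : IsArtinianRing k[G] := IsArtinianRing.of_finite k k[G]
  haveI : IsSemisimpleRing (k[G] ⧸ Ring.jacobson k[G]) := IsSemiprimaryRing.isSemisimpleRing
  obtain ⟨N, d, hd, ⟨ee⟩⟩ :=
    IsSemisimpleRing.exists_algEquiv_pi_matrix_of_isAlgClosed k (k[G] ⧸ Ring.jacobson k[G])
  obtain ⟨π, hπs, hπk⟩ : ∃ π : k[G] →ₐ[k] Π i, Matrix (Fin (d i)) (Fin (d i)) k,
      Function.Surjective π ∧ ∀ r, π r = 0 → r ∈ Ring.jacobson k[G] :=
    ⟨ee.toAlgHom.comp (Ideal.Quotient.mkₐ k (Ring.jacobson k[G])), fun y => by
      obtain ⟨r, hr⟩ := Ideal.Quotient.mk_surjective (ee.symm y)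
      exact ⟨r, by simp [hr]⟩, fun r hr =>
      Ideal.Quotient.eq_zero_iff_mem.1 (ee.injective (by simpa using hr))⟩
  haveI := hd
  obtain ⟨nJ, hnJ⟩ : IsNilpotent (Ring.jacobson k[G]) := IsSemiprimaryRing.isNilpotent
  have hnil : ∀ r, π r = 0 → IsNilpotent r := fun r hr => ⟨nJ, by
    have h := Ideal.pow_mem_pow (hπk r hr) nJ
    rw [hnJ] at h
    simpa using h⟩
  -- the number of simple factors
  have hcard : N = Nat.card (RegCls p G) := by
    haveI : Fintype (RegCls p G) := Fintype.ofFinite _
    let T : Fin N → k[G] →ₗ[k] k := fun i =>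
      (Matrix.traceLinearMap (Fin (d i)) k k).comp ((LinearMap.proj i).comp π.toLinearMap)
    have hT : ∀ i a, T i a = Matrix.trace (π a i) := fun i a => rfl
    choose rep hrep using fun c : RegCls p G => c.2
    let E : RegCls p G → k[G] →ₗ[k] k := fun c => clsSum p k (rep c)
    have hTi : LinearIndependent k T := by
      rw [Fintype.linearIndependent_iff]
      intro c hc i
      obtain ⟨r, hr⟩ := hπs fun j => Matrix.single (0 : Fin (d j)) 0 (if j = i then (1 : k) else 0)
      have h1 := LinearMap.congr_fun hc r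
      simp only [LinearMap.coe_sum, Finset.sum_apply, LinearMap.smul_apply, hT, hr,
        Matrix.trace_single_eq_same, smul_eq_mul, mul_ite, mul_one, mul_zero,
        Finset.sum_ite_eq', Finset.mem_univ, if_true, LinearMap.zero_apply] at h1
      exact h1
    have hconj : ∀ c c' : RegCls p G, IsConj (pr p (rep c)) (rep c') ↔ c = c' := fun c c' => by
      rw [pr_of_coprime p (hrep c).2, ← ConjClasses.mk_eq_mk_iff_isConj, (hrep c).1, (hrep c').1]
      exact Subtype.ext_iff.symm
    have hEi : LinearIndependent k E := by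
      rw [Fintype.linearIndependent_iff]
      intro e he c
      have h1 := LinearMap.congr_fun he (MonoidAlgebra.single (rep c) 1)
      simp only [LinearMap.coe_sum, Finset.sum_apply, LinearMap.smul_apply, E, clsSum_single,
        hconj, smul_eq_mul, mul_ite, mul_one, mul_zero, Finset.sum_ite_eq, Finset.mem_univ,
        if_true, LinearMap.zero_apply] at h1
      exact h1
    have hTE : ∀ i, T i ∈ Submodule.span k (Set.range E) := by
      intro i
      have hspl : ∀ g : G, T i (MonoidAlgebra.single g 1) =
          T i (MonoidAlgebra.single (pr p g) 1) := by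
        intro g
        obtain ⟨x, hx, hcom, m, hm⟩ := exists_split p g
        haveI : Nonempty (Fin (d i)) := ⟨0⟩
        haveI : CharP (Matrix (Fin (d i)) (Fin (d i)) k) p := Matrix.charP p
        let R : G →* Matrix (Fin (d i)) (Fin (d i)) k :=
          ((Pi.evalAlgHom k (fun j => Matrix (Fin (d j)) (Fin (d j)) k) i).comp π).toMonoidHom.comp
            (MonoidAlgebra.of k G)
        show Matrix.trace (R g) = Matrix.trace (R (pr p g))
        have hn : IsNilpotent (R x - 1) := ⟨p ^ m, by
          rw [sub_pow_char_pow_of_commute p m (Commute.one_right (R x)), ← map_pow, hm, map_one,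
            one_pow, sub_self]⟩
        have h1 : IsNilpotent ((R x - 1) * R (pr p g)) :=
          ((hcom.map R).sub_left (Commute.one_left _)).isNilpotent_mul_right hn
        have h2 := (Matrix.isNilpotent_trace_of_isNilpotent h1).eq_zero
        rwa [sub_mul, one_mul, ← map_mul, hx, Matrix.trace_sub, sub_eq_zero] at h2
      have hcl : ∀ x y : G, IsConj x y →
          T i (MonoidAlgebra.single x 1) = T i (MonoidAlgebra.single y 1) := by
        intro x y h
        obtain ⟨c, rfl⟩ := isConj_iff.1 h
        have e1 : MonoidAlgebra.single (c * x * c⁻¹) (1 : k) =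
            MonoidAlgebra.single c 1 * MonoidAlgebra.single (x * c⁻¹) 1 := by
          rw [MonoidAlgebra.single_mul_single, one_mul, mul_assoc]
        have e2 : MonoidAlgebra.single x (1 : k) =
            MonoidAlgebra.single (x * c⁻¹) 1 * MonoidAlgebra.single c 1 := by
          rw [MonoidAlgebra.single_mul_single, one_mul, inv_mul_cancel_right]
        rw [hT, hT, e1, e2, map_mul, map_mul, Pi.mul_apply, Pi.mul_apply, Matrix.trace_mul_comm]
      refine (Submodule.mem_span_range_iff_exists_fun k).2
        ⟨fun c => T i (MonoidAlgebra.single (rep c) 1), LinearMap.ext fun a => ?_⟩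
      have hdec : ∀ L : k[G] →ₗ[k] k, L a = ∑ g, L (MonoidAlgebra.single g (a.coeff g)) :=
        fun L => by conv_lhs => rw [decomp k a, map_sum]
      simp only [LinearMap.coe_sum, Finset.sum_apply, LinearMap.smul_apply, E, smul_eq_mul,
        hdec (T i), hdec (clsSum p k _), Finset.mul_sum]
      rw [Finset.sum_comm]
      refine Finset.sum_congr rfl fun g _ => ?_
      obtain ⟨c0, hc0⟩ : ∃ c0 : RegCls p G, c0.1 = ConjClasses.mk (pr p g) :=
        ⟨⟨_, pr p g, rfl, pr_coprime p g⟩, rfl⟩
      have hg0 : IsConj (pr p g) (rep c0) :=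
        ConjClasses.mk_eq_mk_iff_isConj.1 (hc0.symm.trans (hrep c0).1.symm)
      rw [Finset.sum_eq_single c0]
      · rw [clsSum_single, if_pos hg0,
          show MonoidAlgebra.single g (a.coeff g) = a.coeff g • MonoidAlgebra.single g (1 : k) by
            rw [MonoidAlgebra.smul_single, smul_eq_mul, mul_one],
          map_smul, hspl g, hcl _ _ hg0, smul_eq_mul, mul_comm]
      · intro c _ hc
        rw [clsSum_single, if_neg, mul_zero]
        intro h
        exact hc (Subtype.ext ((hrep c).1.symm.trans
          ((ConjClasses.mk_eq_mk_iff_isConj.2 h.symm).trans hc0.symm)))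
      · simp
    have hET : ∀ c, E c ∈ Submodule.span k (Set.range T) := by
      intro c
      obtain ⟨sec, hsec⟩ := π.toLinearMap.exists_rightInverse_of_surjective
        (LinearMap.range_eq_top.2 hπs)
      have hker : ∀ a b, π a = π b → E c a = E c b := by
        intro a b h
        rw [← sub_eq_zero, ← map_sub]
        exact clsSum_nilpotent p k (hrep c).2 (hnil _ (by rw [map_sub, h, sub_self]))
      have hπsec : ∀ y, π (sec y) = y := fun y => LinearMap.congr_fun hsec y
      let L : ∀ i, Matrix (Fin (d i)) (Fin (d i)) k →ₗ[k] k := fun i =>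
        (E c).comp (sec.comp (LinearMap.single k (fun j => Matrix (Fin (d j)) (Fin (d j)) k) i))
      have hL : ∀ i (x y : Matrix (Fin (d i)) (Fin (d i)) k), L i (x * y) = L i (y * x) := fun i x y => by
        show E c (sec (Pi.single i (x * y))) = E c (sec (Pi.single i (y * x)))
        rw [hker (sec (Pi.single i (x * y))) (sec (Pi.single i x) * sec (Pi.single i y))
            (by rw [map_mul, hπsec, hπsec, hπsec, Pi.single_mul]),
          hker (sec (Pi.single i (y * x))) (sec (Pi.single i y) * sec (Pi.single i x))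
            (by rw [map_mul, hπsec, hπsec, hπsec, Pi.single_mul])]
        exact clsSum_comm p k _ _ _
      refine (Submodule.mem_span_range_iff_exists_fun k).2
        ⟨fun i => L i (Matrix.single 0 0 1), LinearMap.ext fun a => ?_⟩
      simp only [LinearMap.coe_sum, Finset.sum_apply, LinearMap.smul_apply, smul_eq_mul, hT,
        ← tracial_eq k (L _) (hL _)]
      rw [hker a (sec (π a)) (hπsec _).symm]
      conv_rhs => rw [← Finset.univ_sum_single (π a)]
      rw [map_sum, map_sum]
      rfl
    have e : Submodule.span k (Set.range T) = Submodule.span k (Set.range E) :=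
      le_antisymm (Submodule.span_le.2 (by rintro _ ⟨i, rfl⟩; exact hTE i))
        (Submodule.span_le.2 (by rintro _ ⟨c, rfl⟩; exact hET c))
    have h1 := finrank_span_eq_card hTi
    rw [e, finrank_span_eq_card hEi, Fintype.card_fin] at h1
    rw [Nat.card_eq_fintype_card, h1]
  -- the representations
  haveI : Finite (RegCls p G) := inferInstance
  let eN : RegCls p G ≃ Fin N := (Finite.equivFinOfCardEq hcard.symm)
  let R : ∀ i : Fin N, Representation k G (Fin (d i) → k) := fun i =>
    { toFun := fun g => Matrix.mulVecLin (π (MonoidAlgebra.single g 1) i)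
      map_one' := by
        rw [← MonoidAlgebra.one_def, map_one, Pi.one_apply, Matrix.mulVecLin_one]; rfl
      map_mul' := fun a b => by
        show (π (MonoidAlgebra.single (a * b) 1) i).mulVecLin =
          (π (MonoidAlgebra.single a 1) i).mulVecLin ∘ₗ (π (MonoidAlgebra.single b 1) i).mulVecLin
        rw [← Matrix.mulVecLin_mul, ← Pi.mul_apply, ← map_mul, MonoidAlgebra.single_mul_single,
          one_mul] }
  have hR : ∀ i (r : k[G]) (z : Fin (d i) → k),
      (π r i).mulVec z = ∑ g, r.coeff g • R i g z := by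
    intro i r z
    conv_lhs => rw [decomp k r]
    rw [map_sum, Finset.sum_apply, Matrix.sum_mulVec]
    refine Finset.sum_congr rfl fun g _ => ?_
    rw [show MonoidAlgebra.single g (r.coeff g) = r.coeff g • MonoidAlgebra.single g (1 : k) by
        rw [MonoidAlgebra.smul_single, smul_eq_mul, mul_one],
      map_smul, Pi.smul_apply, Matrix.smul_mulVec]
    rfl
  have hirrR : ∀ (i : Fin N) (W : Submodule k (Fin (d i) → k)),
      (∀ g, ∀ z ∈ W, R i g z ∈ W) → W = ⊥ ∨ W = ⊤ := by
    intro i W hW
    rcases eq_or_ne W ⊥ with h | h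
    · exact Or.inl h
    refine Or.inr (Submodule.eq_top_iff'.2 fun y => ?_)
    obtain ⟨x, hx, hx0⟩ := Submodule.exists_mem_ne_zero_of_ne_bot h
    obtain ⟨j, hj⟩ := Function.ne_iff.1 hx0
    obtain ⟨r, hr⟩ := hπs (Pi.single i (Matrix.of fun a b => if b = j then y a * (x j)⁻¹ else 0))
    have e : (π r i).mulVec x = y := by
      rw [hr, Pi.single_eq_same]
      ext a
      simp [Matrix.mulVec, dotProduct, inv_mul_cancel₀ (show x j ≠ 0 from hj), mul_assoc]
    rw [← e, hR]
    exact W.sum_mem fun g _ => W.smul_mem _ (hW g x hx)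
  refine ⟨fun c => d (eN c), fun c => R (eN c), fun c => Nat.pos_of_ne_zero (hd (eN c)).out,
    fun c => hirrR (eN c), fun c c' hcc => ?_, ?_⟩
  · obtain ⟨r, hr⟩ := hπs (Pi.single (eN c) 1)
    refine ⟨fun g => r.coeff g, LinearMap.ext fun z => ?_, LinearMap.ext fun z => ?_⟩
    · simp only [LinearMap.coe_sum, Finset.sum_apply, LinearMap.smul_apply, ← hR, hr,
        Pi.single_eq_same, Matrix.one_mulVec, Module.End.one_apply]
    · simp only [LinearMap.coe_sum, Finset.sum_apply, LinearMap.smul_apply, ← hR, hr,
        Pi.single_eq_of_ne (eN.injective.ne (Ne.symm hcc)), Matrix.zero_mulVec,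
        LinearMap.zero_apply]
  intro V _ _ _ σ hirr
  let A : k[G] →ₐ[k] Module.End k V := MonoidAlgebra.lift k (Module.End k V) G σ
  have hA : ∀ g, A (MonoidAlgebra.single g 1) = σ g := fun g => by simp [A]
  have hJ : ∀ r ∈ Ring.jacobson k[G], A r = 0 := by
    let W : Submodule k V :=
      Submodule.span k {y | ∃ r ∈ Ring.jacobson k[G], ∃ x, A r x = y}
    have hWst : ∀ g, ∀ x ∈ W, σ g x ∈ W := by
      intro g x hx
      induction hx using Submodule.span_induction with
      | mem y hy =>
        obtain ⟨r, hr, z, rfl⟩ := hy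
        refine Submodule.subset_span ⟨MonoidAlgebra.single g 1 * r, Ideal.mul_mem_left _ _ hr,
          z, ?_⟩
        rw [map_mul, hA, Module.End.mul_apply]
      | zero => rw [map_zero]; exact W.zero_mem
      | add a b _ _ ha hb => rw [map_add]; exact W.add_mem ha hb
      | smul c a _ ha => rw [map_smul]; exact W.smul_mem c ha
    intro r hr
    rcases hirr W hWst with hW | hW
    · exact LinearMap.ext fun x => (Submodule.mem_bot k).1
        (hW ▸ Submodule.subset_span ⟨r, hr, x, rfl⟩)
    · exfalso
      have hpow : ∀ n : ℕ, ∀ x : V,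
          x ∈ Submodule.span k {y | ∃ r ∈ Ring.jacobson k[G] ^ n, ∃ z, A r z = y} := by
        intro n
        induction n with
        | zero =>
          intro x
          exact Submodule.subset_span ⟨1, Submodule.one_le.mp fun ⦃x⦄ a => a, x, by simp⟩
        | succ n ih =>
          intro x
          have hx := ih x
          refine (Submodule.span_le.2 ?_) hx
          rintro _ ⟨s, hs, z, rfl⟩
          have hz : z ∈ W := hW ▸ Submodule.mem_top
          clear hx
          induction hz using Submodule.span_induction with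
          | mem y hy =>
            obtain ⟨t, ht, z', rfl⟩ := hy
            refine Submodule.subset_span ⟨s * t, ?_, z', by rw [map_mul, Module.End.mul_apply]⟩
            rw [Submodule.pow_succ]
            exact Ideal.mul_mem_mul hs ht
          | zero => simp
          | add a b _ _ ha hb => rw [map_add]; exact Submodule.add_mem _ ha hb
          | smul c a _ ha => rw [map_smul]; exact Submodule.smul_mem _ c ha
      obtain ⟨x, hx⟩ := exists_ne (0 : V)
      refine hx ((Submodule.mem_bot k).1 ((Submodule.span_le.2 ?_) (hpow nJ x)))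
      rintro _ ⟨s, hs, z, rfl⟩
      rw [hnJ] at hs
      simp [show s = 0 by simpa using hs]
  have hAπ : ∀ r r', π r = π r' → A r = A r' := fun r r' h => by
    rw [← sub_eq_zero, ← map_sub]
    exact hJ _ (hπk _ (by rw [map_sub, h, sub_self]))
  choose sec hsec using hπs
  obtain ⟨x, hx⟩ := exists_ne (0 : V)
  obtain ⟨i, a, hia⟩ : ∃ (i : Fin N) (a : Fin (d i)),
      A (sec (Pi.single i (Matrix.single a a 1))) x ≠ 0 := by
    by_contra h
    push Not at h
    refine hx ?_
    have e : π 1 = π (∑ i, ∑ a, sec (Pi.single i (Matrix.single a a (1 : k)))) := by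
      rw [map_one]
      simp only [map_sum, hsec]
      funext i
      rw [Finset.sum_apply, Finset.sum_eq_single i (fun j _ hji => by
        rw [Finset.sum_apply]
        exact Finset.sum_eq_zero fun b _ => by rw [Pi.single_eq_of_ne (Ne.symm hji)]) (by simp),
        Finset.sum_apply]
      simp only [Pi.single_eq_same, Pi.one_apply]
      exact (Matrix.sum_single_one).symm
    have h1 := hAπ _ _ e
    rw [map_one] at h1
    have h2 := LinearMap.congr_fun h1 x
    simp only [map_sum, LinearMap.coe_sum, Finset.sum_apply, h, Finset.sum_const_zero,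
      Module.End.one_apply] at h2
    exact h2
  obtain ⟨c, hc⟩ := eN.surjective i
  subst hc
  let ψ : (Fin (d (eN c)) → k) →ₗ[k] V :=
    ∑ b, (LinearMap.proj b).smulRight (A (sec (Pi.single (eN c) (Matrix.single b a 1))) x)
  have hψ : ∀ z, ψ z = ∑ b, z b • A (sec (Pi.single (eN c) (Matrix.single b a 1))) x :=
    fun z => by simp [ψ]
  have hint : ∀ g z, σ g (ψ z) = ψ (R (eN c) g z) := by
    intro g z
    rw [hψ, hψ, map_sum]
    let M := π (MonoidAlgebra.single g 1) (eN c)
    have e : ∀ b, σ g (A (sec (Pi.single (eN c) (Matrix.single b a 1))) x) =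
        ∑ b', M b' b • A (sec (Pi.single (eN c) (Matrix.single b' a 1))) x := by
      intro b
      rw [← hA, ← Module.End.mul_apply, ← map_mul,
        hAπ (MonoidAlgebra.single g 1 * sec (Pi.single (eN c) (Matrix.single b a 1)))
          (∑ b', M b' b • sec (Pi.single (eN c) (Matrix.single b' a 1))) ?_]
      · simp only [map_sum, map_smul, LinearMap.coe_sum, Finset.sum_apply, LinearMap.smul_apply]
      · simp only [map_mul, map_sum, map_smul, hsec]
        funext j
        rcases eq_or_ne j (eN c) with rfl | hj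
        · simp only [Pi.mul_apply, Finset.sum_apply, Pi.smul_apply, Pi.single_eq_same]
          ext r s
          rw [Matrix.sum_apply]
          simp [Matrix.mul_apply, Matrix.single_apply, M, ite_and]
        · simp [hj]
    simp only [map_smul, e, Finset.smul_sum, smul_smul]
    rw [Finset.sum_comm]
    refine Finset.sum_congr rfl fun b' _ => ?_
    rw [← Finset.sum_smul]
    congr 1
    show _ = (M.mulVec z) b'
    exact Finset.sum_congr rfl fun b _ => mul_comm _ _
  have hψ0 : ψ ≠ 0 := fun h => hia (by
    have h1 := LinearMap.congr_fun h (Pi.single a 1)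
    rw [hψ, Finset.sum_eq_single a (fun b _ hb => by rw [Pi.single_eq_of_ne hb, zero_smul])
      (by simp), Pi.single_eq_same, one_smul] at h1
    exact h1)
  refine ⟨c, ψ, ⟨?_, ?_⟩, hint⟩
  · refine LinearMap.ker_eq_bot.1 ?_
    refine (hirrR (eN c) (LinearMap.ker ψ) fun g z hz => ?_).resolve_right
      fun h => hψ0 (LinearMap.ker_eq_top.1 h)
    rw [LinearMap.mem_ker, ← hint, LinearMap.mem_ker.1 hz, map_zero]
  · refine LinearMap.range_eq_top.1 ((hirr (LinearMap.range ψ) ?_).resolve_left
      fun h => hψ0 (LinearMap.range_eq_bot.1 h))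
    rintro g _ ⟨z, rfl⟩
    exact ⟨_, (hint g z).symm⟩

end Cfsg.Agent.Chars2.SplitBN.BrauerCount
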