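import Cfsg.Agent.Chars.Orth
import Cfsg.Agent.Chars.Eigen
import Cfsg.Agent.Chars.Gen
import Mathlib.LinearAlgebra.Trace
import Mathlib.GroupTheory.NoncommCoprod
import Mathlib.GroupTheory.Sylow

/-!
Averages of characters over a subgroup: a character with a given constituent of full degree, values
at elements of order prime to `p`, and a divisibility for characters vanishing off those elements.
-/

set_option autoImplicit false
set_option linter.unusedSectionVars false

universe u

namespace Cfsg.Agent.Chars2.SplitBN.Avg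

open Cfsg Cfsg.Agent.Chars

variable {Q : Type u} [Group Q]

/-- The sum of a character over a coset of a subgroup vanishes when the average has degree zero. -/
theorem exists_degree (R : Subgroup Q) [Fintype R] {χ : Q → ℂ} (hχ : IsCharacter Q χ) :
    ∃ d : ℕ, (∑ u : R, χ (u : Q)) = (Nat.card R : ℂ) * d ∧
      (d = 0 → ∀ g, ∑ u : R, χ (g * u) = 0) := by
  obtain ⟨n, ρ, rfl⟩ := hχ
  let A : Module.End ℂ (Fin n → ℂ) := ∑ u : R, ρ (u : Q)
  have hne : (Nat.card R : ℂ) ≠ 0 := by exact_mod_cast Nat.card_pos.ne'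
  let E : Module.End ℂ (Fin n → ℂ) := (Nat.card R : ℂ)⁻¹ • A
  have hrA : ∀ r : R, ρ (r : Q) * A = A := by
    intro r
    simp only [A, Finset.mul_sum]
    exact Fintype.sum_equiv (Equiv.mulLeft r) _ _ fun u => by simp [map_mul]
  have hAA : A * A = (Nat.card R : ℂ) • A := by
    conv_lhs => arg 1; simp only [A]
    rw [Finset.sum_mul, Finset.sum_congr rfl fun r _ => hrA r, Finset.sum_const, Finset.card_univ,
      Nat.card_eq_fintype_card, Nat.cast_smul_eq_nsmul]
  have hidem : IsIdempotentElem E := by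
    show E * E = E
    simp only [E, smul_mul_smul_comm, hAA, smul_smul]
    congr 1
    field_simp
  have htr : LinearMap.trace ℂ _ E = (Module.finrank ℂ (LinearMap.range E) : ℂ) :=
    (LinearMap.IsIdempotentElem.isProj_range E hidem).trace
  have hAE : A = (Nat.card R : ℂ) • E := by simp [E, smul_smul, hne]
  refine ⟨Module.finrank ℂ (LinearMap.range E), ?_, fun h0 g => ?_⟩
  · rw [← htr, ← smul_eq_mul, ← map_smul, ← hAE]
    simp [A, map_sum, Representation.character]
  · have hr : LinearMap.range E = ⊥ := Submodule.finrank_eq_zero.1 h0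
    have hE : E = 0 := LinearMap.range_eq_bot.1 hr
    have h1 : ∑ u : R, ρ.character (g * u) = LinearMap.trace ℂ _ (ρ g * A) := by
      simp only [A, Finset.mul_sum, map_sum, ← map_mul]
      rfl
    rw [h1, hAE, hE, smul_zero, mul_zero, map_zero]

/-- A character containing an irreducible character trivial on `R` once, and vanishing on `R` off
the identity, has that character as its `R`-average when the degrees allow nothing more. -/
theorem sum_coset_eq [Fintype Q] (R : Subgroup Q) [Fintype R] {χ f : Q → ℂ}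
    (hχ : IsCharacter Q χ) (hf : IsIrrCharacter Q f) (hfR : ∀ g, ∀ r ∈ R, f (g * r) = f g)
    (hinner : classInner χ f = 1) (hvan : ∀ r ∈ R, r ≠ 1 → χ r = 0) {a b : ℕ} (ha : χ 1 = a)
    (hb : f 1 = b) (hab : a ≤ Nat.card R * b) (g : Q) :
    ∑ u : R, χ (g * u) = (Nat.card R : ℂ) * f g := by
  classical
  obtain ⟨m, hm, hsum⟩ := exists_eq_sum_nsmul hχ
  choose d hd hd0 using fun ψ : IrrCharacter Q => exists_degree R (irr_isCharacter ψ)
  have hmf : m ⟨f, hf⟩ = 1 := by
    have h := hm ⟨f, hf⟩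
    rw [hinner] at h
    exact_mod_cast h.symm
  have hfs : ∀ g, ∑ u : R, f (g * u) = (Nat.card R : ℂ) * f g := by
    intro g
    rw [Finset.sum_congr rfl fun (u : R) _ => hfR g (u : Q) u.2, Finset.sum_const, Finset.card_univ,
      Nat.card_eq_fintype_card, nsmul_eq_mul]
  have hne : (Nat.card R : ℂ) ≠ 0 := by exact_mod_cast Nat.card_pos.ne'
  have hdf : d ⟨f, hf⟩ = b := by
    have h := hd ⟨f, hf⟩
    have h2 := hfs 1
    simp only [one_mul] at h2
    rw [show (∑ u : R, ((⟨f, hf⟩ : IrrCharacter Q) : Q → ℂ) (u : Q)) = ∑ u : R, f (u : Q) from rfl,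
      h2, hb] at h
    exact_mod_cast (mul_left_cancel₀ hne h).symm
  have hexp : ∀ g, ∑ u : R, χ (g * u) =
      ∑ ψ : IrrCharacter Q, (m ψ : ℂ) * ∑ u : R, (ψ : Q → ℂ) (g * u) := by
    intro g
    rw [hsum]
    simp only [Finset.sum_apply, Pi.smul_apply, nsmul_eq_mul, Finset.mul_sum]
    exact Finset.sum_comm
  have hone : (a : ℂ) = (Nat.card R : ℂ) * ((∑ ψ : IrrCharacter Q, m ψ * d ψ : ℕ) : ℂ) := by
    have h1 : ∑ u : R, χ (1 * (u : Q)) = χ 1 := by
      rw [Finset.sum_eq_single (1 : R)]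
      · simp
      · intro u _ hu
        rw [one_mul]
        exact hvan _ u.2 fun h => hu (Subtype.ext h)
      · simp
    rw [hexp] at h1
    rw [← ha, ← h1]
    push_cast
    rw [Finset.mul_sum]
    refine Finset.sum_congr rfl fun ψ _ => ?_
    rw [Finset.sum_congr rfl fun (u : R) _ => by rw [one_mul], hd ψ]
    ring
  have hone' : a = Nat.card R * ∑ ψ : IrrCharacter Q, m ψ * d ψ := by exact_mod_cast hone
  have hle : (∑ ψ : IrrCharacter Q, m ψ * d ψ) ≤ b :=
    Nat.le_of_mul_le_mul_left (hone' ▸ hab) Nat.card_pos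
  rw [← Finset.add_sum_erase _ _ (Finset.mem_univ (⟨f, hf⟩ : IrrCharacter Q))] at hle
  have hh : m ⟨f, hf⟩ * d ⟨f, hf⟩ = b := by rw [hmf, hdf, one_mul]
  have hzero : ∀ ψ : IrrCharacter Q, ψ ≠ ⟨f, hf⟩ → m ψ * d ψ = 0 := fun ψ hψ => by
    have := Finset.single_le_sum (f := fun ψ : IrrCharacter Q => m ψ * d ψ)
      (s := Finset.univ.erase ⟨f, hf⟩) (fun _ _ => Nat.zero_le _)
      (Finset.mem_erase.2 ⟨hψ, Finset.mem_univ ψ⟩)
    have h2 : m ψ * d ψ + b ≤ b := by linarith
    omega
  rw [hexp, Finset.sum_eq_single (⟨f, hf⟩ : IrrCharacter Q)]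
  · rw [hmf, Nat.cast_one, one_mul]
    exact hfs g
  · intro ψ _ hψ
    rcases Nat.mul_eq_zero.1 (hzero ψ hψ) with h | h
    · simp [h]
    · rw [hd0 ψ h g, mul_zero]
  · simp

/-- The sum over a coset of a normal `p`-subgroup of a class function supported on the elements of
order prime to `p`, at such an element. -/
theorem sum_coset_regular [Fintype Q] {p : ℕ} (R : Subgroup Q) [hRn : R.Normal]
    [Fintype R] {χ : Q → ℂ} (hcl : IsClassFunction Q χ)
    (hvan : ∀ x, p ∣ orderOf x → χ x = 0) {g : Q}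
    (hreg : ∀ u ∈ R, ¬ p ∣ orderOf (g * u) → ∃ r ∈ R, g * u = r * g * r⁻¹) :
    (∑ u : R, χ (g * u)) * (Nat.card ↥(R ⊓ Subgroup.centralizer ({g} : Set Q)) : ℂ) =
      χ g * (Nat.card R : ℂ) := by
  classical
  have hmem : ∀ r : R, g⁻¹ * r * g * (r : Q)⁻¹ ∈ R := fun r =>
    mul_mem (by simpa using hRn.conj_mem _ r.2 g⁻¹) (inv_mem r.2)
  let φ : R → R := fun r => ⟨g⁻¹ * r * g * (r : Q)⁻¹, hmem r⟩
  have hcase : ∀ u : R, χ (g * u) = if u ∈ Finset.univ.image φ then χ g else 0 := by
    intro u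
    split_ifs with h
    · obtain ⟨r, -, rfl⟩ := Finset.mem_image.1 h
      rw [show g * ((φ r : R) : Q) = (r : Q) * g * (r : Q)⁻¹ by simp [φ]; group, hcl]
    · refine hvan _ ?_
      by_contra hd
      obtain ⟨r, hr, e⟩ := hreg u u.2 hd
      refine h (Finset.mem_image.2 ⟨⟨r, hr⟩, Finset.mem_univ _, Subtype.ext ?_⟩)
      show g⁻¹ * r * g * r⁻¹ = (u : Q)
      rw [show g⁻¹ * r * g * r⁻¹ = g⁻¹ * (r * g * r⁻¹) by group, ← e, inv_mul_cancel_left]
  rw [Finset.sum_congr rfl fun u _ => hcase u, Finset.sum_ite_mem, Finset.univ_inter,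
    Finset.sum_const, nsmul_eq_mul]
  set K : Subgroup R := (R ⊓ Subgroup.centralizer ({g} : Set Q)).subgroupOf R with hK
  have hfib : ∀ r r' : R, φ r = φ r' ↔ r⁻¹ * r' ∈ K := by
    intro r r'
    rw [hK, Subgroup.mem_subgroupOf, Subgroup.mem_inf, Subgroup.mem_centralizer_singleton_iff]
    simp only [Subgroup.coe_mul, InvMemClass.coe_inv, φ, Subtype.mk.injEq]
    constructor
    · intro h
      refine ⟨mul_mem (inv_mem r.2) r'.2, ?_⟩
      have h2 : (r : Q) * g * (r : Q)⁻¹ = (r' : Q) * g * (r' : Q)⁻¹ := by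
        have := congrArg (g * ·) h
        simpa [mul_assoc] using this
      calc (r : Q)⁻¹ * r' * g = (r : Q)⁻¹ * (r' * g * (r' : Q)⁻¹) * r' := by group
        _ = g * ((r : Q)⁻¹ * r') := by rw [← h2]; group
    · rintro ⟨-, h⟩
      have h2 : (r' : Q) * g * (r' : Q)⁻¹ = (r : Q) * g * (r : Q)⁻¹ := by
        calc (r' : Q) * g * (r' : Q)⁻¹ = (r : Q) * ((r : Q)⁻¹ * r' * g) * (r' : Q)⁻¹ := by group
          _ = (r : Q) * g * (r : Q)⁻¹ := by rw [h]; group
      calc g⁻¹ * (r : Q) * g * (r : Q)⁻¹ = g⁻¹ * ((r : Q) * g * (r : Q)⁻¹) := by group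
        _ = g⁻¹ * ((r' : Q) * g * (r' : Q)⁻¹) := by rw [h2]
        _ = _ := by group
  have hcard : (Finset.univ.image φ).card = K.index := by
    rw [← Nat.card_eq_finsetCard, Subgroup.index]
    refine (Nat.card_eq_of_bijective
      (fun q : R ⧸ K => (⟨φ q.out, Finset.mem_image.2 ⟨_, Finset.mem_univ _, rfl⟩⟩ :
        ↥(Finset.univ.image φ))) ⟨?_, ?_⟩).symm
    · intro q q' h
      rw [← QuotientGroup.out_eq' q, ← QuotientGroup.out_eq' q']
      exact QuotientGroup.eq.2 ((hfib _ _).1 (Subtype.mk.inj h))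
    · rintro ⟨x, hx⟩
      obtain ⟨r, -, rfl⟩ := Finset.mem_image.1 hx
      refine ⟨(r : R ⧸ K), Subtype.ext ((hfib _ _).2 ?_)⟩
      exact QuotientGroup.eq.1 (QuotientGroup.out_eq' (r : R ⧸ K))
  rw [hcard, ← Nat.card_congr (Subgroup.subgroupOfEquivOfLe
    (inf_le_left : R ⊓ Subgroup.centralizer ({g} : Set Q) ≤ R)).toEquiv, ← hK]
  rw [mul_comm (K.index : ℂ), mul_assoc, ← Nat.cast_mul, mul_comm K.index, Subgroup.card_mul_index]

/-- A character vanishing on the elements of order divisible by `p` takes at an element of order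
prime to `p` a value divisible by the order of any `p`-group centralising it. -/
theorem card_dvd_value {G : Type u} [Group G] [Finite G] {p : ℕ} [hp : Fact p.Prime] {χ : G → ℂ}
    (hχ : IsCharacter G χ) (hvan : ∀ x, p ∣ orderOf x → χ x = 0) {g : G} {a : ℕ}
    (ha : χ g = a ∨ χ g = -(a : ℂ)) {P : Subgroup G} (hP : IsPGroup p P)
    (hPC : P ≤ Subgroup.centralizer ({g} : Set G)) (hg : ¬ p ∣ orderOf g) : Nat.card P ∣ a := by
  classical
  haveI : Fintype G := Fintype.ofFinite G
  set A : Subgroup G := Subgroup.zpowers g with hA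
  have hcomm : ∀ (x : A) (y : P), Commute ((x : G)) (y : G) := by
    rintro ⟨x, hx⟩ ⟨y, hy⟩
    obtain ⟨k, rfl⟩ := Subgroup.mem_zpowers_iff.1 hx
    have h := Subgroup.mem_centralizer_singleton_iff.1 (hPC hy)
    exact (Commute.zpow_left (Commute.symm h) k)
  let Φ : A × P →* G := MonoidHom.noncommCoprod A.subtype P.subtype hcomm
  have hΦ : ∀ x : A × P, Φ x = (x.1 : G) * (x.2 : G) := fun x => rfl
  haveI : Fintype A := Fintype.ofFinite _
  haveI : Fintype P := Fintype.ofFinite _
  have hxi : IsCharacter (A × P) (fun x => χ (Φ x)) := isCharacter_comp hχ Φ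
  have hoff : ∀ x : A × P, x.2 ≠ 1 → χ (Φ x) = 0 := by
    intro x hx
    rw [hΦ]
    refine hvan _ ?_
    have hx2 : (x.2 : G) ≠ 1 := fun h => hx (Subtype.ext h)
    obtain ⟨k, hk⟩ := hP x.2
    have hk' : (x.2 : G) ^ p ^ k = 1 := by simpa using congrArg Subtype.val hk
    obtain ⟨j, -, hj⟩ := (Nat.dvd_prime_pow hp.out).1 (orderOf_dvd_of_pow_eq_one hk')
    have hdA : orderOf (x.1 : G) ∣ orderOf g := by
      obtain ⟨m, hm⟩ := Subgroup.mem_zpowers_iff.1 x.1.2
      rw [← hm]
      refine orderOf_dvd_of_pow_eq_one ?_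
      rw [← zpow_natCast, ← zpow_mul, mul_comm, zpow_mul, zpow_natCast, pow_orderOf_eq_one, one_zpow]
    have hco : (orderOf (x.1 : G)).Coprime (orderOf (x.2 : G)) := by
      rw [hj]
      exact (Nat.Coprime.pow_left _ ((hp.out.coprime_iff_not_dvd).2
        fun h => hg (h.trans hdA))).symm
    rw [(hcomm x.1 x.2).orderOf_mul_eq_mul_orderOf_of_coprime hco, hj]
    rcases Nat.eq_zero_or_pos j with h0 | h0
    · exact absurd (orderOf_eq_one_iff.1 (by rw [hj, h0, pow_zero])) hx2
    · exact Dvd.dvd.mul_left (dvd_pow_self p h0.ne') _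
  have hcl : IsClassFunction A (fun y : A => χ (y : G)) :=
    isClassFunction_of_isCharacter (isCharacter_restrict hχ A)
  have hint : ∀ lam : IrrCharacter A,
      ∃ n : ℤ, classInner (fun y : A => χ (y : G)) (lam : A → ℂ) = (Nat.card P : ℂ) * n := by
    intro lam
    obtain ⟨n, hn⟩ := exists_classInner_eq_int (isGen_of_isCharacter hxi)
      (isGen_of_isCharacter (isCharacter_comp (irr_isCharacter lam) (MonoidHom.fst A P)))
    refine ⟨n, ?_⟩
    rw [← hn, classInner, classInner, Nat.card_prod, Fintype.sum_prod_type]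
    simp only [Function.comp_apply, MonoidHom.coe_fst]
    have hinn : ∀ y : A, ∑ z : P, χ (Φ (y, z)) *
        (starRingEnd ℂ) ((lam : A → ℂ) y) =
        χ (y : G) * (starRingEnd ℂ) ((lam : A → ℂ) y) := by
      intro y
      rw [Finset.sum_eq_single (1 : P)]
      · simp [hΦ]
      · intro z _ hz
        rw [hoff _ (by simpa using hz), zero_mul]
      · simp
    rw [Finset.sum_congr rfl fun y _ => hinn y]
    have hne : (Nat.card P : ℂ) ≠ 0 := by exact_mod_cast Nat.card_pos.ne'
    push_cast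
    field_simp
  choose n hn using hint
  have hval : χ g = (Nat.card P : ℂ) *
      ∑ lam : IrrCharacter A, (n lam : ℂ) * (lam : A → ℂ) ⟨g, Subgroup.mem_zpowers g⟩ := by
    have h := congrFun (eq_sum_classInner hcl) ⟨g, Subgroup.mem_zpowers g⟩
    simp only [Finset.sum_apply, Pi.smul_apply, smul_eq_mul] at h
    rw [h, Finset.mul_sum]
    exact Finset.sum_congr rfl fun lam _ => by rw [hn]; ring
  have hi : IsIntegral ℤ
      (∑ lam : IrrCharacter A, (n lam : ℂ) * (lam : A → ℂ) ⟨g, Subgroup.mem_zpowers g⟩) :=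
    IsIntegral.sum _ fun lam _ => IsIntegral.mul
      (by simpa using isIntegral_algebraMap (R := ℤ) (A := ℂ) (x := n lam))
      (isIntegral_of_isCharacter (irr_isCharacter lam) _)
  refine dvd_of_isIntegral_div Nat.card_pos ?_
  have hne : (Nat.card P : ℂ) ≠ 0 := by exact_mod_cast Nat.card_pos.ne'
  rcases ha with h | h
  · rw [← h, hval, mul_div_cancel_left₀ _ hne]
    exact hi
  · rw [show (a : ℂ) = -χ g by rw [h, neg_neg], hval, neg_div, mul_div_cancel_left₀ _ hne]
    exact hi.neg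

end Cfsg.Agent.Chars2.SplitBN.Avg
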