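import Cfsg.Agent.Chars2.SplitBN.CentralScalar
import Cfsg.Agent.Chars2.SplitBN.Chev
import Cfsg.Agent.Chev.Simple

/-!
The cells of a tabulated Chevalley group against a weight which is degenerate at one fundamental
root.
-/

set_option autoImplicit false
set_option linter.unusedSectionVars false

universe u v w

namespace Cfsg.Agent.Chars2.SplitBN

open Cfsg.Lie Cfsg.Agent.Chev
open scoped Matrix MatrixGroups

variable {D : ChevalleyDatum} {F : Type u} [Field F] (C : Cert.{u} D)
include C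

/-- The positive roots above a height. -/
abbrev above (r : ℕ) : ℕ → Prop := C.layer D.IsPosRoot ((C.ht r).toNat + 1)

theorem not_above_self {r : ℕ} (hr : D.IsPosRoot r) : ¬ above C r r := fun h => by
  have := h.2
  have := C.ht_pos hr
  push_cast at *
  omega

theorem closedSet_insert_above {r : ℕ} (hr : D.IsPosRoot r) :
    ClosedSet D (fun s => s = r ∨ above C r s) := by
  have key : ∀ s, (s = r ∨ above C r s) → D.IsPosRoot s ∧ C.ht r ≤ C.ht s := by
    rintro s (rfl | h)
    · exact ⟨hr, le_rfl⟩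
    · refine ⟨h.1, ?_⟩
      have := h.2
      push_cast at this
      omega
  refine ⟨fun s hs => (key s hs).1, fun a b ha hb c hc => Or.inr ⟨?_, ?_⟩⟩
  · exact C.commTerms_pos (key a ha).1 (key b hb).1 c hc
  · obtain ⟨ha1, ha2⟩ := key a ha
    obtain ⟨hb1, hb2⟩ := key b hb
    obtain ⟨h1, h2, h3⟩ := C.commTerms_ht ha1.1 hb1.1 c hc
    have := C.ht_pos hr
    have b1 : C.ht a ≤ (c.2.2.1 : ℤ) * C.ht a :=
      le_mul_of_one_le_left (C.ht_pos ha1).le (by omega)
    have b2 : C.ht b ≤ (c.2.2.2 : ℤ) * C.ht b :=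
      le_mul_of_one_le_left (C.ht_pos hb1).le (by omega)
    push_cast
    omega

/-- Conjugation by the unipotent group keeps a root element modulo higher ones. -/
theorem conj_congr {r : ℕ} (hr : D.IsPosRoot r) {u : GL D.Idx F} (hu : u ∈ D.posUnipotent F)
    (c : F) : u * C.xu r c * u⁻¹ * (C.xu r c)⁻¹ ∈ spanGroup D F (above C r) := by
  set x := C.xu r c
  set Λ := spanGroup D F (above C r) with hΛ
  have hn : D.posUnipotent F ≤ Subgroup.normalizer (Λ : Set (GL D.Idx F)) := by
    rw [← Cert.span_pos]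
    exact C.layer_normal C.closedSet_pos _
  rw [← Cert.span_pos] at hu
  induction hu using Subgroup.closure_induction with
  | mem g hg =>
    obtain ⟨s, t, hs, e⟩ := hg
    rw [show g = C.xu s t from Units.ext (e.trans (C.coe_xu s t).symm)]
    by_cases he : r = s
    · subst he
      rw [C.xu_inv, C.xu_add, C.xu_add, C.xu_inv, C.xu_add, show t + c + -t + -c = (0 : F) by ring,
        C.xu_zero]
      exact one_mem _
    · rw [C.conj_xu hs.1 hr.1 he (fun e' => C.not_pos_and_neg hr (e' ▸ C.negRoot_neg hs))]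
      have h1 : C.wu (D.commWord F s r (-t) c) ∈ Λ := by
        refine C.wu_mem_span _ fun q hq => ?_
        obtain ⟨z, hz, rfl⟩ := List.mem_map.mp hq
        refine ⟨C.commTerms_pos hs hr z hz, ?_⟩
        obtain ⟨a1, a2, a3⟩ := C.commTerms_ht hs.1 hr.1 z hz
        have := C.ht_pos hr
        have b1 : C.ht s ≤ (z.2.2.1 : ℤ) * C.ht s :=
          le_mul_of_one_le_left (C.ht_pos hs).le (by omega)
        have b2 : C.ht r ≤ (z.2.2.2 : ℤ) * C.ht r :=
          le_mul_of_one_le_left (C.ht_pos hr).le (by omega)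
        have := C.ht_pos hs
        push_cast
        omega
      exact (Subgroup.mem_normalizer_iff.mp (hn (C.xu_mem_pos hr c)) _).mp h1
  | one => simp [x]
  | mul a b ha hb iha ihb =>
    have ha' : a ∈ D.posUnipotent F := by rw [← Cert.span_pos]; exact ha
    rw [show a * b * x * (a * b)⁻¹ * x⁻¹ =
      (a * (b * x * b⁻¹ * x⁻¹) * a⁻¹) * (a * x * a⁻¹ * x⁻¹) by group]
    exact mul_mem ((Subgroup.mem_normalizer_iff.mp (hn ha') _).mp ihb) iha
  | inv a ha iha =>
    have ha' : a⁻¹ ∈ D.posUnipotent F := by rw [← Cert.span_pos]; exact inv_mem ha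
    have h := (Subgroup.mem_normalizer_iff.mp (hn ha') _).mp (inv_mem iha)
    convert h using 1
    group

theorem coe_xu_pos_ne {r : ℕ} (hr : D.IsPosRoot r) {c : F} (hc : c ≠ 0) : C.xu r c ≠ 1 :=
  fun h => hc (C.xu_eq_one hr.1 h)

theorem xu_mem_span_pos {P : ℕ → Prop} (hP : ClosedSet D P) {r : ℕ} (hr : D.IsPosRoot r) {c : F}
    (hc : c ≠ 0) (h : C.xu r c ∈ spanGroup D F P) : P r := by
  obtain ⟨t, ht, e⟩ := C.exists_prodU hP h
  have e' := C.prodU_inj ((C.prodU_single hr c).trans e) r hr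
  simp only [if_true] at e'
  exact ht r (e' ▸ hc)

theorem conj_root_le {r r' : ℕ} (hr : D.IsPosRoot r) (hr' : D.IsPosRoot r') {u : GL D.Idx F}
    (hu : u ∈ D.posUnipotent F) {c c' : F} (hc' : c' ≠ 0)
    (h : u * C.xu r c * u⁻¹ = C.xu r' c') : r' = r ∨ C.ht r < C.ht r' := by
  have h1 := conj_congr C hr hu c
  rw [h] at h1
  have h2 : C.xu r' c' ∈ spanGroup D F (fun s => s = r ∨ above C r s) := by
    have h3 := mul_mem (C.span_mono (Q := fun s => s = r ∨ above C r s) (fun s hs => Or.inr hs) h1)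
      (C.xu_mem_span (P := fun s => s = r ∨ above C r s) (Or.inl rfl) c)
    rwa [inv_mul_cancel_right] at h3
  rcases xu_mem_span_pos C (closedSet_insert_above C hr) hr' hc' h2 with h3 | h3
  · exact Or.inl h3
  · have := h3.2
    have := C.ht_pos hr
    right
    push_cast at *
    omega

theorem conj_root_eq {r r' : ℕ} (hr : D.IsPosRoot r) (hr' : D.IsPosRoot r') {u : GL D.Idx F}
    (hu : u ∈ D.posUnipotent F) {c c' : F} (hc : c ≠ 0) (hc' : c' ≠ 0)
    (h : u * C.xu r c * u⁻¹ = C.xu r' c') : r' = r ∧ c' = c := by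
  have h' : u⁻¹ * C.xu r' c' * u⁻¹⁻¹ = C.xu r c := by rw [← h]; group
  have he : r' = r := by
    rcases conj_root_le C hr hr' hu hc' h with e | e
    · exact e
    rcases conj_root_le C hr' hr (inv_mem hu) hc h' with e' | e'
    · exact e'.symm
    omega
  subst he
  refine ⟨rfl, ?_⟩
  by_contra hne
  have h1 := conj_congr C hr hu c
  rw [h, C.xu_inv, C.xu_add, ← sub_eq_add_neg] at h1
  exact not_above_self C hr (xu_mem_span_pos C
    ⟨fun s hs => hs.1, fun a b ha hb z hz => by
      have h2 := (closedSet_insert_above C hr).closed a b (Or.inr ha) (Or.inr hb) z hz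
      refine h2.resolve_left fun e => ?_
      obtain ⟨a1, a2, a3⟩ := C.commTerms_ht ha.1.1 hb.1.1 z hz
      have h4 := ha.2
      have h5 := hb.2
      have b1 : C.ht a ≤ (z.2.2.1 : ℤ) * C.ht a :=
        le_mul_of_one_le_left (C.ht_pos ha.1).le (by omega)
      have b2 : C.ht b ≤ (z.2.2.2 : ℤ) * C.ht b :=
        le_mul_of_one_le_left (C.ht_pos hb.1).le (by omega)
      have := C.ht_pos hr
      rw [e] at a3
      push_cast at h4 h5
      omega⟩ hr (sub_ne_zero.2 hne) h1)

/-- A word fixing the positive roots meeting a node fixes every fundamental root. -/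
theorem act_simple_eq {pa : List ℕ} (htree : TreeOK D pa) {L : List ℕ}
    (hL : ∀ i ∈ L, i < D.rank) {i : ℕ} (hi : i < D.rank)
    (hfix : ∀ r, D.IsPosRoot r → C.coef r i ≠ 0 → act D L r = r) :
    ∀ j < D.rank, act D L (D.simple j) = D.simple j := by
  have hbase : act D L (D.simple i) = D.simple i :=
    hfix _ (C.pos_simple hi) (by rw [C.coef_simple i hi i hi, if_pos rfl]; exact one_ne_zero)
  let Good : ℕ → Prop := fun k => k = i ∨ ∃ r, D.IsPosRoot r ∧ C.coef r i ≠ 0 ∧ D.cartan k r ≠ 0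
  have hgood : ∀ k < D.rank, Good k := by
    refine closed_of_tree htree ⟨i, hi, Or.inl rfl⟩ fun a ha b hb hS hne => ?_
    by_cases hbi : b = i
    · exact Or.inl hbi
    by_cases hba : b = a
    · exact hba ▸ hS
    have hsym : D.cartan b (D.simple a) ≠ 0 := by
      have e1 := C.coef_refl a ha _ (C.simple_lt b hb)
      intro h0
      -- `b` fixes the root `a`, so `a` fixes the root `b`
      have hfixb : D.reflectRoot b (D.simple a) = D.simple a := by
        refine C.coef_inj _ (C.refl_lt b hb _ (C.simple_lt a ha)) _ (C.simple_lt a ha) fun j hj => ?_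
        rw [C.coef_refl b hb _ (C.simple_lt a ha) j hj, h0]
        simp
      have hpos : D.IsPosRoot (D.reflectRoot a (D.simple b)) :=
        C.pos_refl ha (C.pos_simple hb) fun e => hba (by
          have h1 := C.coef_simple b hb b hb
          rw [e, C.coef_simple a ha b hb, if_pos rfl, if_neg hba] at h1
          exact absurd h1 (by norm_num))
      have hnot : D.reflectRoot a (D.simple b) ≠ D.simple b := fun e => hne (by
        have h1 := e1 a ha
        rw [e, if_pos rfl] at h1
        omega)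
      have hq : D.reflectRoot b (D.reflectRoot a (D.simple b)) =
          D.reflectRoot b (D.reflectRoot a (D.simple b)) := rfl
      have h2 := C.pos_refl hb hpos hnot
      have h3 := (C.pos_iff _ h2.1).mp h2 b hb
      rw [C.coef_refl b hb _ hpos.1 b hb, if_pos rfl, e1 b hb, if_neg hba, sub_zero,
        C.coef_simple b hb b hb, if_pos rfl, C.cartan_linear b hb _ hpos.1,
        Finset.sum_eq_add (a := a) (b := b) (Ne.symm hba), h0, C.cartan_diag b hb, e1 b hb,
        if_neg hba, sub_zero, C.coef_simple b hb b hb, if_pos rfl] at h3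
      · omega
      · intro c hc hcne
        rw [e1 c (Finset.mem_range.mp hc), if_neg hcne.1, sub_zero,
          C.coef_simple b hb c (Finset.mem_range.mp hc), if_neg hcne.2, zero_mul]
      · intro h; exact absurd (Finset.mem_range.mpr ha) h
      · intro h; exact absurd (Finset.mem_range.mpr hb) h
    rcases hS with rfl | ⟨r, hr, hri, hra⟩
    · exact Or.inr ⟨D.simple a, C.pos_simple hi, by
        rw [C.coef_simple a hi a hi, if_pos rfl]; exact one_ne_zero, hsym⟩
    by_cases hai : a = i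
    · subst hai
      exact Or.inr ⟨D.simple a, C.pos_simple hi, by
        rw [C.coef_simple a hi a hi, if_pos rfl]; exact one_ne_zero, hsym⟩
    by_cases hrb : D.cartan b r = 0
    · have hne' : r ≠ D.simple a := fun e => hri (by
        rw [e, C.coef_simple a ha i hi, if_neg (Ne.symm hai)])
      refine Or.inr ⟨D.reflectRoot a r, C.pos_refl ha hr hne', ?_, ?_⟩
      · rw [C.coef_refl a ha r hr.1 i hi, if_neg (Ne.symm hai), sub_zero]; exact hri
      · have e : D.cartan b (D.reflectRoot a r) =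
            D.cartan b r - D.cartan a r * D.cartan b (D.simple a) := by
          rw [C.cartan_linear b hb _ (C.refl_lt a ha r hr.1), C.cartan_linear b hb r hr.1,
            Finset.sum_congr rfl fun j hj => by
              rw [C.coef_refl a ha r hr.1 j (Finset.mem_range.mp hj), sub_mul],
            Finset.sum_sub_distrib]
          congr 1
          rw [Finset.sum_eq_single a]
          · rw [if_pos rfl]
          · intro c _ hca; rw [if_neg hca, zero_mul]
          · intro h; exact absurd (Finset.mem_range.mpr ha) h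
        rw [e, hrb, zero_sub, neg_ne_zero]
        exact mul_ne_zero hra hsym
    · exact Or.inr ⟨r, hr, hri, hrb⟩
  intro k hk
  by_cases hki : k = i
  · rw [hki]; exact hbase
  obtain ⟨r, hr, hri, hrk⟩ := (hgood k hk).resolve_left hki
  have hne : r ≠ D.simple k := fun e => hri (by
    rw [e, C.coef_simple k hk i hi, if_neg (Ne.symm hki)])
  have hr' := C.pos_refl hk hr hne
  have h1 := hfix _ hr' (by
    rw [C.coef_refl k hk r hr.1 i hi, if_neg (Ne.symm hki), sub_zero]; exact hri)
  have h2 := hfix r hr hri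
  refine C.coef_inj _ (C.act_lt hL (C.simple_lt k hk)) _ (C.simple_lt k hk) fun j hj => ?_
  have a1 := C.act_coef hL hr'.1 j hj
  have a2 := C.act_coef hL hr.1 j hj
  rw [h1, Finset.sum_congr rfl fun l hl => by
    rw [C.coef_refl k hk r hr.1 l (Finset.mem_range.mp hl), sub_mul], Finset.sum_sub_distrib] at a1
  rw [h2] at a2
  rw [← a2, C.coef_refl k hk r hr.1 j hj, Finset.sum_eq_single k
    (fun c _ hck => by rw [if_neg hck, zero_mul])
    (fun h => absurd (Finset.mem_range.mpr hk) h), if_pos rfl] at a1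
  rw [C.coef_simple k hk j hj]
  have a3 : D.cartan k r * C.coef (act D L (D.simple k)) j =
      D.cartan k r * (if j = k then 1 else 0) := by
    split_ifs at a1 ⊢ <;> linarith
  exact mul_left_cancel₀ hrk a3

variable {M : CoxeterMatrix (Fin D.rank)}

/-- A coset outside the unipotent group has no element centralising the stable part. -/
theorem no_fixed (hM : CoxOK D M) {pa : List ℕ} (htree : TreeOK D pa) {n : GL D.Idx F}
    (hn : n ∈ D.monomialSubgroup F) (hnU : n ∉ D.posUnipotent F) {i : ℕ} (hi : i < D.rank)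
    (hstab : ∀ r, D.IsPosRoot r → C.coef r i ≠ 0 → ¬ Inverts D F n⁻¹ r)
    {g : GL D.Idx F} (hg : n⁻¹ * g ∈ D.posUnipotent F) :
    ∃ u ∈ D.posUnipotent F, n⁻¹ * u * n ∈ D.posUnipotent F ∧ u * g ≠ g * u := by
  by_contra hno
  push Not at hno
  set b := n⁻¹ * g
  obtain ⟨L, ⟨h, hh, hLe⟩, hL⟩ := C.monomial_conj_xu hM (inv_mem hn)
  set L' := L.map Fin.val
  have hLlt := C.fin_word_lt L
  have hact : ∀ r, D.IsPosRoot r → ¬ Inverts D F n⁻¹ r → D.IsPosRoot (act D L' r) := by
    intro r hr hni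
    refine (C.posRoot_or_negRoot (C.act_lt hLlt hr.1)).resolve_right fun hneg => hni ?_
    exact (C.inverts_iff hr (C.act_lt hLlt hr.1) (C.map_rootSubgroup (hL r hr.1))).mpr hneg
  have hfix : ∀ r, D.IsPosRoot r → ¬ Inverts D F n⁻¹ r →
      act D L' r = r ∧ ∀ t : F, n⁻¹ * C.xu r t * n = C.xu r t := by
    intro r hr hni
    obtain ⟨d, hd, e⟩ := hL r hr.1
    simp only [inv_inv] at e
    have hpos := hact r hr hni
    have hcomm : ∀ t : F, b * C.xu r t * b⁻¹ = C.xu (act D L' r) (d * t) := fun t => by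
      have h1 := hno (C.xu r t) (C.xu_mem_pos hr t) (by rw [e]; exact C.xu_mem_pos hpos _)
      calc b * C.xu r t * b⁻¹ = n⁻¹ * (g * C.xu r t) * g⁻¹ * n := by simp only [b]; group
        _ = n⁻¹ * (C.xu r t * g) * g⁻¹ * n := by rw [h1]
        _ = n⁻¹ * C.xu r t * n := by group
        _ = _ := e t
    have key := fun (t : F) (ht : t ≠ 0) =>
      conj_root_eq C hr hpos hg ht (mul_ne_zero hd ht) (hcomm t)
    obtain ⟨k1, k2⟩ := key 1 one_ne_zero
    rw [mul_one] at k2
    exact ⟨k1, fun t => by rw [e, k1, k2, one_mul]⟩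
  have hsimple : ∀ j < D.rank, act D L' (D.simple j) = D.simple j :=
    act_simple_eq C htree hLlt hi fun r hr hri => (hfix r hr (hstab r hr hri)).1
  have hH : n⁻¹ ∈ D.diagonalSubgroup F := by
    by_contra hH
    obtain ⟨j, hj, hinv⟩ := C.exists_descent hM (inv_mem hn) hH
    have := (C.inverts_iff (C.pos_simple hj) (C.act_lt hLlt (C.simple_lt j hj))
      (C.map_rootSubgroup (hL _ (C.simple_lt j hj)))).mp hinv
    rw [hsimple j hj] at this
    exact C.not_pos_and_neg (C.pos_simple hj) this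
  obtain ⟨χ, hχ, -, hne⟩ := C.diagonal_char hH
  have hone : ∀ r, D.IsPosRoot r → χ r = 1 := by
    intro r hr
    have h1 := (hfix r hr (C.not_inverts_diagonal hH r)).2 1
    have h2 : n⁻¹ * C.xu r (1 : F) = C.xu r (χ r * 1) * n⁻¹ :=
      Units.ext (by simp [hne, C.dMat_conj hχ hr.1 1])
    rw [h2, inv_mul_cancel_right, mul_one] at h1
    have h3 : C.xu r (χ r - 1) = 1 := by
      rw [sub_eq_add_neg, ← C.xu_add, h1, C.xu_add, add_neg_cancel, C.xu_zero]
    exact sub_eq_zero.1 (C.xu_eq_one hr.1 h3)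
  have hall : ∀ r < D.nroots, χ r = 1 := by
    intro r hr
    rcases C.posRoot_or_negRoot hr with hp | hp
    · exact hone r hp
    · have h1 := hχ.neg r hr
      rwa [hone _ (C.posRoot_neg hp), one_mul] at h1
  have hn1 : n⁻¹ = 1 := by
    apply Units.ext
    rw [hne, Units.val_one, dMat, ← Matrix.diagonal_one]
    congr 1
    funext x
    rcases x with k | k
    · rfl
    · exact hall k.val k.isLt
  exact hnU (by rw [inv_eq_one.mp hn1]; exact one_mem _)

section sums

variable [Fintype F] {k : Type v} [Field k] {V : Type w} [AddCommGroup V] [Module k V]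
  [Fintype ↥(D.group F)]

theorem xp_coe (hM : CoxOK D M) (i : Fin D.rank) (b : F) :
    (((chevData C hM (F := F)).xp i b : ↥(D.group F)) : GL D.Idx F) = C.xu (D.simple i) b :=
  rootHom_up C i b

theorem ww_coe (hM : CoxOK D M) (i : Fin D.rank) :
    (((chevData C hM (F := F)).ww i : ↥(D.group F)) : GL D.Idx F) = C.nu (D.simple i) 1 :=
  rootHom_wy C i

/-- Every cell acts on a weight vector as a scalar, zero if it inverts a degenerate root. -/
theorem tsum_eigen (hM : CoxOK D M) (ρ : Representation k ↥(D.group F) V) (v : V)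
    (hU : ∀ u ∈ (chevData C hM).U, ρ u v = v)
    (hT : ∀ d ∈ (chevData C hM).T, ∃ e : k, ρ d v = e • v)
    (hc : ∀ j, ∃ c : k,
      sig (chevData C hM) ρ j (ρ ((chevData C hM).ww j) v) = c • v)
    {i : Fin D.rank} (hi : sig (chevData C hM) ρ i (ρ ((chevData C hM).ww i) v) = 0) :
    ∀ n ∈ (chevData C hM).N, ∃ a : k, tsum' (chevData C hM) ρ v hU n = a • v ∧
      ((∃ r, D.IsPosRoot r ∧ C.coef r i ≠ 0 ∧ Inverts D F (n : GL D.Idx F)⁻¹ r) →
        tsum' (chevData C hM) ρ v hU n = 0) := by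
  set S := chevData C hM (F := F) with hS
  intro n
  induction hk : invCount D F (n : GL D.Idx F)⁻¹ using Nat.strong_induction_on generalizing n with
  | _ m ih =>
    intro hn
    have hnM : (n : GL D.Idx F) ∈ D.monomialSubgroup F := Subgroup.mem_subgroupOf.mp hn
    by_cases hH : (n : GL D.Idx F) ∈ D.diagonalSubgroup F
    · obtain ⟨e, he⟩ := hT n (Subgroup.mem_subgroupOf.mpr hH)
      refine ⟨e, by rw [tsum_T S ρ v hU (Subgroup.mem_subgroupOf.mpr hH), he], ?_⟩
      rintro ⟨r, -, -, hr⟩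
      exact absurd hr (C.not_inverts_diagonal (inv_mem hH) r)
    obtain ⟨j, hj, hinv⟩ := C.exists_descent hM (inv_mem hnM)
      (fun h => hH (by simpa using inv_mem h))
    let j' : Fin D.rank := ⟨j, hj⟩
    set s := C.nu (D.simple j) (1 : F)
    set n₁ : ↥(D.group F) := (S.ww j')⁻¹ * n with hn₁
    have hn₁N : n₁ ∈ S.N := mul_mem (inv_mem (S.wy_mem j')) hn
    have hcoe : (n₁ : GL D.Idx F)⁻¹ = (n : GL D.Idx F)⁻¹ * s := by
      rw [hn₁, Subgroup.coe_mul, Subgroup.coe_inv, ww_coe C hM j', mul_inv_rev, inv_inv]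
    have hdesc : invCount D F (n₁ : GL D.Idx F)⁻¹ + 1 = m := by
      rw [hcoe, ← hk]
      exact C.invCount_descend hM hj (C.isRefl_nu hj) (inv_mem hnM) hinv
    have hnot : ¬ Inverts D F (n₁ : GL D.Idx F)⁻¹ (D.simple j) := by
      rw [hcoe]
      exact fun h => (C.inverts_mul_refl_simple hM hj (C.isRefl_nu hj) (inv_mem hnM)).mp h hinv
    obtain ⟨a, ha, ha0⟩ := ih _ (by omega) n₁ rfl hn₁N
    have hn₁M : (n₁ : GL D.Idx F) ∈ D.monomialSubgroup F := Subgroup.mem_subgroupOf.mp hn₁N
    have hA : ∀ b, n₁⁻¹ * S.xp j' b * n₁ ∈ S.U := by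
      intro b
      refine Subgroup.mem_subgroupOf.mpr ?_
      rw [Subgroup.coe_mul, Subgroup.coe_mul, Subgroup.coe_inv, xp_coe C hM j']
      obtain ⟨L, -, hL⟩ := C.monomial_conj_xu hM (inv_mem hn₁M)
      obtain ⟨d, -, e⟩ := hL _ (C.simple_lt j hj)
      simp only [inv_inv] at e
      rw [e]
      refine C.xu_mem_pos ((C.posRoot_or_negRoot
        (C.act_lt (C.fin_word_lt L) (C.simple_lt j hj))).resolve_right fun hneg => hnot ?_) _
      exact (C.inverts_iff (C.pos_simple hj) (C.act_lt (C.fin_word_lt L) (C.simple_lt j hj))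
        (C.map_rootSubgroup (hL _ (C.simple_lt j hj)))).mpr hneg
    obtain ⟨c, hcj⟩ := hc j'
    have hmain : tsum' S ρ v hU n = (a * c) • v := by
      have h := tsum_ww_mul S ρ v hU j' hn₁N hA
      rw [hn₁, mul_inv_cancel_left] at h
      rw [h, ← hn₁, ha, map_smul, map_smul, hcj, smul_smul]
    refine ⟨_, hmain, ?_⟩
    rintro ⟨r, hr, hri, hrinv⟩
    by_cases hji : j' = i
    · rw [hmain, mul_smul, ← hcj, hji, hi, smul_zero]
    have hjne : j ≠ (i : ℕ) := fun e => hji (Fin.ext e)
    have hne : r ≠ D.simple j := fun e => hri (by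
      rw [e, C.coef_simple j hj i i.isLt, if_neg (Ne.symm hjne)])
    have h0 := ha0 ⟨D.reflectRoot j r, C.pos_refl hj hr hne, by
      rw [C.coef_refl j hj r hr.1 i i.isLt, if_neg (Ne.symm hjne), sub_zero]; exact hri, by
      rw [hcoe, C.inverts_mul_refl hj (C.isRefl_nu hj) _ (C.refl_posExcept hj ⟨hr, hne⟩),
        C.refl_refl hj hr.1]
      exact hrinv⟩
    rw [ha] at h0
    rw [hmain, mul_comm, mul_smul, h0, smul_zero]

theorem cellVanish (hM : CoxOK D M) {pa : List ℕ} (htree : TreeOK D pa)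
    (ρ : Representation k ↥(D.group F) V) (v : V)
    (hU : ∀ u ∈ (chevData C hM).U, ρ u v = v)
    (hT : ∀ d ∈ (chevData C hM).T, ∃ e : k, ρ d v = e • v)
    (hc : ∀ j, ∃ c : k,
      sig (chevData C hM) ρ j (ρ ((chevData C hM).ww j) v) = c • v)
    (hi : ∃ i, sig (chevData C hM) ρ i (ρ ((chevData C hM).ww i) v) = 0) :
    CellVanish (chevData C hM) ρ v hU := by
  obtain ⟨i, hi⟩ := hi
  intro n hn hnU
  obtain ⟨a, -, ha⟩ := tsum_eigen C hM ρ v hU hT hc hi n hn
  by_cases hex : ∃ r, D.IsPosRoot r ∧ C.coef r i ≠ 0 ∧ Inverts D F (n : GL D.Idx F)⁻¹ r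
  · exact Or.inl (ha hex)
  refine Or.inr fun g hg => ?_
  push Not at hex
  obtain ⟨u, hu, hu', hne⟩ := no_fixed C hM htree (Subgroup.mem_subgroupOf.mp hn)
    (fun h => hnU (Subgroup.mem_subgroupOf.mpr h)) i.isLt hex (g := (g : GL D.Idx F))
    (by have h := Subgroup.mem_subgroupOf.mp hg
        rwa [Subgroup.coe_mul, Subgroup.coe_inv] at h)
  refine ⟨⟨u, C.borel_le_group (C.pos_le_borel hu)⟩, Subgroup.mem_subgroupOf.mpr hu,
    Subgroup.mem_subgroupOf.mpr ?_, fun e => hne ?_⟩
  · rw [Subgroup.coe_mul, Subgroup.coe_mul, Subgroup.coe_inv]; exact hu'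
  · have h := congrArg Subtype.val e
    simpa using h

end sums

theorem exists_cover (hM : CoxOK D M) (g : ↥(D.group F)) :
    ∃ n ∈ (chevData C hM (F := F)).N, ∃ u ∈ (chevData C hM (F := F)).U,
      ∃ u' ∈ (chevData C hM (F := F)).U, g = u * n * u' := by
  obtain ⟨n, hn, b, hb, b', hb', e⟩ := C.exists_bruhat hM g.2
  obtain ⟨a, ha, h, hh, rfl⟩ := C.mem_borel.mp hb
  obtain ⟨a', ha', h', hh', rfl⟩ := C.mem_borel.mp hb'
  have hu' : h'⁻¹ * (n⁻¹ * (1 : GL D.Idx F) * n) * a' * h' ∈ D.posUnipotent F := by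
    rw [mul_one, inv_mul_cancel, mul_one]
    have := (Subgroup.mem_normalizer_iff.mp (C.posUnipotent_normalised (inv_mem hh')) a').mp ha'
    rwa [inv_inv] at this
  have hn' : h * n * h' ∈ D.monomialSubgroup F :=
    mul_mem (mul_mem (C.diagonal_le_monomial hh) hn) (C.diagonal_le_monomial hh')
  refine ⟨⟨h * n * h', C.monomial_le_group hn'⟩, hn',
    ⟨a, C.borel_le_group (C.pos_le_borel ha)⟩, ha,
    ⟨_, C.borel_le_group (C.pos_le_borel hu')⟩, hu', Subtype.ext ?_⟩
  simp only [Subgroup.coe_mul]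
  rw [e]
  group

end Cfsg.Agent.Chars2.SplitBN
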