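import Cfsg.Agent.Chars2.SplitBN.Unique
import Cfsg.Agent.Chars2.SplitBN.Chev
import Cfsg.Agent.KnownA.Steinberg.Chev

/-!
The Steinberg character of a tabulated Chevalley group is its only character of defect zero.
-/

set_option autoImplicit false
set_option linter.unusedSectionVars false

universe u

namespace Cfsg.Agent.Chars2.SplitBN

open Cfsg.Lie Cfsg.Agent.Chev Cfsg.Agent.KnownA.Steinberg

theorem eq_steinberg {F : Type u} [Field F] [Fintype F] (p : ℕ) [Fact p.Prime] [CharP F p]
    {D : ChevalleyDatum} (C : Cert.{u} D) {M : CoxeterMatrix (Fin D.rank)} (hM : CoxOK D M)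
    (χ : ↥(D.group F) → ℂ) (hχ : Cfsg.IsIrrCharacter ↥(D.group F) χ) {d : ℕ} (hd : χ 1 = (d : ℂ))
    (hdvd : p ^ (Nat.card ↥(D.group F)).factorization p ∣ d) : χ = D.steinbergCharacter F := by
  classical
  haveI : Fintype ↥(D.group F) := Fintype.ofFinite _
  obtain ⟨P, hP⟩ := exists_sylow C hM p (F := F)
  have hPU : IsPGroup p (chevData C hM (F := F)).U := by
    show IsPGroup p ↥((D.posUnipotent F).subgroupOf (D.group F))
    rw [← hP]
    exact P.isPGroup'
  have hUneg : IsPGroup p (chevData C hM (F := F)).Uneg := by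
    obtain ⟨w, hw, hwU⟩ := C.exists_conj_pos_eq_neg (F := F) hM
    have e : (D.negUnipotent F).subgroupOf (D.group F) =
        ((D.posUnipotent F).subgroupOf (D.group F)).map
          (MulAut.conj (⟨w, C.monomial_le_group hw⟩ : ↥(D.group F))).toMonoidHom := by
      apply Subgroup.map_injective (D.group F).subtype_injective
      rw [Subgroup.map_map, Subgroup.subgroupOf_map_subtype, inf_eq_left.mpr
        (show D.negUnipotent F ≤ D.group F from C.span_le_group D.IsNegRoot), ← hwU]
      ext x
      simp only [Subgroup.mem_map, Subgroup.mem_subgroupOf, MulEquiv.coe_toMonoidHom,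
        MulAut.conj_apply, MonoidHom.coe_comp, Function.comp_apply, Subgroup.coe_subtype,
        Subgroup.coe_mul, Subgroup.coe_inv]
      constructor
      · rintro ⟨a, ha, rfl⟩
        exact ⟨⟨a, C.borel_le_group (C.pos_le_borel ha)⟩, ha, rfl⟩
      · rintro ⟨a, ha, rfl⟩
        exact ⟨a, ha, rfl⟩
    show IsPGroup p ↥((D.negUnipotent F).subgroupOf (D.group F))
    rw [e]
    exact hPU.map _
  have hSt1 : D.steinbergCharacter F 1 = ((Nat.card P : ℕ) : ℂ) := by
    rw [steinberg_one C hM, ← Nat.cast_pow, ← C.natCard_posUnipotent]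
    congr 1
    rw [Nat.card_congr (Subgroup.subgroupOfEquivOfLe (C.pos_le_borel.trans C.borel_le_group)).symm.toEquiv]
    show _ = Nat.card ↥(P : Subgroup ↥(D.group F))
    rw [hP]
  exact congrArg Subtype.val (defect_zero_unique (chevData C hM) p hPU hUneg
    (χ := ⟨χ, hχ⟩) (χ' := ⟨D.steinbergCharacter F, steinberg_irr C hM⟩) hd hSt1 hdvd
    (P.card_eq_multiplicity ▸ dvd_rfl))

end Cfsg.Agent.Chars2.SplitBN
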