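import Cfsg.Agent.Chars2.SplitBN.ChevCells
import Cfsg.Agent.Chars2.SplitBN.SteinbergUnique
import Cfsg.Agent.S0914

/-!
A tabulated Chevalley group has exactly two blocks in its defining characteristic.
-/

set_option autoImplicit false
set_option linter.unusedSectionVars false
set_option linter.style.haveILetI false
set_option maxHeartbeats 1000000
set_option synthInstance.maxHeartbeats 200000

universe u

namespace Cfsg.Agent.Chars2.SplitBN

open Cfsg Cfsg.Lie Cfsg.Agent.Chev Cfsg.Agent.KnownA.Steinberg Cfsg.Agent.Blocks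
  Cfsg.Agent.BlockChar
open scoped Classical
open Cfsg.Agent.Chars2.SLDef (resMat resRep sum_resRep resRep_irr sum_char_resRep
  sum_char_resRep_of_ne)

variable {F : Type u} [Field F] [Fintype F] {p : ℕ} [Fact p.Prime] [CharP F p]
  {D : ChevalleyDatum} (C : Cert.{u} D) {cox : CoxeterMatrix (Fin D.rank)} (hcox : CoxOK D cox)
  {M : Ideal AlgInt} (hM : IsPModular p M)

include C hcox in
theorem isPGroup_U : IsPGroup p (chevData C hcox (F := F)).U := by
  obtain ⟨P, hP⟩ := exists_sylow C hcox p (F := F)
  show IsPGroup p ↥((D.posUnipotent F).subgroupOf (D.group F))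
  rw [← hP]
  exact P.isPGroup'

include C hcox in
theorem steinberg_degree : ∃ d : ℕ, D.steinbergCharacter F 1 = (d : ℂ) ∧
    d = p ^ (Nat.card ↥(D.group F)).factorization p ∧
    Nat.card (chevData C hcox (F := F)).Uneg ≤ d := by
  classical
  haveI : Fintype ↥(D.group F) := Fintype.ofFinite _
  obtain ⟨P, hP⟩ := exists_sylow C hcox p (F := F)
  refine ⟨_, ?_, (P.card_eq_multiplicity), ?_⟩
  · rw [steinberg_one C hcox, ← Nat.cast_pow, ← C.natCard_posUnipotent]
    congr 1
    rw [Nat.card_congr (Subgroup.subgroupOfEquivOfLe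
      (C.pos_le_borel.trans C.borel_le_group)).symm.toEquiv]
    show _ = Nat.card ↥(P : Subgroup ↥(D.group F))
    rw [hP]
  · obtain ⟨w, hw, hwU⟩ := C.exists_conj_pos_eq_neg (F := F) hcox
    show Nat.card ↥((D.negUnipotent F).subgroupOf (D.group F)) ≤
      Nat.card ↥(P : Subgroup ↥(D.group F))
    rw [hP, Nat.card_congr (Subgroup.subgroupOfEquivOfLe
        (show D.negUnipotent F ≤ D.group F from C.span_le_group D.IsNegRoot)).toEquiv,
      Nat.card_congr (Subgroup.subgroupOfEquivOfLe
        (C.pos_le_borel.trans C.borel_le_group)).toEquiv, ← hwU]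
    exact le_of_eq (Nat.card_congr
      ((D.posUnipotent F).equivMapOfInjective _ (MulAut.conj w).injective).toEquiv).symm

include C hcox hM in
/-- The central character of a character other than the Steinberg character, modulo `p`. -/
theorem res_centralChar [M.IsMaximal] [Fintype ↥(D.group F)] {pa : List ℕ} (htree : TreeOK D pa)
    (χ : IrrCharacter ↥(D.group F))
    (hne : (χ : ↥(D.group F) → ℂ) ≠ D.steinbergCharacter F) (g : ↥(D.group F)) :
    res M (centralChar (χ : ↥(D.group F) → ℂ) g) =
      ∑ x ∈ Finset.univ.filter (fun x => x ∈ (chevData C hcox (F := F)).U),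
        res M (clsFun g x) := by
  classical
  have hpM := hM.2.2
  haveI := BlockChar.charP_res (M := M) hpM
  let St : IrrCharacter ↥(D.group F) := ⟨_, steinberg_irr C hcox⟩
  obtain ⟨a, ha1, hap, hUa⟩ := steinberg_degree C hcox (F := F) (p := p)
  obtain ⟨d, ρ, hd, hd1, htr, hR, hs⟩ := exists_locRep hpM χ.2
  obtain ⟨d', ρ', hd', hd1', htr', hR', hs'⟩ := exists_locRep hpM St.2
  have hda : d' = a := by
    have : (d' : ℂ) = (a : ℂ) := hd1'.symm.trans ha1
    exact_mod_cast this
  subst hda
  have hdvd : d' ∣ Nat.card ↥(D.group F) := hap ▸ Nat.ordProj_dvd _ _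
  have hm : Nat.card ↥(D.group F) = d' * (Nat.card ↥(D.group F) / d') :=
    (Nat.mul_div_cancel' hdvd).symm
  have hpm : ¬ p ∣ Nat.card ↥(D.group F) / d' := by
    rw [hap]
    exact Nat.not_dvd_ordCompl Fact.out Nat.card_pos.ne'
  haveI : Nontrivial (Fin d → Res M) := by
    haveI : Nonempty (Fin d) := ⟨⟨0, hd⟩⟩
    infer_instance
  have hclass : ∀ a x, res M (clsFun g (a * x * a⁻¹)) = res M (clsFun g x) := fun a x =>
    congrArg (res M) (isClassFunction_clsFun g x a)
  have hcls : ∀ x, MemLocalRing M (clsFun g x) := fun x => by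
    unfold clsFun
    split_ifs
    · simpa using memR_of_algInt (M := M) (1 : AlgInt)
    · simpa using memR_of_algInt (M := M) (0 : AlgInt)
  have hact : ∑ x, res M (clsFun g x) • resRep ρ hR x =
      res M (centralChar (χ : ↥(D.group F) → ℂ) g) • 1 := by
    rw [sum_resRep]
    have h1 : ∑ x, res M (clsFun g x) • resMat ρ hR x =
        res M (centralChar (χ : ↥(D.group F) → ℂ) g) • 1 := by
      have h4 := act_eq_omega ρ htr hs hd hd1 (isClassFunction_clsFun g)
      rw [omega_clsFun (Chars.isClassFunction_irr χ)] at h4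
      ext r c
      have h5 := congrFun (congrFun h4 r) c
      rw [act_apply, Matrix.smul_apply, smul_eq_mul] at h5
      rw [Matrix.sum_apply, Matrix.smul_apply, smul_eq_mul]
      calc ∑ x, (res M (clsFun g x) • resMat ρ hR x) r c
          = ∑ x, res M (clsFun g x * ρ x r c) := Finset.sum_congr rfl fun x _ => by
            rw [Matrix.smul_apply, smul_eq_mul, res_mul (hcls x) (hR x r c)]; rfl
        _ = res M (∑ x, clsFun g x * ρ x r c) :=
            (res_sum _ _ fun x _ => memR_mul (hcls x) (hR x r c)).symm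
        _ = _ := by
            rw [h5, Matrix.one_apply, Matrix.one_apply]
            split_ifs
            · rw [mul_one, mul_one]
            · rw [mul_zero, mul_zero, res_zero]
    rw [h1, ← Matrix.toLin'_apply', map_smul, Matrix.toLin'_one]
    rfl
  exact scalar_eq (chevData C hcox) p (k := Res M) (isPGroup_U C hcox (F := F))
    (exists_cover C hcox) (resRep ρ hR) (resRep ρ' hR')
    (resRep_irr hR' hpM hm hpm hd' hs') (by rwa [Module.finrank_fin_fun])
    (fun v hU hT hc hi => cellVanish C hcox htree _ v hU hT hc hi) _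
    (sum_char_resRep_of_ne hpM hpm hR hd htr hd1 hs (χ := St)
      fun h => hne (congrArg Subtype.val h))
    (sum_char_resRep hR' hpM hm hpm htr' hd' hs') _ hclass hact

include C hcox hM in
/-- Exactly two blocks. -/
theorem card_blocks_eq_two {pa : List ℕ} (htree : TreeOK D pa) (hrank : 0 < D.rank) :
    Nat.card {B : Set (IrrCharacter ↥(D.group F)) // IsPBlock M B} = 2 := by
  classical
  haveI := hM.2.1
  haveI : Fintype ↥(D.group F) := Fintype.ofFinite _
  have hpM := hM.2.2
  let St : IrrCharacter ↥(D.group F) := ⟨_, steinberg_irr C hcox⟩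
  obtain ⟨a, ha1, hap, -⟩ := steinberg_degree C hcox (F := F) (p := p)
  have hdz : ¬ p ∣ Nat.card ↥(D.group F) / charDegree (St : ↥(D.group F) → ℂ) := by
    rw [show charDegree (St : ↥(D.group F) → ℂ) = a by simp [charDegree, St, ha1], hap]
    exact Nat.not_dvd_ordCompl Fact.out Nat.card_pos.ne'
  have hSt : blockOf M (St : ↥(D.group F) → ℂ) = {St} :=
    (Cfsg.Agent.S0914.result p M hM St).1 hdz
  have hsame : ∀ χ χ' : IrrCharacter ↥(D.group F), χ ≠ St → χ' ≠ St →
      χ' ∈ blockOf M (χ : ↥(D.group F) → ℂ) := fun χ χ' h h' g =>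
    (res_eq_iff (centralChar_memR hpM χ g) (centralChar_memR hpM χ' g)).1
      ((res_centralChar C hcox hM htree χ (fun e => h (Subtype.ext e)) g).trans
        (res_centralChar C hcox hM htree χ' (fun e => h' (Subtype.ext e)) g).symm)
  let one : IrrCharacter ↥(D.group F) := ⟨_, Chars.isIrrCharacter_one⟩
  have hone : one ≠ St := by
    intro h
    have h1 : (1 : ℂ) = (a : ℂ) := (congrFun (congrArg Subtype.val h) 1).trans ha1
    have h2 : a = 1 := by exact_mod_cast h1.symm
    have hU : Nat.card (D.posUnipotent F) = 1 := by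
      rw [C.natCard_posUnipotent]
      have h3 : (Fintype.card F : ℂ) ^ (D.nroots / 2) = 1 :=
        (steinberg_one C hcox).symm.trans (ha1.trans h1.symm)
      exact_mod_cast h3
    have h4 : C.xu (D.simple 0) (1 : F) ∈ D.posUnipotent F := C.xu_mem_pos (C.pos_simple hrank) _
    rw [Subgroup.eq_bot_of_card_eq _ hU, Subgroup.mem_bot] at h4
    exact one_ne_zero (C.xu_eq_one (C.simple_lt 0 hrank) h4)
  rw [Nat.card_eq_two_iff]
  refine ⟨⟨_, isPBlock_blockOf St⟩, ⟨_, isPBlock_blockOf one⟩, fun h => hone ?_, ?_⟩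
  · have h1 : blockOf M (St : ↥(D.group F) → ℂ) = blockOf M (one : ↥(D.group F) → ℂ) :=
      congrArg Subtype.val h
    have h2 : one ∈ blockOf M (St : ↥(D.group F) → ℂ) := h1 ▸ mem_blockOf_self one
    rw [hSt] at h2
    exact h2
  · refine Set.eq_univ_of_forall fun B => ?_
    obtain ⟨χ, hχ⟩ := B.2
    by_cases h : χ = St
    · exact Or.inl (Subtype.ext (hχ.trans (by rw [h])))
    · refine Or.inr (Subtype.ext (hχ.trans ?_))
      exact blockOf_eq_of_mem (hsame one χ hone h)

end Cfsg.Agent.Chars2.SplitBN
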