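import Cfsg.Agent.Chars2.SplitBN.Unique
import Cfsg.Agent.Chars2.SplitBN.BrauerCount
import Mathlib.RepresentationTheory.Basic
import Mathlib.GroupTheory.FiniteAbelian.Duality
import Mathlib.RingTheory.RootsOfUnity.AlgebraicallyClosed

/-!
Weights of the simple modules in the defining characteristic of a group with split rank one data,
and the number of classes of elements of order prime to the characteristic.
-/

set_option autoImplicit false
set_option linter.unusedSectionVars false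
set_option linter.style.haveILetI false
set_option maxHeartbeats 1000000

namespace Cfsg.Agent.Chars2.SplitBN

open Cfsg.Agent.Chars2.SLDef (sum_eq_zero_add_sum_units natCard_F_cast)
open scoped Classical

universe u v w w' x y

variable {F : Type u} [Field F] [Fintype F] {G : Type x} [Group G] [Fintype G] {ι : Type w'}
  (S : Data F G ι) {k : Type v} [Field k] {V : Type w} [AddCommGroup V] [Module k V]
  {V' : Type y} [AddCommGroup V'] [Module k V']

/-- A vector of the given weight. -/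
structure HasWeight (ρ : Representation k G V) (v : V) (wt : ι → Option (Fˣ →* kˣ)) : Prop where
  ne_zero : v ≠ 0
  fixed : ∀ u ∈ S.U, ρ u v = v
  torus : ∀ (j : ι) (t : Fˣ), ρ (S.hh j t) v = (((wt j).getD 1 t : kˣ) : k) • v
  weyl : ∀ j : ι, sig S ρ j (ρ (S.ww j) v) = if wt j = none then -v else 0

theorem HasWeight.isGood {ρ : Representation k G V} {v : V} {wt : ι → Option (Fˣ →* kˣ)}
    (h : HasWeight S ρ v wt) : IsGood S ρ v := by
  refine ⟨h.fixed, fun j t => ⟨_, h.torus j t⟩, fun j => ?_⟩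
  rw [h.weyl j]
  split_ifs
  · exact ⟨-1, (neg_one_smul k v).symm⟩
  · exact ⟨0, (zero_smul k v).symm⟩

/-- A weight passes through an injective intertwiner. -/
theorem HasWeight.map {ρ : Representation k G V} {ρ' : Representation k G V'} {v : V}
    {wt : ι → Option (Fˣ →* kˣ)} (h : HasWeight S ρ v wt) (ψ : V →ₗ[k] V')
    (hψ : ∀ g z, ρ' g (ψ z) = ψ (ρ g z)) (hv : ψ v ≠ 0) : HasWeight S ρ' (ψ v) wt := by
  refine ⟨hv, fun u hu => by rw [hψ, h.fixed u hu],
    fun j t => by rw [hψ, h.torus, map_smul], fun j => ?_⟩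
  rw [sig_apply, Finset.sum_congr rfl (g := fun a => ψ (ρ (S.xp j a) (ρ (S.ww j) v)))
    (fun a _ => by rw [hψ, hψ]), ← map_sum, ← sig_apply, h.weyl j]
  split_ifs <;> simp

/-- The weight of a vector is unique. -/
theorem HasWeight.unique {ρ : Representation k G V} {v : V} {wt wt' : ι → Option (Fˣ →* kˣ)}
    (h : HasWeight S ρ v wt) (h' : HasWeight S ρ v wt') : wt = wt' := by
  funext j
  have h1 : (wt j).getD 1 = (wt' j).getD 1 := MonoidHom.ext fun t =>
    Units.ext (smul_left_injective k h.ne_zero ((h.torus j t).symm.trans (h'.torus j t)))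
  have h2 := (h.weyl j).symm.trans (h'.weyl j)
  have hne : -v ≠ 0 := neg_ne_zero.2 h.ne_zero
  cases hw : wt j with
  | none =>
    cases hw' : wt' j with
    | none => rfl
    | some μ' => exact absurd (by simpa [hw, hw'] using h2) h.ne_zero
  | some μ =>
    cases hw' : wt' j with
    | none => exact absurd (by simpa [hw, hw'] using h2.symm) h.ne_zero
    | some μ' => simpa [hw, hw'] using h1

theorem HasWeight.smul {ρ : Representation k G V} {v : V} {wt : ι → Option (Fˣ →* kˣ)}
    (h : HasWeight S ρ v wt) {a : k} (ha : a ≠ 0) : HasWeight S ρ (a • v) wt :=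
  h.map S (a • LinearMap.id) (fun g z => by simp) (smul_ne_zero ha h.ne_zero)

theorem lowSpan_eq_top {ρ : Representation k G V}
    (hirr : ∀ W : Submodule k V, (∀ g, ∀ x ∈ W, ρ g x ∈ W) → W = ⊥ ∨ W = ⊤) {v : V}
    (hv : IsGood S ρ v) (hv0 : v ≠ 0) : lowSpan S ρ v = ⊤ :=
  (hirr _ fun g x hx => hv.stable S g hx).resolve_left
    fun h => hv0 ((Submodule.mem_bot k).1 (h ▸ self_mem_lowSpan S ρ v))

theorem dual_irr [FiniteDimensional k V] {ρ : Representation k G V}
    (hirr : ∀ W : Submodule k V, (∀ g, ∀ x ∈ W, ρ g x ∈ W) → W = ⊥ ∨ W = ⊤)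
    (W : Submodule k (Module.Dual k V)) (hW : ∀ g, ∀ x ∈ W, ρ.dual g x ∈ W) : W = ⊥ ∨ W = ⊤ := by
  have hst : ∀ g, ∀ x ∈ W.dualCoannihilator, ρ g x ∈ W.dualCoannihilator := by
    intro g x hx
    rw [Submodule.mem_dualCoannihilator] at hx ⊢
    intro φ hφ
    have h := hx _ (hW g⁻¹ φ hφ)
    rwa [Representation.dual_apply, inv_inv, Module.Dual.transpose_apply, LinearMap.comp_apply]
      at h
  have hWW : W.dualCoannihilator.dualAnnihilator = W :=
    Subspace.dualCoannihilator_dualAnnihilator_eq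
  rcases hirr _ hst with h | h
  · exact Or.inr (by rw [← hWW, h, Submodule.dualAnnihilator_bot])
  · exact Or.inl (by rw [← hWW, h, Submodule.dualAnnihilator_top])

variable (p : ℕ) [Fact p.Prime] [CharP F p] [CharP k p]

include p in
/-- A functional fixed by the opposite unipotent group and nonzero at a generating vector. -/
theorem exists_low_functional (hN : IsPGroup p S.Uneg) [FiniteDimensional k V] [Nontrivial V]
    (ρ : Representation k G V) {v : V} (htop : lowSpan S ρ v = ⊤) :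
    ∃ α : Module.Dual k V, (∀ u ∈ S.Uneg, α (ρ u v) = α v) ∧ α v ≠ 0 := by
  obtain ⟨α, hα, hfix⟩ := exists_fixed p ρ.dual hN
  have hu : ∀ u ∈ S.Uneg, α (ρ u v) = α v := fun u hu => by
    have h := LinearMap.congr_fun (hfix u hu) (ρ u v)
    rw [Representation.dual_apply, Module.Dual.transpose_apply, LinearMap.comp_apply,
      ← rho_mul, inv_mul_cancel, map_one, Module.End.one_apply] at h
    exact h.symm
  refine ⟨α, hu, fun h0 => hα (LinearMap.ext fun x => ?_)⟩
  have hle : lowSpan S ρ v ≤ LinearMap.ker α :=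
    Submodule.span_le.2 (by rintro _ ⟨u, rfl⟩; exact (hu u u.2).trans h0)
  exact hle (htop ▸ Submodule.mem_top : x ∈ lowSpan S ρ v)

include p in
/-- Separated irreducible modules have no common weight. -/
theorem HasWeight.separated_false (hN : IsPGroup p S.Uneg) [FiniteDimensional k V]
    [FiniteDimensional k V'] {ρ : Representation k G V} {ρ' : Representation k G V'}
    (hirr : ∀ W : Submodule k V, (∀ g, ∀ x ∈ W, ρ g x ∈ W) → W = ⊥ ∨ W = ⊤)
    (hirr' : ∀ W : Submodule k V', (∀ g, ∀ x ∈ W, ρ' g x ∈ W) → W = ⊥ ∨ W = ⊤)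
    {v : V} {v' : V'} {wt : ι → Option (Fˣ →* kˣ)} (h : HasWeight S ρ v wt)
    (h' : HasWeight S ρ' v' wt) (f : G → k) (hf : ∑ g, f g • ρ g = 1)
    (hf' : ∑ g, f g • ρ' g = 0) : False := by
  haveI : Nontrivial V := ⟨⟨v, 0, h.ne_zero⟩⟩
  haveI : Nontrivial V' := ⟨⟨v', 0, h'.ne_zero⟩⟩
  obtain ⟨α, hα, hα0⟩ :=
    exists_low_functional S p hN ρ (lowSpan_eq_top S hirr (h.isGood S) h.ne_zero)
  obtain ⟨α', hα', hα0'⟩ :=
    exists_low_functional S p hN ρ' (lowSpan_eq_top S hirr' (h'.isGood S) h'.ne_zero)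
  let π : Representation k G (V × V') :=
    { toFun := fun g => (ρ g).prodMap (ρ' g)
      map_one' := by rw [map_one, map_one]; rfl
      map_mul' := fun a b => by rw [map_mul, map_mul]; rfl }
  have hπ : ∀ g (x : V × V'), π g x = (ρ g x.1, ρ' g x.2) := fun g x => rfl
  have hgood : IsGood S π (v, v') := by
    refine ⟨fun u hu => by rw [hπ, h.fixed u hu, h'.fixed u hu],
      fun j t => ⟨_, by rw [hπ, h.torus j t, h'.torus j t]; exact (Prod.smul_mk _ _ _).symm⟩,
      fun j => ?_⟩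
    have h1 : sig S π j (π (S.ww j) (v, v')) =
        (sig S ρ j (ρ (S.ww j) v), sig S ρ' j (ρ' (S.ww j) v')) := by
      rw [sig_apply, sig_apply, sig_apply]
      refine Prod.ext ?_ ?_
      · rw [Prod.fst_sum]; rfl
      · rw [Prod.snd_sum]; rfl
    rw [h1, h.weyl j, h'.weyl j]
    split_ifs
    · exact ⟨-1, by rw [neg_one_smul, Prod.neg_mk]⟩
    · exact ⟨0, (zero_smul k _).symm⟩
  set W := lowSpan S π (v, v')
  have hmem : (v, (0 : V')) ∈ W := by
    have e : (v, (0 : V')) = ∑ g, f g • π g (v, v') := by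
      refine Prod.ext ?_ ?_
      · have := LinearMap.congr_fun hf v
        simp only [LinearMap.sum_apply, LinearMap.smul_apply, Module.End.one_apply] at this
        rw [Prod.fst_sum]
        exact this.symm.trans (Finset.sum_congr rfl fun a _ => rfl)
      · have := LinearMap.congr_fun hf' v'
        simp only [LinearMap.sum_apply, LinearMap.smul_apply, LinearMap.zero_apply] at this
        rw [Prod.snd_sum]
        exact this.symm.trans (Finset.sum_congr rfl fun a _ => rfl)
    rw [e]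
    exact W.sum_mem fun g _ => W.smul_mem _ (hgood.stable S g (self_mem_lowSpan S π _))
  let L : V × V' →ₗ[k] k := α' v' • α.comp (LinearMap.fst k V V') -
    α v • α'.comp (LinearMap.snd k V V')
  have hle : W ≤ LinearMap.ker L := Submodule.span_le.2 (by
    rintro _ ⟨u, rfl⟩
    show α' v' • α (ρ (u : G) v) - α v • α' (ρ' (u : G) v') = 0
    rw [hα _ u.2, hα' _ u.2, smul_eq_mul, smul_eq_mul]
    ring)
  have h0 : α' v' • α v - α v • α' 0 = 0 := hle hmem
  rw [map_zero, smul_zero, sub_zero, smul_eq_mul] at h0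
  exact mul_ne_zero hα0' hα0 h0

include p in
/-- The fixed space of the unipotent group in an irreducible module is a line. -/
theorem fixed_unique [IsAlgClosed k] (hP : IsPGroup p S.U) [FiniteDimensional k V] [Nontrivial V]
    {n₀ : G} (hn₀ : ∀ u ∈ S.Uneg, n₀⁻¹ * u * n₀ ∈ S.U) {ρ : Representation k G V}
    (hirr : ∀ W : Submodule k V, (∀ g, ∀ x ∈ W, ρ g x ∈ W) → W = ⊥ ∨ W = ⊤)
    {v v' : V} (hv : ∀ u ∈ S.U, ρ u v = v) (hv' : ∀ u ∈ S.U, ρ u v' = v') (hv0 : v ≠ 0) :
    ∃ a : k, v' = a • v := by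
  obtain ⟨α, hα0, hU, -, hdata⟩ := exists_vector S p hP ρ.dual
  have hgood : IsGood S ρ.dual α := ⟨hU, fun i u => by
      obtain ⟨μ, hμ, -⟩ := hdata i; exact ⟨_, hμ u⟩, fun i => by
      obtain ⟨μ, -, c, hc, -⟩ := hdata i; exact ⟨c, hc⟩⟩
  have htop := lowSpan_eq_top S (fun W hW => dual_irr hirr W hW) hgood hα0
  let β : Module.Dual k V := ρ.dual n₀⁻¹ α
  have hβ : ∀ x : V, (∀ u ∈ S.U, ρ u x = x) → β x = 0 → x = 0 := by
    intro x hx hx0
    by_contra hne
    obtain ⟨φ, hφ⟩ : ∃ φ : Module.Dual k V, φ x ≠ 0 := by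
      by_contra h
      push Not at h
      exact hne ((Module.forall_dual_apply_eq_zero_iff k x).1 h)
    refine hφ ?_
    have hle : lowSpan S ρ.dual α ≤ LinearMap.ker
        ((Module.Dual.eval k V x).comp (ρ.dual n₀⁻¹)) := Submodule.span_le.2 (by
      rintro _ ⟨u, rfl⟩
      show (ρ.dual n₀⁻¹ (ρ.dual (u : G) α)) x = 0
      rw [← rho_mul, show n₀⁻¹ * (u : G) = n₀⁻¹ * (u : G) * n₀ * n₀⁻¹ by group, rho_mul]
      show ((ρ.dual (n₀⁻¹ * (u : G) * n₀)) β) x = 0
      rw [Representation.dual_apply, Module.Dual.transpose_apply, LinearMap.comp_apply,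
        hx _ (inv_mem (hn₀ _ u.2)), hx0])
    have h1 := hle (htop ▸ Submodule.mem_top : ρ.dual n₀ φ ∈ lowSpan S ρ.dual α)
    change (ρ.dual n₀⁻¹ (ρ.dual n₀ φ)) x = 0 at h1
    rwa [← rho_mul, inv_mul_cancel, map_one, Module.End.one_apply] at h1
  have hb : β v ≠ 0 := fun h => hv0 (hβ v hv h)
  refine ⟨β v' / β v, sub_eq_zero.1 (hβ _ (fun u hu => ?_) ?_)⟩
  · rw [map_sub, map_smul, hv u hu, hv' u hu]
  · rw [map_sub, map_smul, smul_eq_mul, div_mul_cancel₀ _ hb, sub_self]

include p in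
/-- Every irreducible module has a weight. -/
theorem exists_weight [IsAlgClosed k] (hP : IsPGroup p S.U) [FiniteDimensional k V] [Nontrivial V]
    (ρ : Representation k G V) : ∃ (v : V) (wt : ι → Option (Fˣ →* kˣ)), HasWeight S ρ v wt := by
  obtain ⟨v, hv0, hU, -, hdata⟩ := exists_vector S p hP ρ
  have key : ∀ j, ∃ o : Option (Fˣ →* kˣ), (∀ t, ρ (S.hh j t) v = ((o.getD 1 t : kˣ) : k) • v) ∧
      sig S ρ j (ρ (S.ww j) v) = if o = none then -v else 0 := by
    intro j
    obtain ⟨μ, hμ, c, hc, hcμ⟩ := hdata j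
    have hμmul : ∀ a b, μ (a * b) = μ a * μ b := fun a b => by
      refine smul_left_injective k hv0 ?_
      show μ (a * b) • v = (μ a * μ b) • v
      rw [← hμ, S.hh_mul, rho_mul, hμ, map_smul, hμ, smul_smul, mul_comm]
    have hμ1 : μ 1 = 1 := by
      refine smul_left_injective k hv0 ?_
      show μ 1 • v = (1 : k) • v
      rw [← hμ, S.hh_one, map_one, one_smul]; rfl
    let μh : Fˣ →* k := { toFun := μ, map_one' := hμ1, map_mul' := hμmul }
    by_cases hc0 : c = 0
    · refine ⟨some μh.toHomUnits, fun t => ?_, ?_⟩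
      · rw [Option.getD_some, MonoidHom.coe_toHomUnits]; exact hμ t
      · rw [hc, hc0, zero_smul, if_neg (by simp)]
    have hcμ' : c = ∑ u : Fˣ, μ u := hcμ.resolve_left hc0
    have hμh : μh = 1 := by
      by_contra h
      exact hc0 (hcμ'.trans (sum_hom_units_eq_zero μh h))
    have hμone : ∀ u, μ u = 1 := fun u => DFunLike.congr_fun hμh u
    refine ⟨none, fun t => ?_, ?_⟩
    · rw [hμ, hμone]; simp
    · rw [if_pos rfl, hc, hcμ', Finset.sum_congr rfl (g := fun _ => (1 : k)) (fun u _ => hμone u),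
        Finset.sum_const, nsmul_one, Finset.card_univ, Fintype.card_units,
        Nat.cast_sub Fintype.card_pos, ← Nat.card_eq_fintype_card, natCard_F_cast p, zero_sub,
        Nat.cast_one, neg_one_smul]
  choose wt h1 h2 using key
  exact ⟨v, wt, hv0, hU, h1, h2⟩

/-- A vector of some weight gives an irreducible module of that weight. -/
theorem exists_simple_of_weight [FiniteDimensional k V] {ρ : Representation k G V} {v : V}
    {wt : ι → Option (Fˣ →* kˣ)} (h : HasWeight S ρ v wt) :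
    ∃ (X : Submodule k (lowSpan S ρ v)) (τ : Representation k G ((lowSpan S ρ v) ⧸ X)),
      (∀ Y : Submodule k ((lowSpan S ρ v) ⧸ X), (∀ g, ∀ x ∈ Y, τ g x ∈ Y) → Y = ⊥ ∨ Y = ⊤) ∧
      ∃ z, HasWeight S τ z wt := by
  set W := lowSpan S ρ v
  have hW : ∀ g, ∀ x ∈ W, ρ g x ∈ W := fun g x hx => (h.isGood S).stable S g hx
  let σ : Representation k G W :=
    { toFun := fun g => (ρ g).restrict (hW g)
      map_one' := LinearMap.ext fun x => Subtype.ext (show ρ 1 x.1 = x.1 by simp)
      map_mul' := fun a b => LinearMap.ext fun x => Subtype.ext (rho_mul ρ a b x.1) }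
  let v₀ : W := ⟨v, self_mem_lowSpan S ρ v⟩
  obtain ⟨X, ⟨hX, hvX⟩, hmax⟩ := wellFounded_gt.has_min
    {X : Submodule k W | (∀ g, ∀ x ∈ X, σ g x ∈ X) ∧ v₀ ∉ X}
    ⟨⊥, fun g x hx => by rw [(Submodule.mem_bot k).1 hx, map_zero]; exact Submodule.zero_mem _,
      fun h0 => h.ne_zero (congrArg Subtype.val ((Submodule.mem_bot k).1 h0))⟩
  let τ : Representation k G (W ⧸ X) :=
    { toFun := fun g => X.mapQ X (σ g) fun x hx => hX g x hx
      map_one' := Submodule.linearMap_qext _ (LinearMap.ext fun x => by simp)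
      map_mul' := fun a b => Submodule.linearMap_qext _ (LinearMap.ext fun x => by
        simp [rho_mul]) }
  have hgen : ∀ Y : Submodule k W, (∀ g, ∀ x ∈ Y, σ g x ∈ Y) → v₀ ∈ Y → Y = ⊤ := by
    intro Y hY hv
    refine Submodule.eq_top_iff'.2 fun x => ?_
    have hx : (x : V) ∈ Y.map W.subtype := (Submodule.span_le.2 (by
      rintro _ ⟨u, rfl⟩
      exact ⟨σ (u : G) v₀, hY _ _ hv, rfl⟩) : W ≤ Y.map W.subtype) x.2
    obtain ⟨y, hy, e⟩ := hx
    rwa [← show y = x from Subtype.ext e]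
  refine ⟨X, τ, fun Y hY => ?_, X.mkQ v₀, ?_⟩
  · let Y' : Submodule k W := Y.comap X.mkQ
    have hY' : ∀ g, ∀ x ∈ Y', σ g x ∈ Y' := fun g x hx => hY g _ hx
    by_cases hv : v₀ ∈ Y'
    · refine Or.inr (Submodule.eq_top_iff'.2 fun q => ?_)
      obtain ⟨x, rfl⟩ := X.mkQ_surjective q
      exact (hgen Y' hY' hv ▸ Submodule.mem_top : x ∈ Y')
    · refine Or.inl ((Submodule.eq_bot_iff _).2 fun q hq => ?_)
      obtain ⟨x, rfl⟩ := X.mkQ_surjective q
      have hle : X ≤ Y' := fun y hy => by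
        show X.mkQ y ∈ Y
        rw [Submodule.mkQ_apply, (Submodule.Quotient.mk_eq_zero X).2 hy]
        exact Y.zero_mem
      have he : X = Y' := hle.lt_or_eq.resolve_left (hmax Y' ⟨hY', hv⟩)
      rw [Submodule.mkQ_apply, Submodule.Quotient.mk_eq_zero, he]
      exact hq
  have hσ : HasWeight S σ v₀ wt := by
    refine ⟨fun h0 => h.ne_zero (congrArg Subtype.val h0),
      fun u hu => Subtype.ext (h.fixed u hu), fun j t => Subtype.ext (h.torus j t),
      fun j => Subtype.ext ?_⟩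
    rw [sig_apply, Submodule.coe_sum]
    refine (sig_apply S ρ j _).symm.trans ((h.weyl j).trans ?_)
    split_ifs <;> rfl
  exact hσ.map S X.mkQ (fun g z => rfl)
    (fun h0 => hvX ((Submodule.Quotient.mk_eq_zero X).1 h0))

include p in
/-- As many weights as classes of elements of order prime to `p`. -/
theorem card_regCls [IsAlgClosed k] [Finite ι] (hP : IsPGroup p S.U) (hN : IsPGroup p S.Uneg)
    {n₀ : G} (hn₀ : ∀ u ∈ S.Uneg, n₀⁻¹ * u * n₀ ∈ S.U)
    (hex : ∀ wt : ι → Option (Fˣ →* kˣ),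
      ∃ (ρ : Representation k G (G → k)) (v : G → k), HasWeight S ρ v wt) :
    Nat.card (BrauerCount.RegCls p G) = Nat.card (ι → Option (Fˣ →* kˣ)) := by
  obtain ⟨d, ρ, hd, hirr, hsep, hall⟩ := BrauerCount.exists_simples.{x, v, max v x} p (G := G) k
  have hnt : ∀ i, Nontrivial (Fin (d i) → k) := fun i => by
    haveI : Nonempty (Fin (d i)) := ⟨⟨0, hd i⟩⟩
    infer_instance
  choose v wt hw using fun i => haveI := hnt i; exists_weight S p hP (ρ i)
  refine Nat.card_congr (Equiv.ofBijective wt ⟨fun i j hij => ?_, fun t => ?_⟩)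
  · by_contra hne
    obtain ⟨f, hf, hf'⟩ := hsep i j hne
    exact (hw i).separated_false S p hN (hirr i) (hirr j) (hij ▸ hw j) f hf hf'
  obtain ⟨ρ₁, v₁, h₁⟩ := hex t
  obtain ⟨X, τ, hτ, z, hz⟩ := exists_simple_of_weight S h₁
  haveI : Nontrivial (lowSpan S ρ₁ v₁ ⧸ X) := ⟨⟨z, 0, hz.ne_zero⟩⟩
  obtain ⟨i, ψ, hψ, hint⟩ := hall _ τ hτ
  obtain ⟨y, rfl⟩ := hψ.2 z
  let e := LinearEquiv.ofBijective ψ hψ
  have hy : HasWeight S (ρ i) y t := by
    have h := hz.map S e.symm.toLinearMap (ρ' := ρ i) (fun g q => by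
      obtain ⟨q, rfl⟩ := hψ.2 q
      rw [hint]
      show ρ i g (e.symm (e q)) = e.symm (e (ρ i g q))
      rw [e.symm_apply_apply, e.symm_apply_apply]) (by
        simpa using hz.ne_zero)
    rwa [show e.symm.toLinearMap (ψ y) = y from e.symm_apply_apply y] at h
  haveI := hnt i
  obtain ⟨a, rfl⟩ := fixed_unique S p hP hn₀ (hirr i) (hw i).fixed hy.fixed (hw i).ne_zero
  have ha : a ≠ 0 := fun h => hy.ne_zero (by rw [h, zero_smul])
  exact ⟨i, ((hw i).smul S ha).unique S hy⟩

include p in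
theorem card_weights [IsAlgClosed k] [Fintype ι] :
    Nat.card (ι → Option (Fˣ →* kˣ)) = Fintype.card F ^ Fintype.card ι := by
  have hp : p.Prime := Fact.out
  have hexp : ¬ p ∣ Monoid.exponent Fˣ := by
    intro h
    have h1 : p ∣ Fintype.card F - 1 := by
      rw [← Fintype.card_units]
      exact h.trans Group.exponent_dvd_card
    obtain ⟨e, -, he⟩ := FiniteField.card F p
    have h2 : p ∣ Fintype.card F := he ▸ dvd_pow_self p e.ne_zero
    have h3 := Nat.dvd_sub h2 h1
    rw [Nat.sub_sub_self Fintype.card_pos] at h3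
    exact hp.one_lt.ne' (Nat.dvd_one.1 h3)
  haveI : NeZero ((Monoid.exponent Fˣ : ℕ) : k) :=
    ⟨fun h => hexp ((CharP.cast_eq_zero_iff k p _).1 h)⟩
  have hcard := CommGroup.card_monoidHom_of_hasEnoughRootsOfUnity Fˣ k
  haveI : Finite (Fˣ →* kˣ) := Nat.finite_of_card_ne_zero (by rw [hcard]; exact Nat.card_pos.ne')
  rw [Nat.card_fun, Finite.card_option, hcard, Nat.card_eq_fintype_card, Fintype.card_units,
    Nat.sub_add_cancel Fintype.card_pos, Nat.card_eq_fintype_card]

end Cfsg.Agent.Chars2.SplitBN
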