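import Cfsg.Agent.Chars2.SplitBN.ChevCells
import Cfsg.Agent.Chars2.SplitBN.Weights
import Cfsg.Agent.Chars2.SplitBN.TwoBlocks

/-!
A tabulated Chevalley group whose torus is the full product of the coroot subgroups has a module of
every weight.
-/

set_option autoImplicit false
set_option linter.unusedSectionVars false
set_option linter.style.haveILetI false
set_option maxHeartbeats 1000000

universe u v

namespace Cfsg.Agent.Chars2.SplitBN

open Cfsg.Lie Cfsg.Agent.Chev
open scoped Matrix MatrixGroups Classical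

variable {D : ChevalleyDatum} {F : Type u} [Field F] (C : Cert.{u} D)
variable {M : CoxeterMatrix (Fin D.rank)} (hM : CoxOK D M) [Fintype F] [Fintype ↥(D.group F)]

include C

theorem hh_coe (j : Fin D.rank) (t : Fˣ) :
    (((chevData C hM (F := F)).hh j t : ↥(D.group F)) : GL D.Idx F) = C.hu (D.simple j) (t : F) :=
  rootHom_dg C j t

theorem xm_coe (j : Fin D.rank) (b : F) :
    (((chevData C hM (F := F)).xm j b : ↥(D.group F)) : GL D.Idx F) =
      C.xu (D.neg (D.simple j)) b :=
  rootHom_lo C j b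

/-- A product of Weyl elements. -/
noncomputable def wl (L : List (Fin D.rank)) : ↥(D.group F) :=
  (L.map fun j => (chevData C hM (F := F)).ww j).prod

theorem wl_coe (L : List (Fin D.rank)) :
    ((wl C hM (F := F) L : ↥(D.group F)) : GL D.Idx F) = C.nWordElt F (L.map Fin.val) := by
  induction L with
  | nil => simp [wl, Cert.nWordElt]
  | cons a L ih =>
    rw [show wl C hM (F := F) (a :: L) = (chevData C hM).ww a * wl C hM L from List.prod_cons,
      Subgroup.coe_mul, ih, ww_coe C hM, List.map_cons, C.nWordElt_cons]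

theorem wl_append (L L' : List (Fin D.rank)) :
    wl C hM (F := F) (L ++ L') = wl C hM L * wl C hM L' := by
  simp [wl]

theorem wl_cons (a : Fin D.rank) (L : List (Fin D.rank)) :
    wl C hM (F := F) (a :: L) = (chevData C hM).ww a * wl C hM L := List.prod_cons

theorem wl_mem_N (L : List (Fin D.rank)) : wl C hM (F := F) L ∈ (chevData C hM).N :=
  list_prod_mem fun x hx => by
    obtain ⟨j, -, rfl⟩ := List.mem_map.1 hx
    exact (chevData C hM).wy_mem j

theorem act_coef_avoid {L : List (Fin D.rank)} {j : Fin D.rank} (hj : j ∉ L) {r : ℕ}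
    (hr : r < D.nroots) : C.coef (act D (L.map Fin.val) r) j = C.coef r j := by
  induction L with
  | nil => rfl
  | cons a L ih =>
    rw [List.mem_cons, not_or] at hj
    rw [List.map_cons, act_cons, C.coef_refl a a.isLt _ (C.act_lt (C.fin_word_lt L) hr) j j.isLt,
      if_neg (fun e => hj.1 (Fin.ext e)), sub_zero, ih hj.2]

/-- The last letter of a word sending a fundamental root to a negative one cancels. -/
theorem exists_flip {L : List (Fin D.rank)} {r : ℕ} (hr : D.IsPosRoot r)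
    (hneg : D.IsNegRoot (act D (L.map Fin.val) r)) :
    ∃ (P : List (Fin D.rank)) (a : Fin D.rank) (Q : List (Fin D.rank)),
      L = P ++ a :: Q ∧ act D (Q.map Fin.val) r = D.simple a := by
  induction L with
  | nil => exact absurd hneg fun h => C.not_pos_and_neg hr h
  | cons a L ih =>
    have hlt := C.act_lt (C.fin_word_lt L) hr.1
    rcases C.posRoot_or_negRoot hlt with h | h
    · refine ⟨[], a, L, rfl, ?_⟩
      by_contra hne
      exact C.not_pos_and_neg (C.pos_refl a.isLt h hne) hneg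
    · obtain ⟨P, b, Q, rfl, e⟩ := ih h
      exact ⟨a :: P, b, Q, rfl, e⟩

/-- A character of the torus fixed by some Weyl elements is trivial on their products in the
torus. -/
theorem word_torus {A : Type v} [CommGroup A] (lam : ↥((chevData C hM (F := F)).T) →* A)
    (K : Fin D.rank → Prop)
    (hsq : ∀ a, K a → lam ⟨(chevData C hM).hh a (-1), (chevData C hM).hh_mem a _⟩ = 1)
    (hconj : ∀ a, K a → ∀ (d d' : ↥((chevData C hM (F := F)).T)),
      (d' : ↥(D.group F)) =
        (chevData C hM).ww a * (d : ↥(D.group F)) * ((chevData C hM).ww a)⁻¹ → lam d' = lam d) :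
    ∀ L : List (Fin D.rank), (∀ j ∈ L, K j) → ∀ hT : wl C hM L ∈ (chevData C hM (F := F)).T,
      lam ⟨_, hT⟩ = 1 := by
  have hNT : ∀ n ∈ (chevData C hM (F := F)).N, ∀ d ∈ (chevData C hM (F := F)).T, n * d * n⁻¹ ∈ (chevData C hM (F := F)).T := fun n hn d hd => by
    simpa using (chevData C hM (F := F)).N_T _ (inv_mem hn) d hd
  have hword : ∀ P : List (Fin D.rank), (∀ j ∈ P, K j) → ∀ (d d' : ↥(chevData C hM (F := F)).T),
      (d' : ↥(D.group F)) = wl C hM P * (d : ↥(D.group F)) * (wl C hM P)⁻¹ → lam d' = lam d := by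
    intro P
    induction P with
    | nil => intro _ d d' e; exact congrArg lam (Subtype.ext (by simpa [wl] using e))
    | cons a P ih =>
      intro hP d d' e
      have hm := hNT _ (wl_mem_N C hM P) d d.2
      refine (hconj a (hP a List.mem_cons_self) ⟨_, hm⟩ d' ?_).trans
        (ih (fun j hj => hP j (List.mem_cons_of_mem _ hj)) d _ rfl)
      rw [e, wl_cons]; show _ = _ * (_ * _ * _) * _; group
  intro L
  induction hn : L.length using Nat.strong_induction_on generalizing L with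
  | _ n ih =>
    intro hL hT
    rcases List.eq_nil_or_concat' L with rfl | ⟨L', b, rfl⟩
    · exact (congrArg lam (Subtype.ext (by simp [wl] ) :
        (⟨_, hT⟩ : ↥(chevData C hM (F := F)).T) = 1)).trans lam.map_one
    have hb := C.simple_lt b b.isLt
    have hact := C.act_eq_of_mem_diagonal (F := F) (C.fin_word_lt (L' ++ [b]))
      (by rw [← wl_coe C hM]; exact Subgroup.mem_subgroupOf.1 hT) hb
    rw [List.map_append, act_append, List.map_cons, List.map_nil, act_cons, act_nil,
      C.refl_simple b.isLt, C.act_neg (C.fin_word_lt L') hb] at hact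
    have hneg : D.IsNegRoot (act D (L'.map Fin.val) (D.simple b)) := by
      have hlt := C.act_lt (C.fin_word_lt L') hb
      have h := C.negRoot_neg (r := D.neg (act D (L'.map Fin.val) (D.simple b)))
        (by rw [hact]; exact C.pos_simple b.isLt)
      rwa [C.neg_neg _ hlt] at h
    obtain ⟨P, a, Q, rfl, hQ⟩ := exists_flip C (C.pos_simple b.isLt) hneg
    obtain ⟨z, hz, hz1⟩ : ∃ z : ↥(chevData C hM (F := F)).T,
        wl C hM (a :: Q ++ [b]) = (z : ↥(D.group F)) * wl C hM Q ∧ lam z = 1 := by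
      have e1 : wl C hM (F := F) (a :: Q ++ [b]) = (chevData C hM (F := F)).ww a * (wl C hM Q * (chevData C hM (F := F)).ww b * (wl C hM Q)⁻¹) *
          wl C hM Q := by
        rw [List.cons_append, wl_cons, wl_append, wl_cons]
        simp [wl, mul_assoc]
      have hco : ((wl C hM Q * (chevData C hM (F := F)).ww b * (wl C hM Q)⁻¹ : ↥(D.group F)) : GL D.Idx F) =
          C.nWordElt F (Q.map Fin.val) * C.nu (D.simple b) 1 *
            (C.nWordElt F (Q.map Fin.val))⁻¹ := by
        rw [Subgroup.coe_mul, Subgroup.coe_mul, Subgroup.coe_inv, wl_coe, ww_coe C hM]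
      have hKa : K a := hL a (by simp)
      rcases C.nWordElt_conj_nu (F := F) (C.fin_word_lt Q) hb with h | h <;> rw [hQ] at h
      · refine ⟨⟨(chevData C hM (F := F)).hh a (-1), (chevData C hM (F := F)).hh_mem a _⟩, ?_, hsq a hKa⟩
        rw [e1, show wl C hM Q * (chevData C hM (F := F)).ww b * (wl C hM Q)⁻¹ = (chevData C hM (F := F)).ww a from
          Subtype.ext (by rw [hco, h, ww_coe C hM]), (chevData C hM (F := F)).ww_mul_ww]
      · refine ⟨1, ?_, lam.map_one⟩
        rw [e1, show wl C hM Q * (chevData C hM (F := F)).ww b * (wl C hM Q)⁻¹ = ((chevData C hM (F := F)).ww a)⁻¹ from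
          Subtype.ext (by rw [hco, h, Subgroup.coe_inv, ww_coe C hM]), mul_inv_cancel]
        rfl
    have hz' := hNT _ (wl_mem_N C hM P) z z.2
    have e2 : wl C hM (P ++ a :: Q ++ [b]) =
        (wl C hM P * (z : ↥(D.group F)) * (wl C hM P)⁻¹) * wl C hM (P ++ Q) := by
      rw [List.append_assoc, wl_append, hz, wl_append]; group
    have hPQ : wl C hM (P ++ Q) ∈ (chevData C hM (F := F)).T := by
      have h := mul_mem (inv_mem hz') hT
      rwa [e2, inv_mul_cancel_left] at h
    have h1 := ih (P ++ Q).length (by rw [← hn]; simp) (P ++ Q) rfl (fun j hj => hL j (by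
      rcases List.mem_append.1 hj with h | h
      · simp [h]
      · simp [h])) hPQ
    rw [show (⟨_, hT⟩ : ↥(chevData C hM (F := F)).T) = ⟨_, hz'⟩ * ⟨_, hPQ⟩ from Subtype.ext e2, map_mul, h1, mul_one,
      hword P (fun j hj => hL j (by simp [hj])) z ⟨_, hz'⟩ rfl, hz1]

theorem exists_n0 : ∃ n₀ ∈ (chevData C hM (F := F)).N,
    ∀ u ∈ (chevData C hM (F := F)).Uneg, n₀⁻¹ * u * n₀ ∈ (chevData C hM (F := F)).U := by
  obtain ⟨w, hw, hwU⟩ := C.exists_conj_pos_eq_neg (F := F) hM
  refine ⟨⟨w, C.monomial_le_group hw⟩, Subgroup.mem_subgroupOf.2 hw, fun u hu => ?_⟩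
  obtain ⟨a, ha, e⟩ := hwU ▸ Subgroup.mem_subgroupOf.1 hu
  refine Subgroup.mem_subgroupOf.2 ?_
  rw [Subgroup.coe_mul, Subgroup.coe_mul, Subgroup.coe_inv, ← e]
  show w⁻¹ * (w * a * w⁻¹) * w ∈ _
  rw [show w⁻¹ * (w * a * w⁻¹) * w = a by group]
  exact ha


theorem isPGroup_Uneg (p : ℕ) [Fact p.Prime] [CharP F p] :
    IsPGroup p (chevData C hM (F := F)).Uneg := by
  obtain ⟨n₀, -, hn₀⟩ := exists_n0 C hM (F := F)
  refine IsPGroup.of_injective (isPGroup_U C hM (F := F) (p := p))
    (((MulAut.conj n₀⁻¹).toMonoidHom.comp (chevData C hM (F := F)).Uneg.subtype).codRestrict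
      (chevData C hM (F := F)).U fun u => by simpa using hn₀ u u.2) fun a b h => ?_
  have h' := congrArg Subtype.val h
  exact Subtype.ext ((MulAut.conj n₀⁻¹).injective h')

/-- The full product of the coroot subgroups onto the torus. -/
theorem exists_coords (hcard : Nat.card (D.diagonalSubgroup F) = (Fintype.card F - 1) ^ D.rank) :
    ∃ Φ : (Fin D.rank → Fˣ) →* ↥(chevData C hM (F := F)).T, Function.Bijective Φ ∧
      ∀ j t, Φ (Pi.mulSingle j t) =
        ⟨(chevData C hM).hh j t, (chevData C hM).hh_mem j t⟩ := by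
  set S := chevData C hM (F := F) with hS
  letI : CommGroup ↥S.T :=
    { (inferInstance : Group ↥S.T) with
      mul_comm := fun a b => Subtype.ext (S.T_comm a a.2 b b.2) }
  let h : Fin D.rank → Fˣ →* ↥S.T := fun j =>
    MonoidHom.mk' (fun t => ⟨S.hh j t, S.hh_mem j t⟩) fun a b => Subtype.ext (S.hh_mul j a b)
  let Φ : (Fin D.rank → Fˣ) →* ↥S.T :=
    MonoidHom.mk' (fun c => ∏ j, h j (c j)) fun a b => by
      simp only [Pi.mul_apply, map_mul, Finset.prod_mul_distrib]
  have hΦ : ∀ j t, Φ (Pi.mulSingle j t) = h j t := fun j t => by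
    show ∏ i, h i (Pi.mulSingle (M := fun _ => Fˣ) j t i) = _
    rw [Finset.prod_eq_single j (fun i _ hi => by rw [Pi.mulSingle_eq_of_ne hi, map_one]) (by simp),
      Pi.mulSingle_eq_same]
  refine ⟨Φ, ?_, hΦ⟩
  refine (Nat.bijective_iff_surjective_and_card Φ).2 ⟨?_, ?_⟩
  · intro d
    obtain ⟨c, hc, e⟩ := C.mem_diagonal_iff.1 (Subgroup.mem_subgroupOf.1 d.2)
    let K : Subgroup (GL D.Idx F) := (Φ.range.map S.T.subtype).map (D.group F).subtype
    have hK : ∀ L : List ℕ, (∀ m ∈ L, m < D.rank) →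
        C.wu (L.flatMap fun m => D.hWord (D.simple m) (c m)) ∈ K := by
      intro L
      induction L with
      | nil => intro _; simp [Cert.wu]
      | cons a L ih =>
        intro hL
        rw [List.flatMap_cons, C.wu_append]
        refine mul_mem ?_ (ih fun m hm => hL m (List.mem_cons_of_mem _ hm))
        have ha := hL a List.mem_cons_self
        refine ⟨_, ⟨_, ⟨Pi.mulSingle ⟨a, ha⟩ (Units.mk0 _ (hc a ha)), rfl⟩, rfl⟩, ?_⟩
        rw [hΦ]
        exact hh_coe C hM _ _
    obtain ⟨g, ⟨d', ⟨x, rfl⟩, rfl⟩, hg⟩ : ((d : ↥(D.group F)) : GL D.Idx F) ∈ K :=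
      e ▸ hK _ fun m hm => List.mem_range.1 hm
    exact ⟨x, Subtype.ext (Subtype.ext hg)⟩
  · rw [Nat.card_fun, Nat.card_fin, Nat.card_eq_fintype_card (α := Fˣ), Fintype.card_units,
      ← hcard]
    exact (Nat.card_congr (Subgroup.subgroupOfEquivOfLe C.diagonal_le_group).toEquiv).symm

theorem torus_inter (p : ℕ) [Fact p.Prime] [CharP F p]
    (hcard : Nat.card (D.diagonalSubgroup F) = (Fintype.card F - 1) ^ D.rank) {d : ↥(D.group F)}
    (hd : d ∈ (chevData C hM (F := F)).T) {m : ℕ} (hm : d ^ p ^ m = 1) : d = 1 := by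
  have hcop : Nat.Coprime (p ^ m) ((Fintype.card F - 1) ^ D.rank) := by
    refine Nat.Coprime.pow _ _ ((Nat.Prime.coprime_iff_not_dvd Fact.out).2 fun h => ?_)
    obtain ⟨e, -, he⟩ := FiniteField.card F p
    have h2 : p ∣ Fintype.card F := he ▸ dvd_pow_self p e.ne_zero
    have h3 := Nat.dvd_sub h2 h
    rw [Nat.sub_sub_self Fintype.card_pos] at h3
    exact (Fact.out : p.Prime).one_lt.ne' (Nat.dvd_one.1 h3)
  refine orderOf_eq_one_iff.1 (Nat.eq_one_of_dvd_coprimes hcop (orderOf_dvd_of_pow_eq_one hm) ?_)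
  rw [← hcard, ← Nat.card_congr (Subgroup.subgroupOfEquivOfLe C.diagonal_le_group).toEquiv]
  exact Subgroup.orderOf_dvd_natCard _ hd

/-- The monomial part of an element is unique. -/
theorem monomial_unique (p : ℕ) [Fact p.Prime] [CharP F p]
    (hcard : Nat.card (D.diagonalSubgroup F) = (Fintype.card F - 1) ^ D.rank)
    {n n' u u' v v' : ↥(D.group F)} (hn : n ∈ (chevData C hM (F := F)).N)
    (hn' : n' ∈ (chevData C hM (F := F)).N) (hu : u ∈ (chevData C hM (F := F)).U)
    (hu' : u' ∈ (chevData C hM (F := F)).U) (hv : v ∈ (chevData C hM (F := F)).U)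
    (hv' : v' ∈ (chevData C hM (F := F)).U) (e : u * n * u' = v * n' * v') : n = n' := by
  set S := chevData C hM (F := F) with hS
  have hd : n⁻¹ * n' ∈ S.T := by
    refine Subgroup.mem_subgroupOf.2 ?_
    rw [Subgroup.coe_mul, Subgroup.coe_inv]
    refine C.inCell_unique hM (Subgroup.mem_subgroupOf.1 hn) (Subgroup.mem_subgroupOf.1 hn') ?_
    refine ⟨((v⁻¹ * u : ↥(D.group F)) : GL D.Idx F),
      C.pos_le_borel (Subgroup.mem_subgroupOf.1 (mul_mem (inv_mem hv) hu)),
      ((u' * v'⁻¹ : ↥(D.group F)) : GL D.Idx F),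
      C.pos_le_borel (Subgroup.mem_subgroupOf.1 (mul_mem hu' (inv_mem hv'))), ?_⟩
    rw [← Subgroup.coe_mul, ← Subgroup.coe_mul]
    refine congrArg Subtype.val ?_
    rw [show v⁻¹ * u * n * (u' * v'⁻¹) = v⁻¹ * (u * n * u') * v'⁻¹ by group, e]
    group
  set d := n⁻¹ * n' with hdd
  set y := v' * u'⁻¹ with hy
  have hyU : y ∈ S.U := mul_mem hv' (inv_mem hu')
  have e1 : n⁻¹ * (v⁻¹ * u) * n = d * y := by
    rw [hdd, hy, show n⁻¹ * (v⁻¹ * u) * n = n⁻¹ * v⁻¹ * (u * n * u') * u'⁻¹ by group, e]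
    group
  have hP := isPGroup_U C hM (F := F) (p := p)
  obtain ⟨a, ha⟩ : ∃ a, (v⁻¹ * u) ^ p ^ a = 1 := by
    obtain ⟨a, ha⟩ := hP ⟨_, mul_mem (inv_mem hv) hu⟩
    exact ⟨a, congrArg Subtype.val ha⟩
  have e2 : (d * y) ^ p ^ a = 1 := by
    rw [← e1]
    have h : (n⁻¹ * (v⁻¹ * u) * n⁻¹⁻¹) ^ p ^ a = 1 := by rw [conj_pow, ha]; group
    rwa [inv_inv] at h
  have key : ∀ m : ℕ, ∃ y' ∈ S.U, (d * y) ^ m = d ^ m * y' := by
    intro m
    induction m with
    | zero => exact ⟨1, one_mem _, by simp⟩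
    | succ m ih =>
      obtain ⟨y', hy', e'⟩ := ih
      refine ⟨d⁻¹ * y' * d * y, mul_mem ?_ hyU, ?_⟩
      · simpa using S.T_U _ (inv_mem hd) _ hy'
      · rw [pow_succ, e', pow_succ]; group
  obtain ⟨y', hy', e'⟩ := key (p ^ a)
  rw [e2] at e'
  have hdU : d ^ p ^ a ∈ S.U := by rw [eq_inv_of_mul_eq_one_left e'.symm]; exact inv_mem hy'
  obtain ⟨b, hb⟩ := hP ⟨_, hdU⟩
  have hb' : (d ^ p ^ a) ^ p ^ b = 1 := congrArg Subtype.val hb
  rw [← pow_mul, ← pow_add] at hb'
  exact inv_mul_eq_one.1 (torus_inter C hM p hcard hd hb')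

/-- A module of each weight. -/
theorem exists_module_of_weight (p : ℕ) [Fact p.Prime] [CharP F p] {k : Type v} [Field k]
    [CharP k p] (hcard : Nat.card (D.diagonalSubgroup F) = (Fintype.card F - 1) ^ D.rank)
    (wt : Fin D.rank → Option (Fˣ →* kˣ)) :
    ∃ (ρ : Representation k ↥(D.group F) (↥(D.group F) → k)) (v : ↥(D.group F) → k),
      HasWeight (chevData C hM (F := F)) ρ v wt := by
  set S := chevData C hM (F := F) with hS
  let ν : Fin D.rank → Fˣ →* kˣ := fun j => ((wt j).getD 1)⁻¹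
  obtain ⟨Φ, hΦ, hΦs⟩ := exists_coords C hM hcard
  let Ψ : (Fin D.rank → Fˣ) ≃* ↥S.T := MulEquiv.ofBijective Φ hΦ
  let lamc : (Fin D.rank → Fˣ) →* kˣ :=
    MonoidHom.mk' (fun c => ∏ j, ν j (c j)) fun a b => by
      simp only [Pi.mul_apply, map_mul, Finset.prod_mul_distrib]
  let lam : ↥S.T →* kˣ := lamc.comp Ψ.symm.toMonoidHom
  have hlam : ∀ j t, lam ⟨S.hh j t, S.hh_mem j t⟩ = ν j t := fun j t => by
    show lamc (Ψ.symm _) = _
    rw [← hΦs j t, show Φ (Pi.mulSingle j t) = Ψ (Pi.mulSingle j t) from rfl, Ψ.symm_apply_apply]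
    show ∏ i, ν i (Pi.mulSingle (M := fun _ => Fˣ) j t i) = _
    rw [Finset.prod_eq_single j (fun i _ hi => by rw [Pi.mulSingle_eq_of_ne hi, map_one]) (by simp),
      Pi.mulSingle_eq_same]
  let K : Fin D.rank → Prop := fun j => wt j = some 1
  have hKν : ∀ j, K j → ν j = 1 := fun j hj => by
    show ((wt j).getD 1)⁻¹ = 1
    rw [show wt j = some 1 from hj, Option.getD_some]
    exact MonoidHom.ext fun _ => inv_one
  have hNT : ∀ n ∈ S.N, ∀ d ∈ S.T, n * d * n⁻¹ ∈ S.T := fun n hn d hd => by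
    simpa using S.N_T _ (inv_mem hn) d hd
  have hconj : ∀ a, K a → ∀ (d d' : ↥S.T),
      (d' : ↥(D.group F)) = S.ww a * d * (S.ww a)⁻¹ → lam d' = lam d := by
    intro a ha d d' hdd
    obtain ⟨c, rfl⟩ := hΦ.2 d
    let κ : ↥S.T →* ↥S.T := MonoidHom.mk'
      (fun d => ⟨S.ww a * d * (S.ww a)⁻¹, hNT _ (S.wy_mem a) _ d.2⟩) fun x y => Subtype.ext (by
        show S.ww a * ((x : ↥(D.group F)) * y) * (S.ww a)⁻¹ =
          S.ww a * x * (S.ww a)⁻¹ * (S.ww a * y * (S.ww a)⁻¹)
        group)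
    rw [show d' = κ (Φ c) from Subtype.ext hdd]
    suffices e : (lam.comp κ).comp Φ = lam.comp Φ from DFunLike.congr_fun e c
    refine MonoidHom.functions_ext _ _ _ fun j t => ?_
    show lam (κ (Φ (Pi.mulSingle j t))) = lam (Φ (Pi.mulSingle j t))
    rw [hΦs]
    set e0 := ∑ m ∈ Finset.range D.rank, corootC D (D.simple j) m * D.cartan m (D.simple a)
    have ht : (t : F) ≠ 0 := t.ne_zero
    have hconjhh : S.ww a * S.hh j t * (S.ww a)⁻¹ = S.hh j t * S.hh a (t ^ (-e0)) := by
      rw [mul_inv_eq_iff_eq_mul]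
      refine Subtype.ext ?_
      simp only [hS, Subgroup.coe_mul, ww_coe C hM, hh_coe C hM, Units.val_zpow_eq_zpow_val]
      rw [C.nu_simple_conj_hu a.isLt (C.simple_lt j j.isLt) ht]
      congr 1
      apply Units.ext
      rw [Units.val_mul, C.coe_hu, C.coe_hu, C.coe_hu,
        C.hMat_eq (C.refl_lt a a.isLt _ (C.simple_lt j j.isLt)) ht,
        C.hMat_eq (C.simple_lt j j.isLt) ht,
        C.hMat_eq (C.simple_lt a a.isLt) (zpow_ne_zero _ ht), dMat_mul]
      refine dMat_congr fun s _ => ?_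
      simp only [Pi.mul_apply, pairChar, Cert.pairInt_eq]
      rw [← zpow_mul, ← zpow_add₀ ht]
      congr 1
      rw [Finset.mul_sum, ← Finset.sum_add_distrib]
      refine Finset.sum_congr rfl fun m hm => ?_
      have hm' := Finset.mem_range.1 hm
      rw [C.coroot_refl a a.isLt _ (C.simple_lt j j.isLt) m hm', C.coroot_simple a a.isLt m hm']
      by_cases h : m = a
      · rw [if_pos h, if_pos h]; ring
      · rw [if_neg h, if_neg h]; ring
    rw [show κ ⟨S.hh j t, S.hh_mem j t⟩ =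
      ⟨S.hh j t, S.hh_mem j t⟩ * ⟨S.hh a (t ^ (-e0)), S.hh_mem a _⟩ from Subtype.ext hconjhh,
      map_mul, hlam a, hKν a ha, MonoidHom.one_apply, mul_one]
  have hword : ∀ L : List (Fin D.rank), (∀ j ∈ L, K j) → ∀ hT : wl C hM L ∈ S.T,
      lam ⟨_, hT⟩ = 1 :=
    word_torus C hM lam K (fun a ha => by rw [hlam a, hKν a ha, MonoidHom.one_apply]) hconj
  let A : Subgroup ↥(D.group F) :=
    { carrier := {g | ∃ L : List (Fin D.rank), (∀ j ∈ L, K j) ∧ g = wl C hM L}
      one_mem' := ⟨[], by simp, by simp [wl]⟩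
      mul_mem' := by
        rintro _ _ ⟨L, hL, rfl⟩ ⟨L', hL', rfl⟩
        exact ⟨L ++ L', fun j hj => (List.mem_append.1 hj).elim (hL j) (hL' j),
          (wl_append C hM L L').symm⟩
      inv_mem' := by
        rintro _ ⟨L, hL, rfl⟩
        have hp : ∀ m : ℕ, ∃ L' : List (Fin D.rank), (∀ j ∈ L', K j) ∧
            wl C hM (F := F) L ^ m = wl C hM L' := by
          intro m
          induction m with
          | zero => exact ⟨[], by simp, by simp [wl]⟩
          | succ m ih =>
            obtain ⟨L', hL', e⟩ := ih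
            exact ⟨L' ++ L, fun j hj => (List.mem_append.1 hj).elim (hL' j) (hL j),
              by rw [pow_succ, e, wl_append]⟩
        obtain ⟨L', hL', e⟩ := hp (orderOf (wl C hM (F := F) L) - 1)
        exact ⟨L', hL', by
          rw [← e]
          exact inv_eq_of_mul_eq_one_right (by
            rw [← pow_succ', Nat.sub_add_cancel (orderOf_pos _), pow_orderOf_eq_one])⟩ }
  have hAN : ∀ a ∈ A, a ∈ S.N := by rintro _ ⟨L, -, rfl⟩; exact wl_mem_N C hM L
  have hAww : ∀ j, K j → S.ww j ∈ A := fun j hj => ⟨[j], by simp [hj], by simp [wl, hS]⟩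
  have hAconj : ∀ a ∈ A, ∀ (d d' : ↥S.T),
      (d' : ↥(D.group F)) = a * d * a⁻¹ → lam d' = lam d := by
    rintro _ ⟨L, hL, rfl⟩
    induction L with
    | nil => intro d d' e; exact congrArg lam (Subtype.ext (by simpa [wl] using e))
    | cons b L ih =>
      intro d d' e
      rw [hconj b (hL b List.mem_cons_self) ⟨_, hNT _ (wl_mem_N C hM L) d d.2⟩ d' (by
        rw [e, wl_cons, ← hS]; show _ = _ * (_ * _ * _) * _; group)]
      exact ih (fun j hj => hL j (List.mem_cons_of_mem _ hj)) d _ rfl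
  obtain ⟨n₀, hn₀N, hn₀⟩ := exists_n0 C hM (F := F)
  have hTN : ∀ d ∈ S.T, d ∈ S.N := fun d hd => C.diagonal_le_monomial hd
  -- the function on monomial elements
  let fN : ↥(D.group F) → k := fun g =>
    if h : ∃ d : ↥S.T, ∃ a ∈ A, g = (d : ↥(D.group F)) * a * n₀ then (lam h.choose : k) else 0
  have hfN : ∀ (d : ↥S.T), ∀ a ∈ A, fN ((d : ↥(D.group F)) * a * n₀) = (lam d : k) := by
    intro d a ha
    have h : ∃ d' : ↥S.T, ∃ a' ∈ A,
        (d : ↥(D.group F)) * a * n₀ = (d' : ↥(D.group F)) * a' * n₀ := ⟨d, a, ha, rfl⟩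
    simp only [fN, dif_pos h]
    obtain ⟨a', ha', e⟩ := h.choose_spec
    set d' := h.choose
    obtain ⟨L, hL, hLe⟩ := A.mul_mem ha' (A.inv_mem ha)
    have e' : ((d'⁻¹ * d : ↥S.T) : ↥(D.group F)) = wl C hM L := by
      rw [← hLe, Subgroup.coe_mul, Subgroup.coe_inv, eq_mul_inv_iff_mul_eq, mul_assoc,
        mul_right_cancel e, inv_mul_cancel_left]
    have h1 := hword L hL (e' ▸ (d'⁻¹ * d).2)
    rw [show (⟨wl C hM L, e' ▸ (d'⁻¹ * d).2⟩ : ↥S.T) = d'⁻¹ * d from Subtype.ext e'.symm,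
      map_mul, map_inv, inv_mul_eq_one] at h1
    rw [h1]
  have hfN0 : ∀ g, fN g ≠ 0 → ∃ d : ↥S.T, ∃ a ∈ A, g = (d : ↥(D.group F)) * a * n₀ := fun g hg =>
    by_contra fun h => hg (dif_neg h)
  have hfNd : ∀ (d : ↥S.T) g, fN ((d : ↥(D.group F)) * g) = (lam d : k) * fN g := by
    intro d g
    by_cases h : ∃ d' : ↥S.T, ∃ a ∈ A, g = (d' : ↥(D.group F)) * a * n₀
    · obtain ⟨d', a, ha, rfl⟩ := h
      rw [hfN d' a ha, ← Units.val_mul, ← map_mul, ← hfN (d * d') a ha, Subgroup.coe_mul]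
      simp [mul_assoc]
    · rw [show fN g = 0 from dif_neg h, mul_zero]
      refine dif_neg ?_
      rintro ⟨d', a, ha, e⟩
      exact h ⟨d⁻¹ * d', a, ha, by
        rw [Subgroup.coe_mul, Subgroup.coe_inv, mul_assoc, mul_assoc, ← mul_assoc (d' : ↥(D.group F)),
          ← e, inv_mul_cancel_left]⟩
  have hfNa : ∀ a ∈ A, ∀ g, fN (a * g) = fN g := by
    intro a ha g
    have key : ∀ b ∈ A, ∀ g, fN g ≠ 0 → fN (b * g) = fN g := by
      intro b hb g hg
      obtain ⟨d, c, hc, rfl⟩ := hfN0 g hg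
      have hm := hNT _ (hAN b hb) d d.2
      rw [show b * ((d : ↥(D.group F)) * c * n₀) =
        ((⟨_, hm⟩ : ↥S.T) : ↥(D.group F)) * (b * c) * n₀ by
          show _ = (b * d * b⁻¹) * (b * c) * n₀; group,
        hfN _ _ (mul_mem hb hc), hfN d c hc, hAconj b hb d ⟨_, hm⟩ rfl]
    by_cases hg : fN g = 0
    · by_contra hne
      have h := key a⁻¹ (inv_mem ha) (a * g) (hg ▸ hne)
      rw [inv_mul_cancel_left] at h
      exact hne h.symm
    · exact key a ha g hg
  -- the function on the group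
  let f : ↥(D.group F) → k := fun g => fN (exists_cover C hM g).choose
  have hf : ∀ n ∈ S.N, ∀ u ∈ S.U, ∀ u' ∈ S.U, f (u * n * u') = fN n := by
    intro n hn u hu u' hu'
    obtain ⟨hn', v, hv, v', hv', e⟩ := (exists_cover C hM (u * n * u')).choose_spec
    exact congrArg fN (monomial_unique C hM p hcard hn hn' hu hu' hv hv' e).symm
  have hfU : ∀ g, ∀ u ∈ S.U, f (g * u) = f g ∧ f (u * g) = f g := by
    intro g u hu
    obtain ⟨n, hn, v, hv, v', hv', rfl⟩ := exists_cover C hM g
    constructor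
    · rw [show v * n * v' * u = v * n * (v' * u) by group, hf n hn v hv _ (mul_mem hv' hu),
        hf n hn v hv v' hv']
    · rw [show u * (v * n * v') = u * v * n * v' by group, hf n hn _ (mul_mem hu hv) v' hv',
        hf n hn v hv v' hv']
  have hfn : ∀ n ∈ S.N, f n = fN n := fun n hn => by
    simpa using hf n hn 1 (one_mem _) 1 (one_mem _)
  have hfd : ∀ (d : ↥S.T) g, f ((d : ↥(D.group F)) * g) = (lam d : k) * f g := by
    intro d g
    obtain ⟨n, hn, v, hv, v', hv', rfl⟩ := exists_cover C hM g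
    rw [show (d : ↥(D.group F)) * (v * n * v') =
      ((d : ↥(D.group F)) * v * (d : ↥(D.group F))⁻¹) * ((d : ↥(D.group F)) * n) * v' by group,
      hf _ (mul_mem (hTN _ d.2) hn) _ (S.T_U _ d.2 _ hv) v' hv', hf n hn v hv v' hv', hfNd]
  let ρ : Representation k ↥(D.group F) (↥(D.group F) → k) :=
    { toFun := fun g => LinearMap.funLeft k k fun x => g⁻¹ * x
      map_one' := LinearMap.ext fun φ => funext fun x => by simp [LinearMap.funLeft_apply]
      map_mul' := fun a b => LinearMap.ext fun φ => funext fun x => by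
        simp [LinearMap.funLeft_apply, mul_assoc] }
  have hρ : ∀ g φ x, ρ g φ x = φ (g⁻¹ * x) := fun g φ x => rfl
  have hf1 : f n₀ = 1 := by
    rw [hfn _ hn₀N]
    simpa using hfN 1 1 (one_mem _)
  refine ⟨ρ, f, fun h => one_ne_zero (hf1.symm.trans (congrFun h n₀)), fun u hu => ?_,
    fun j t => ?_, fun j => ?_⟩
  · funext x; rw [hρ]; exact (hfU x _ (inv_mem hu)).2
  · funext x
    rw [hρ, Pi.smul_apply, smul_eq_mul]
    have h := hfd (⟨S.hh j t, S.hh_mem j t⟩⁻¹) x
    rw [Subgroup.coe_inv] at h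
    rw [h, map_inv, hlam j]
    simp [ν]
  set τ := sig S ρ j (ρ (S.ww j) f) with hτ
  have hτv : ∀ x, τ x = ∑ a : F, f ((S.ww j)⁻¹ * S.xp j a * x) := by
    intro x
    rw [hτ, sig_apply, Finset.sum_apply]
    refine Fintype.sum_equiv (Equiv.neg F) _ _ fun a => ?_
    rw [hρ, hρ, Equiv.neg_apply, S.xp_neg, mul_assoc]
  have hτR : ∀ x, ∀ u ∈ S.U, τ (x * u) = τ x ∧ τ (u * x) = τ x := by
    intro x u hu
    refine ⟨?_, ?_⟩
    · rw [hτv, hτv]
      exact Finset.sum_congr rfl fun a _ => by rw [← mul_assoc]; exact (hfU _ u hu).1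
    · obtain ⟨b, r, hr, e⟩ := S.dec j u hu
      rw [show u = S.xp j b * r from e, hτv, hτv]
      refine Fintype.sum_equiv (Equiv.addRight b) _ _ fun a => ?_
      rw [Equiv.coe_addRight]
      set q := S.xp j (a + b)
      have hr1 : q * r * q⁻¹ ∈ S.R j := S.R_conj j (SLDef.up2 (a + b)) r hr
      have hq : S.xp j a = q * (S.xp j b)⁻¹ := by
        simp only [q]; rw [S.xp_add, mul_inv_cancel_right]
      rw [show (S.ww j)⁻¹ * S.xp j a * (S.xp j b * r * x) =
          (S.ww j)⁻¹ * (q * r * q⁻¹) * S.ww j * ((S.ww j)⁻¹ * q * x) by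
        rw [hq]; group]
      exact (hfU _ _ (S.R_le j (S.ww_inv_conj_mem_R j hr1))).2
  have hsupp : ¬ K j → ∀ n, fN n ≠ 0 → ∀ b, n⁻¹ * S.xm j b * n ∈ S.U := by
    intro hj n hn b
    obtain ⟨d, a, ha, rfl⟩ := hfN0 n hn
    obtain ⟨L, hL, hLe⟩ := A.inv_mem ha
    have hjL : j ∉ L := fun h => hj (hL j h)
    have hs := C.simple_lt j j.isLt
    have hns := C.neg_lt _ hs
    obtain ⟨c, -, hc⟩ := C.diagonal_conj_xu (F := F)
      (inv_mem (Subgroup.mem_subgroupOf.1 d.2)) hns
    obtain ⟨c', -, hc'⟩ := C.nWordElt_conj_xu (F := F) (C.fin_word_lt L) hns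
    have hneg : D.IsNegRoot (act D (L.map Fin.val) (D.neg (D.simple j))) := by
      have hlt := C.act_lt (C.fin_word_lt L) hns
      refine (C.posRoot_or_negRoot hlt).resolve_left fun hp => ?_
      have h := (C.pos_iff _ hlt).1 hp j j.isLt
      rw [act_coef_avoid C hjL hns, C.coef_neg _ hs j j.isLt, C.coef_simple j j.isLt j j.isLt,
        if_pos rfl] at h
      omega
    have hx : a⁻¹ * ((d : ↥(D.group F))⁻¹ * S.xm j b * d) * a ∈ S.Uneg := by
      refine Subgroup.mem_subgroupOf.2 ?_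
      have ha' : (a : GL D.Idx F)⁻¹ = C.nWordElt F (L.map Fin.val) := by
        rw [← Subgroup.coe_inv, hLe, wl_coe]
      simp only [hS, Subgroup.coe_mul, Subgroup.coe_inv, xm_coe C hM]
      rw [show ((d : ↥(D.group F)) : GL D.Idx F)⁻¹ * C.xu (D.neg (D.simple j)) b *
          ((d : ↥(D.group F)) : GL D.Idx F) = C.xu (D.neg (D.simple j)) (c * b) by
          simpa using hc b,
        ← inv_inv (a : GL D.Idx F), inv_inv (a : GL D.Idx F)⁻¹, ha', hc']
      exact C.xu_mem_neg hneg _
    have h := hn₀ _ hx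
    convert h using 1
    group
  have hww : (S.ww j)⁻¹ = S.hh j (-1) * S.ww j := by
    refine inv_eq_of_mul_eq_one_right ?_
    rw [← mul_assoc]
    have h1 : S.ww j * S.hh j (-1) = S.hh j (-1) * S.ww j := by
      rw [← S.ww_mul_ww, mul_assoc]
    rw [h1, mul_assoc, S.ww_mul_ww, ← S.hh_mul, neg_mul_neg, mul_one, S.hh_one]
  have hq0 : ((Fintype.card F : ℕ) : k) = 0 := by
    obtain ⟨e, -, he⟩ := FiniteField.card F p
    rw [he, Nat.cast_pow, CharP.cast_eq_zero k p, zero_pow e.ne_zero]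
  have hval : ∀ n ∈ S.N, τ n = if wt j = none then -f n else 0 := by
    intro n hn
    rw [hτv]
    rcases S.dich j n hn with hA | hB
    · have e0 : ∑ a : F, f ((S.ww j)⁻¹ * S.xp j a * n) = 0 := by
        rw [Finset.sum_congr rfl (g := fun _ => f ((S.ww j)⁻¹ * n)) fun a _ => by
            rw [show (S.ww j)⁻¹ * S.xp j a * n =
              (S.ww j)⁻¹ * n * (n⁻¹ * S.xp j a * n) by group]
            exact (hfU _ _ (hA a)).1,
          Finset.sum_const, nsmul_eq_mul, Finset.card_univ, hq0, zero_mul]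
      rw [e0]
      split_ifs with hj
      · have hK' : ¬ K j := fun h => by
          have h' : wt j = some 1 := h
          rw [hj] at h'; exact Option.some_ne_none _ h'.symm
        have hz : fN n = 0 := by_contra fun h => S.key j n hn hA 1 one_ne_zero 1 (one_mem _) (by
          have h2 := hsupp hK' n h 1
          rw [mul_one]; exact h2)
        rw [hfn n hn, hz, neg_zero]
      · rfl
    · have hwN : (S.ww j)⁻¹ * n ∈ S.N := mul_mem (inv_mem (S.wy_mem j)) hn
      have hterm : ∀ t : Fˣ, f ((S.ww j)⁻¹ * S.xp j (t : F) * n) =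
          (ν j (t⁻¹) : k) * f n := by
        intro t
        rw [show (S.ww j)⁻¹ * S.xp j (t : F) * n = S.hh j (-1) * (S.ww j * S.xp j (t : F)) * n by
            rw [hww]; group, S.ww_mul_xp,
          show S.hh j (-1) *
              (S.xp j (-((t⁻¹ : Fˣ) : F)) * S.hh j (-t⁻¹) * S.xm j ((t⁻¹ : Fˣ) : F)) * n =
            (S.hh j (-1) * S.xp j (-((t⁻¹ : Fˣ) : F)) * (S.hh j (-1))⁻¹) *
              ((S.hh j (-1) * S.hh j (-t⁻¹)) * n) * (n⁻¹ * S.xm j ((t⁻¹ : Fˣ) : F) * n) by group,
          (hfU _ (n⁻¹ * S.xm j ((t⁻¹ : Fˣ) : F) * n) (hB _)).1, (hfU _ _ (S.T_U _ (S.hh_mem j _) _ (S.xp_mem j _))).2, ← S.hh_mul,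
          neg_mul_neg, one_mul]
        exact (hfd ⟨_, S.hh_mem j _⟩ n).trans (by rw [hlam])
      rw [SLDef.sum_eq_zero_add_sum_units, S.xp_zero, mul_one,
        Finset.sum_congr rfl fun t _ => hterm t, ← Finset.sum_mul,
        Fintype.sum_equiv (Equiv.inv Fˣ) (fun t => (ν j t⁻¹ : k)) (fun t => (ν j t : k))
          fun t => rfl]
      let νk : Fˣ →* k := (Units.coeHom k).comp (ν j)
      have hsum1 : ν j = 1 → ∑ t : Fˣ, (ν j t : k) = -1 := fun h => by
        simp [h, Fintype.card_units, Nat.cast_sub Fintype.card_pos, hq0]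
      by_cases hj : K j
      · rw [hsum1 (hKν j hj), hfn n hn, hfn _ hwN, hfNa _ (inv_mem (hAww j hj)),
          if_neg (by rw [show wt j = some 1 from hj]; simp)]
        ring
      · have hz : f ((S.ww j)⁻¹ * n) = 0 := by
          rw [hfn _ hwN]
          by_contra h
          have h2 := hsupp hj _ h 1
          refine S.key j _ hwN (fun b => ?_) 1 one_ne_zero 1 (one_mem _) (by rw [mul_one]; exact h2)
          have h3 := hB (-b)
          convert h3 using 1
          calc ((S.ww j)⁻¹ * n)⁻¹ * S.xp j b * ((S.ww j)⁻¹ * n)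
              = n⁻¹ * (S.ww j * S.xp j b * (S.ww j)⁻¹) * n := by group
            _ = n⁻¹ * S.xm j (-b) * n := by
              congr 2
              rw [mul_inv_eq_iff_eq_mul, S.xm_mul_ww, neg_neg]
        rw [hz, zero_add]
        cases hw : wt j with
        | none =>
          rw [if_pos rfl, hsum1 (by
            show ((wt j).getD 1)⁻¹ = 1
            rw [hw]
            exact MonoidHom.ext fun _ => inv_one), neg_one_mul]
        | some μ =>
          rw [if_neg (by simp)]
          have hne : νk ≠ 1 := fun h => hj (by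
            show wt j = some 1
            rw [hw]
            congr 1
            refine MonoidHom.ext fun t => ?_
            have h' : ((ν j t : kˣ) : k) = 1 := DFunLike.congr_fun h t
            simpa [ν, hw] using h')
          rw [show ∑ t : Fˣ, (ν j t : k) = 0 from sum_hom_units_eq_zero νk hne, zero_mul]
  funext x
  obtain ⟨n, hn, u, hu, u', hu', rfl⟩ := exists_cover C hM x
  rw [(hτR _ u' hu').1, (hτR _ u hu).2, hval n hn]
  have hfx : f (u * n * u') = f n := by rw [(hfU _ u' hu').1, (hfU _ u hu).2]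
  split_ifs
  · rw [Pi.neg_apply, hfx]
  · rfl

include hM in
/-- As many classes of elements of order prime to the characteristic as the power of `q`. -/
theorem card_regCls_chev (p : ℕ) [Fact p.Prime] [CharP F p]
    (hcard : Nat.card (D.diagonalSubgroup F) = (Fintype.card F - 1) ^ D.rank) :
    Nat.card (BrauerCount.RegCls p ↥(D.group F)) = Fintype.card F ^ D.rank := by
  set k := AlgebraicClosure (ZMod p)
  haveI : CharP k p := charP_of_injective_algebraMap' (ZMod p) p
  obtain ⟨n₀, -, hn₀⟩ := exists_n0 C hM (F := F)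
  rw [card_regCls (chevData C hM (F := F)) (k := k) p (isPGroup_U C hM (F := F))
    (isPGroup_Uneg C hM p) hn₀ (exists_module_of_weight C hM p hcard),
    card_weights p, Fintype.card_fin]


end Cfsg.Agent.Chars2.SplitBN
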