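import Cfsg.Agent.Chars2.SplitBN.Setup
import Cfsg.Agent.Chars2.SLDef.Module

/-!
Modules in the defining characteristic of a group with split rank one data: a fixed vector of the
unipotent group spreading over the opposite group.
-/

set_option autoImplicit false
set_option linter.unusedSectionVars false
set_option maxHeartbeats 1000000

namespace Cfsg.Agent.Chars2.SplitBN

open Matrix
open Cfsg.Agent.Chars2.SLDef (sum_eq_zero_add_sum_units up2 lo2 dg2 wy2)
open scoped Classical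

universe u v w w' x

variable {F : Type u} [Field F] [Fintype F] {G : Type x} [Group G] [Fintype G] {ι : Type w'}
  (S : Data F G ι) {k : Type v} [Field k] {V : Type w} [AddCommGroup V] [Module k V]

theorem rho_mul (ρ : Representation k G V) (g h : G) (v : V) : ρ (g * h) v = ρ g (ρ h v) := by
  rw [map_mul]; rfl

/-- The sum over a fundamental root subgroup. -/
noncomputable def sig (ρ : Representation k G V) (i : ι) : Module.End k V :=
  ∑ a : F, ρ (S.xp i a)

theorem sig_apply (ρ : Representation k G V) (i : ι) (x : V) :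
    sig S ρ i x = ∑ a : F, ρ (S.xp i a) x := by simp [sig]

theorem sig_xp (ρ : Representation k G V) (i : ι) (b : F) (x : V) :
    sig S ρ i (ρ (S.xp i b) x) = sig S ρ i x := by
  rw [sig_apply, sig_apply]
  exact Fintype.sum_equiv (Equiv.addRight b) _ _ fun a => by
    rw [Equiv.coe_addRight, S.xp_add, rho_mul]

/-- The span of the orbit of the opposite unipotent group. -/
noncomputable def lowSpan (ρ : Representation k G V) (v : V) : Submodule k V :=
  Submodule.span k (Set.range fun u : S.Uneg => ρ (u : G) v)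

theorem lowSpan_stable (ρ : Representation k G V) (v : V) {u : G} (hu : u ∈ S.Uneg) {x : V}
    (hx : x ∈ lowSpan S ρ v) : ρ u x ∈ lowSpan S ρ v := by
  induction hx using Submodule.span_induction with
  | mem x hx =>
    obtain ⟨w, rfl⟩ := hx
    exact Submodule.subset_span ⟨⟨u * w, mul_mem hu w.2⟩, rho_mul ρ u w v⟩
  | zero => rw [map_zero]; exact Submodule.zero_mem _
  | add a b _ _ ha hb => rw [map_add]; exact Submodule.add_mem _ ha hb
  | smul c a _ ha => rw [map_smul]; exact Submodule.smul_mem _ c ha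

theorem self_mem_lowSpan (ρ : Representation k G V) (v : V) : v ∈ lowSpan S ρ v :=
  Submodule.subset_span ⟨1, by simp⟩

theorem ww_apply_eq (ρ : Representation k G V) (i : ι) {v : V}
    (hU : ∀ a : F, ρ (S.xp i a) v = v) {μ : Fˣ → k}
    (hμ : ∀ u, ρ (S.hh i u) v = μ u • v) {c : k} (hc : sig S ρ i (ρ (S.ww i) v) = c • v) :
    ρ (S.ww i) v = c • v - ∑ a : Fˣ, μ (-a) • ρ (S.xm i ((a⁻¹ : Fˣ) : F)) v := by
  classical
  rw [← hc, sig_apply, sum_eq_zero_add_sum_units, S.xp_zero, map_one, Module.End.one_apply,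
    Finset.sum_congr rfl (g := fun a : Fˣ => μ (-a) • ρ (S.xm i ((a⁻¹ : Fˣ) : F)) v) fun a _ => by
      rw [← rho_mul, S.xp_mul_ww, rho_mul, rho_mul, hU, hμ, map_smul],
    add_sub_cancel_right]

/-- The hypotheses on a vector that make the span of its lower orbit invariant. -/
structure IsGood (ρ : Representation k G V) (v : V) : Prop where
  fixed : ∀ u ∈ S.U, ρ u v = v
  torus : ∀ (i : ι) (u : Fˣ), ∃ s : k, ρ (S.hh i u) v = s • v
  weyl : ∀ i : ι, ∃ c : k, sig S ρ i (ρ (S.ww i) v) = c • v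

theorem IsGood.stable {ρ : Representation k G V} {v : V} (hv : IsGood S ρ v) (g : G)
    {x : V} (hx : x ∈ lowSpan S ρ v) : ρ g x ∈ lowSpan S ρ v := by
  classical
  set W := lowSpan S ρ v
  let T : Submonoid G :=
    { carrier := {g | ∀ x ∈ W, ρ g x ∈ W}
      one_mem' := fun x hx => by simpa using hx
      mul_mem' := fun {a b} ha hb x hx => by rw [rho_mul]; exact ha _ (hb x hx) }
  let H : Subgroup G :=
    { T with
      inv_mem' := fun {g} hg => by
        rw [show g⁻¹ = g ^ (orderOf g - 1) from inv_eq_of_mul_eq_one_right (by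
          rw [← pow_succ', Nat.sub_add_cancel (orderOf_pos g), pow_orderOf_eq_one])]
        exact T.pow_mem hg _ }
  suffices H = ⊤ from (this ▸ Subgroup.mem_top g : g ∈ H) x hx
  refine S.gen H (fun i a => ?_) (fun i a => fun x hx => lowSpan_stable S ρ v (S.xm_mem i a) hx)
  show ∀ x ∈ W, ρ (S.xp i a) x ∈ W
  have hU : ∀ a : F, ρ (S.xp i a) v = v := fun a => hv.fixed _ (S.xp_mem i a)
  choose μ hμ using hv.torus i
  obtain ⟨c, hc⟩ := hv.weyl i
  have hw := ww_apply_eq S ρ i hU hμ hc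
  have hpp : ∀ b : F, ρ (S.xp i a) (ρ (S.xm i b) v) ∈ W := by
    intro b
    by_cases hu : 1 + a * b = 0
    · obtain ⟨a, rfl⟩ : ∃ a' : Fˣ, (a' : F) = a :=
        ⟨Units.mk0 a (fun h => by simp [h] at hu), rfl⟩
      have hb : b = -((a⁻¹ : Fˣ) : F) := by
        rw [Units.val_inv_eq_inv_val]
        field_simp
        linear_combination hu
      rw [← rho_mul, hb, S.xp_mul_xm_neg, rho_mul,
        rho_mul, hU, hw, map_sub, map_smul, map_sum, hμ]
      refine W.sub_mem (W.smul_mem _ (W.smul_mem _ (self_mem_lowSpan S ρ v))) (W.sum_mem fun t _ => ?_)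
      rw [map_smul]
      refine W.smul_mem _ ?_
      rw [← rho_mul, S.hh_mul_xm, rho_mul, hμ, map_smul]
      exact W.smul_mem _ (lowSpan_stable S ρ v (S.xm_mem i _) (self_mem_lowSpan S ρ v))
    · rw [← rho_mul, S.xp_mul_xm i a b (Units.mk0 _ hu) rfl, rho_mul, rho_mul, hU, hμ, map_smul]
      exact W.smul_mem _ (lowSpan_stable S ρ v (S.xm_mem i _) (self_mem_lowSpan S ρ v))
  intro x hx
  induction hx using Submodule.span_induction with
  | mem x hx =>
    obtain ⟨⟨u, hu⟩, rfl⟩ := hx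
    show ρ (S.xp i a) (ρ u v) ∈ W
    obtain ⟨b, r, hrT, hu'⟩ := S.dec_neg i u hu
    have hconj : S.xp i a * r * (S.xp i a)⁻¹ ∈ S.Rneg i := S.Rneg_conj i (up2 a) r hrT
    rw [show u = r * S.xm i b from hu', rho_mul, ← rho_mul ρ (S.xp i a) r,
      show S.xp i a * r = S.xp i a * r * (S.xp i a)⁻¹ * S.xp i a by group, rho_mul]
    exact lowSpan_stable S ρ v (S.Rneg_le i hconj) (hpp b)
  | zero => rw [map_zero]; exact Submodule.zero_mem _
  | add a b _ _ ha hb => rw [map_add]; exact Submodule.add_mem _ ha hb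
  | smul c a _ ha => rw [map_smul]; exact Submodule.smul_mem _ c ha

section existence

variable (p : ℕ) [Fact p.Prime] [CharP F p] [CharP k p]

theorem exists_fixed_aux (ρ : Representation k G V) [Nontrivial V] [Module (ZMod p) V]
    {Q : Subgroup G} (hQ : IsPGroup p Q) : ∃ v : V, v ≠ 0 ∧ ∀ q ∈ Q, ρ q v = v := by
  obtain ⟨e₀, he₀⟩ := exists_ne (0 : V)
  let W := Submodule.span (ZMod p) (Set.range fun q : Q => ρ (q : G) e₀)
  haveI : Module.Finite (ZMod p) W :=
    Module.Finite.span_of_finite (ZMod p) (Set.finite_range fun q : Q => ρ (q : G) e₀)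
  haveI : Finite W := Module.finite_of_finite (ZMod p)
  haveI : Nontrivial W := by
    refine ⟨⟨⟨e₀, Submodule.subset_span ⟨1, by simp⟩⟩, 0, fun h => he₀ ?_⟩⟩
    exact congrArg Subtype.val h
  have hst : ∀ q : Q, ∀ x ∈ W, ρ (q : G) x ∈ W := by
    intro q x hx
    induction hx using Submodule.span_induction with
    | mem x hx =>
      obtain ⟨r, rfl⟩ := hx
      exact Submodule.subset_span ⟨q * r, rho_mul ρ q r e₀⟩
    | zero => rw [map_zero]; exact W.zero_mem
    | add a b _ _ ha hb => rw [map_add]; exact W.add_mem ha hb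
    | smul c a _ ha => rw [ZMod.map_smul]; exact W.smul_mem c ha
  letI : MulAction Q W :=
    { smul := fun q x => ⟨ρ (q : G) x.1, hst q x.1 x.2⟩
      one_smul := fun x => Subtype.ext (show ρ (1 : G) x.1 = x.1 by simp)
      mul_smul := fun a b x => Subtype.ext (rho_mul ρ a b x.1) }
  have hcard : p ∣ Nat.card W := by
    rw [Module.natCard_eq_pow_finrank (K := ZMod p) (V := W), Nat.card_zmod]
    exact dvd_pow_self p Module.finrank_pos.ne'
  obtain ⟨x, hx, hne⟩ := hQ.exists_fixed_point_of_prime_dvd_card_of_fixed_point W hcard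
    (a := 0) (fun q => Subtype.ext (show ρ (q : G) 0 = 0 by simp))
  exact ⟨x.1, fun h => hne (Subtype.ext h.symm), fun q hq => congrArg Subtype.val (hx ⟨q, hq⟩)⟩

theorem exists_fixed (ρ : Representation k G V) [Nontrivial V] {Q : Subgroup G}
    (hQ : IsPGroup p Q) : ∃ v : V, v ≠ 0 ∧ ∀ q ∈ Q, ρ q v = v := by
  have hp0 : ∀ x : V, p • x = 0 := fun x => by
    rw [← Nat.cast_smul_eq_nsmul k, CharP.cast_eq_zero, zero_smul]
  letI := AddCommGroup.zmodModule hp0
  exact exists_fixed_aux p ρ hQ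

theorem exists_fixed_eigen (hP : IsPGroup p S.U) [IsAlgClosed k]
    [FiniteDimensional k V] (ρ : Representation k G V) [Nontrivial V] :
    ∃ v : V, v ≠ 0 ∧ (∀ u ∈ S.U, ρ u v = v) ∧ ∀ d ∈ S.T, ∃ e : k, ρ d v = e • v := by
  obtain ⟨v₀, hv₀, hfix⟩ := exists_fixed p ρ hP
  let Good : Submodule k V → Prop := fun W => W ≠ ⊥ ∧ (∀ x ∈ W, ∀ u ∈ S.U, ρ u x = x) ∧
    ∀ d ∈ S.T, ∀ x ∈ W, ρ d x ∈ W
  let W0 : Submodule k V :=
    { carrier := {x | ∀ u ∈ S.U, ρ u x = x}
      zero_mem' := fun u _ => map_zero _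
      add_mem' := fun ha hb u hu => by rw [map_add, ha u hu, hb u hu]
      smul_mem' := fun c x hx u hu => by rw [map_smul, hx u hu] }
  have hW0 : Good W0 := by
    refine ⟨fun h => hv₀ ((Submodule.mem_bot k).1 (h ▸ (hfix : v₀ ∈ W0))), fun x hx => hx, ?_⟩
    intro d hd x hx u hu
    rw [← rho_mul, show u * d = d * (d⁻¹ * u * d⁻¹⁻¹) by group, rho_mul,
      hx _ (S.T_U _ (inv_mem hd) _ hu)]
  obtain ⟨W, hW, hmin⟩ := wellFounded_lt.has_min {W | Good W} ⟨W0, hW0⟩
  obtain ⟨v, hv, hv0⟩ := Submodule.exists_mem_ne_zero_of_ne_bot hW.1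
  refine ⟨v, hv0, hW.2.1 v hv, fun d hd => ?_⟩
  let f : Module.End k W := (ρ d).restrict (hW.2.2 d hd)
  haveI : Nontrivial W := Submodule.nontrivial_iff_ne_bot.2 hW.1
  obtain ⟨e, he⟩ := Module.End.exists_eigenvalue f
  obtain ⟨w, hw⟩ := he.exists_hasEigenvector
  have hwe : ρ d (w : V) = e • (w : V) := congrArg Subtype.val hw.apply_eq_smul
  let W' : Submodule k V := W ⊓ Module.End.eigenspace (ρ d) e
  have hle : W' ≤ W := inf_le_left
  have hgood : Good W' := by
    refine ⟨fun h => hw.2 ?_, fun x hx => hW.2.1 x (hle hx), fun t ht x hx => ⟨hW.2.2 t ht x (hle hx), ?_⟩⟩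
    · have hm : (w : V) ∈ W' := ⟨w.2, Module.End.mem_eigenspace_iff.2 hwe⟩
      rw [h, Submodule.mem_bot] at hm
      exact Subtype.ext hm
    · refine Module.End.mem_eigenspace_iff.2 ?_
      rw [← rho_mul, S.T_comm d hd t ht, rho_mul, Module.End.mem_eigenspace_iff.1 hx.2, map_smul]
  have heq : W' = W := (hle.lt_or_eq).resolve_left (hmin W' hgood)
  exact ⟨e, Module.End.mem_eigenspace_iff.1 (heq ▸ hv : v ∈ W').2⟩

variable {p}

/-- Right translation twisted by a conjugation on cosets of the unipotent group. -/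
noncomputable def conjCoset (h : G) {h' : G} (hh' : h' ∈ S.T) : G ⧸ S.U → G ⧸ S.U :=
  Quotient.map' (fun y => h * y * h'⁻¹) fun a b hab => by
    rw [QuotientGroup.leftRel_apply] at hab ⊢
    rw [show (h * a * h'⁻¹)⁻¹ * (h * b * h'⁻¹) = h' * (a⁻¹ * b) * h'⁻¹ by group]
    exact S.T_U _ hh' _ hab

theorem conjCoset_mk (h : G) {h' : G} (hh' : h' ∈ S.T) (y : G) :
    conjCoset S h hh' (y : G ⧸ S.U) = ((h * y * h'⁻¹ : G) : G ⧸ S.U) := rfl

theorem conjCoset_injective (h : G) {h' : G} (hh' : h' ∈ S.T) :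
    Function.Injective (conjCoset S h hh') := by
  intro a b hab
  obtain ⟨a, rfl⟩ := QuotientGroup.mk_surjective a
  obtain ⟨b, rfl⟩ := QuotientGroup.mk_surjective b
  rw [conjCoset_mk, conjCoset_mk, QuotientGroup.eq] at hab
  rw [QuotientGroup.eq]
  have := S.T_U _ (inv_mem hh') _ hab
  simpa [mul_assoc] using this

/-- The map on cosets attached to a fixed vector. -/
noncomputable def cosetVec (ρ : Representation k G V) (v₀ : V)
    (hU : ∀ u ∈ S.U, ρ u v₀ = v₀) : G ⧸ S.U → V :=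
  fun x => Quotient.liftOn' x (fun g => ρ g v₀) fun a b hab => by
    rw [QuotientGroup.leftRel_apply] at hab
    conv_rhs => rw [show b = a * (a⁻¹ * b) by group]
    rw [rho_mul, hU _ hab]

theorem cosetVec_mk (ρ : Representation k G V) (v₀ : V) (hU : ∀ u ∈ S.U, ρ u v₀ = v₀)
    (g : G) : cosetVec S ρ v₀ hU (g : G ⧸ S.U) = ρ g v₀ := rfl

theorem cosetVec_smul (ρ : Representation k G V) (v₀ : V) (hU : ∀ u ∈ S.U, ρ u v₀ = v₀)
    (a : G) (x : G ⧸ S.U) : cosetVec S ρ v₀ hU (a • x) = ρ a (cosetVec S ρ v₀ hU x) := by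
  obtain ⟨x, rfl⟩ := QuotientGroup.mk_surjective x
  exact rho_mul ρ a x v₀

/-- The orbit of a coset under a subgroup. -/
noncomputable def cosetOrb (K : Subgroup G) (g : G) : Finset (G ⧸ S.U) :=
  Finset.univ.filter fun x => ∃ a ∈ K, x = a • (g : G ⧸ S.U)

theorem mem_cosetOrb {K : Subgroup G} {g : G} {x : G ⧸ S.U} :
    x ∈ cosetOrb S K g ↔ ∃ a ∈ K, x = a • (g : G ⧸ S.U) := by
  unfold cosetOrb
  rw [Finset.mem_filter]
  exact and_iff_right (Finset.mem_univ _)

theorem smul_cosetOrb {K : Subgroup G} {g a : G}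
    (ha : ∀ r ∈ K, ∃ r' ∈ K, (a * r) • (g : G ⧸ S.U) = r' • (g : G ⧸ S.U)) :
    (cosetOrb S K g).image (fun x => a • x) = cosetOrb S K g := by
  refine Finset.eq_of_subset_of_card_le (fun x hx => ?_)
    (Finset.card_image_of_injective _ (MulAction.injective a)).ge
  obtain ⟨y, hy, rfl⟩ := Finset.mem_image.1 hx
  obtain ⟨r, hr, rfl⟩ := (mem_cosetOrb S).1 hy
  obtain ⟨r', hr', he⟩ := ha r hr
  exact (mem_cosetOrb S).2 ⟨r', hr', by rw [smul_smul, he]⟩

theorem sum_cosetOrb_fixed (ρ : Representation k G V) (v₀ : V)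
    (hU : ∀ u ∈ S.U, ρ u v₀ = v₀) {K : Subgroup G} {g a : G}
    (ha : ∀ r ∈ K, ∃ r' ∈ K, (a * r) • (g : G ⧸ S.U) = r' • (g : G ⧸ S.U)) :
    ρ a (∑ x ∈ cosetOrb S K g, cosetVec S ρ v₀ hU x) =
      ∑ x ∈ cosetOrb S K g, cosetVec S ρ v₀ hU x := by
  conv_rhs => rw [← smul_cosetOrb S ha, Finset.sum_image (MulAction.injective a).injOn]
  rw [map_sum]
  exact Finset.sum_congr rfl fun x _ => (cosetVec_smul S ρ v₀ hU a x).symm

theorem sum_cosetOrb_eigen (ρ : Representation k G V) (v₀ : V)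
    (hU : ∀ u ∈ S.U, ρ u v₀ = v₀) {K : Subgroup G} {g h h' : G} (hh' : h' ∈ S.T)
    (hg : h * g = g * h') (hK : ∀ r ∈ K, h * r * h⁻¹ ∈ K) {e : k} (he : ρ h' v₀ = e • v₀) :
    ρ h (∑ x ∈ cosetOrb S K g, cosetVec S ρ v₀ hU x) =
      e • ∑ x ∈ cosetOrb S K g, cosetVec S ρ v₀ hU x := by
  have himg : (cosetOrb S K g).image (conjCoset S h hh') = cosetOrb S K g := by
    refine Finset.eq_of_subset_of_card_le (fun x hx => ?_)
      (Finset.card_image_of_injective _ (conjCoset_injective S h hh')).ge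
    obtain ⟨y, hy, rfl⟩ := Finset.mem_image.1 hx
    obtain ⟨r, hr, rfl⟩ := (mem_cosetOrb S).1 hy
    refine (mem_cosetOrb S).2 ⟨_, hK r hr, ?_⟩
    show (((h * (r * g) * h'⁻¹ : G)) : G ⧸ S.U) = (((h * r * h⁻¹) * g : G) : G ⧸ S.U)
    congr 1
    calc h * (r * g) * h'⁻¹ = h * r * h⁻¹ * (h * g) * h'⁻¹ := by group
      _ = h * r * h⁻¹ * g := by rw [hg]; group
  rw [map_sum, Finset.smul_sum]
  conv_rhs => rw [← himg, Finset.sum_image (conjCoset_injective S h hh').injOn]
  refine Finset.sum_congr rfl fun x _ => ?_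
  obtain ⟨y, rfl⟩ := QuotientGroup.mk_surjective x
  rw [conjCoset_mk, cosetVec_mk, cosetVec_mk, ← rho_mul, show h * y = h * y * h'⁻¹ * h' by group,
    rho_mul, he, map_smul]
  rw [mul_inv_cancel_right]

theorem smul_mk_eq (a g : G) : ((a * g : G) : G ⧸ S.U) = a • (g : G ⧸ S.U) :=
  (MulAction.Quotient.smul_mk _ a g).symm

theorem exists_vector (p : ℕ) [Fact p.Prime] [CharP F p] [CharP k p] [IsAlgClosed k]
    (hP : IsPGroup p S.U) [FiniteDimensional k V] (ρ : Representation k G V) [Nontrivial V] :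
    ∃ v : V, v ≠ 0 ∧ (∀ u ∈ S.U, ρ u v = v) ∧ (∀ d ∈ S.T, ∃ e : k, ρ d v = e • v) ∧
      ∀ i : ι, ∃ μ : Fˣ → k, (∀ u, ρ (S.hh i u) v = μ u • v) ∧
        ∃ c : k, sig S ρ i (ρ (S.ww i) v) = c • v ∧ (c = 0 ∨ c = ∑ u : Fˣ, μ u) := by
  obtain ⟨v₀, hv₀, hU, hD⟩ := exists_fixed_eigen S p hP ρ
  let T : G → V := fun g => ∑ x ∈ cosetOrb S S.U g, cosetVec S ρ v₀ hU x
  let Ms : Finset G := Finset.univ.filter fun g => g ∈ S.N ∧ T g ≠ 0
  have h1 : (1 : G) ∈ Ms := by
    refine Finset.mem_filter.2 ⟨Finset.mem_univ _, one_mem _, ?_⟩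
    have : cosetOrb S S.U (1 : G) = {((1 : G) : G ⧸ S.U)} := by
      ext x
      rw [mem_cosetOrb, Finset.mem_singleton]
      constructor
      · rintro ⟨a, ha, rfl⟩
        show ((a * 1 : G) : G ⧸ S.U) = _
        rw [mul_one, QuotientGroup.eq, mul_one]
        exact inv_mem ha
      · exact fun h => ⟨1, one_mem _, by rw [h, one_smul]⟩
    simp only [T, this, Finset.sum_singleton, cosetVec_mk, map_one]
    exact hv₀
  obtain ⟨g, hgM, hmax⟩ := Finset.exists_max_image Ms (fun g => (cosetOrb S S.U g).card) ⟨1, h1⟩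
  obtain ⟨hgN, hT⟩ := (Finset.mem_filter.1 hgM).2
  have hTfix : ∀ u ∈ S.U, ρ u (T g) = T g := fun u hu =>
    sum_cosetOrb_fixed S ρ v₀ hU fun r hr => ⟨u * r, mul_mem hu hr, rfl⟩
  refine ⟨T g, hT, hTfix, fun d hd => ?_, fun i => ?_⟩
  · obtain ⟨e, he⟩ := hD _ (S.N_T _ hgN d hd)
    exact ⟨e, sum_cosetOrb_eigen S ρ v₀ hU (S.N_T _ hgN d hd) (by group)
      (fun r hr => S.T_U d hd r hr) he⟩
  have hh' : ∀ u : Fˣ, g⁻¹ * S.hh i u * g ∈ S.T := fun u => S.N_T _ hgN _ (S.hh_mem i u)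
  choose μ hμ using fun u => hD _ (hh' u)
  have heig : ∀ (K : Subgroup G), (∀ d ∈ S.T, ∀ r ∈ K, d * r * d⁻¹ ∈ K) → ∀ u,
      ρ (S.hh i u) (∑ x ∈ cosetOrb S K g, cosetVec S ρ v₀ hU x) =
        μ u • ∑ x ∈ cosetOrb S K g, cosetVec S ρ v₀ hU x := fun K hK u =>
    sum_cosetOrb_eigen S ρ v₀ hU (hh' u) (by group) (fun r hr => hK _ (S.hh_mem i u) r hr)
      (hμ u)
  refine ⟨μ, fun u => heig _ S.T_U u, ?_⟩
  have hnw : ∀ r ∈ S.R i, S.ww i * r * (S.ww i)⁻¹ ∈ S.R i := fun r hr => S.ww_conj_mem_R i hr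
  have hnw' : ∀ r ∈ S.R i, (S.ww i)⁻¹ * r * S.ww i ∈ S.R i := fun r hr => S.ww_inv_conj_mem_R i hr
  have hdec : ∀ a ∈ S.U, ∃ b : F, ∃ r ∈ S.R i, a = S.xp i b * r := S.dec i
  have hxR : ∀ (b : F), ∀ r ∈ S.R i, S.xp i b * r * (S.xp i b)⁻¹ ∈ S.R i :=
    fun b r hr => S.R_conj i _ r hr
  rcases S.dich i g hgN with hA | hB
  · -- the root subgroup fixes the coset
    have hfix : ∀ b : F, (S.xp i b) • (g : G ⧸ S.U) = (g : G ⧸ S.U) := fun b => by
      show ((S.xp i b * g : G) : G ⧸ S.U) = _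
      rw [QuotientGroup.eq]
      have h2 : g⁻¹ * S.xp i (-b) * g ∈ S.U := hA (-b)
      have h3 : (S.xp i b * g)⁻¹ * g = g⁻¹ * S.xp i (-b) * g := by rw [S.xp_neg]; group
      rw [h3]; exact h2
    have horb : cosetOrb S S.U g = cosetOrb S (S.R i) g := by
      ext x
      rw [mem_cosetOrb, mem_cosetOrb]
      constructor
      · rintro ⟨a, ha, rfl⟩
        obtain ⟨b, r, hr, rfl⟩ := hdec a ha
        refine ⟨_, hxR b r hr, ?_⟩
        conv_rhs => rw [← hfix b, smul_smul, inv_mul_cancel_right]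
      · rintro ⟨a, ha, rfl⟩; exact ⟨a, S.R_le i ha, rfl⟩
    let Φ : F × (G ⧸ S.U) → G ⧸ S.U := fun z => (S.xp i z.1 * S.ww i) • z.2
    have hinj : Set.InjOn Φ ↑((Finset.univ : Finset F) ×ˢ cosetOrb S S.U g) := by
      rintro ⟨a, x⟩ hx ⟨a', x'⟩ hx' he
      simp only [Finset.coe_product, Set.mem_prod, Finset.mem_coe] at hx hx'
      rw [horb] at hx hx'
      obtain ⟨r, hr, rfl⟩ := (mem_cosetOrb S).1 hx.2
      obtain ⟨r', hr', rfl⟩ := (mem_cosetOrb S).1 hx'.2
      simp only [Φ, smul_smul] at he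
      have h2 : g⁻¹ * ((S.xp i a' * S.ww i * r')⁻¹ * (S.xp i a * S.ww i * r)) * g ∈ S.U := by
        have h3 := QuotientGroup.eq.1 (he.symm : ((_ : G) : G ⧸ S.U) = _)
        simpa [mul_assoc] using h3
      have hxw : (S.ww i)⁻¹ * S.xp i (a - a') * S.ww i = S.xm i (a' - a) := by
        have h4 := S.ww_mul_xm i (a' - a)
        rw [neg_sub] at h4
        rw [mul_assoc, ← h4, inv_mul_cancel_left]
      have h5 : (S.xp i a' * S.ww i * r')⁻¹ * (S.xp i a * S.ww i * r) =
          r'⁻¹ * S.xm i (a' - a) * r := by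
        rw [← hxw, sub_eq_neg_add a a', S.xp_add, S.xp_neg]
        group
      rw [h5] at h2
      have haa : a = a' := by
        by_contra hne
        set q := S.xm i (a' - a) with hq
        have hr'' : q⁻¹ * r'⁻¹ * q ∈ S.R i := by
          have := S.R_conj i (lo2 (a' - a))⁻¹ _ (inv_mem hr')
          rwa [map_inv, inv_inv] at this
        rw [show r'⁻¹ * q * r = q * ((q⁻¹ * r'⁻¹ * q) * r) by group] at h2
        exact S.key i g hgN hA _ (sub_ne_zero.2 (Ne.symm hne)) _ (mul_mem hr'' hr) h2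
      subst haa
      refine Prod.ext rfl ?_
      have h7 : (S.xp i a * S.ww i) • (r • (g : G ⧸ S.U)) =
          (S.xp i a * S.ww i) • (r' • (g : G ⧸ S.U)) := by
        rw [smul_smul, smul_smul]; exact he
      exact MulAction.injective _ h7
    have himg : ((Finset.univ : Finset F) ×ˢ cosetOrb S S.U g).image Φ =
        cosetOrb S S.U (S.ww i * g) := by
      ext x
      rw [Finset.mem_image, mem_cosetOrb]
      constructor
      · rintro ⟨⟨a, y⟩, hy, rfl⟩
        obtain ⟨r, hr, rfl⟩ := (mem_cosetOrb S).1 (horb ▸ (Finset.mem_product.1 hy).2)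
        refine ⟨S.xp i a * (S.ww i * r * (S.ww i)⁻¹),
          mul_mem (S.xp_mem i a) (S.R_le i (hnw r hr)), ?_⟩
        show (S.xp i a * S.ww i) • r • (g : G ⧸ S.U) =
          (S.xp i a * (S.ww i * r * (S.ww i)⁻¹)) • ((S.ww i * g : G) : G ⧸ S.U)
        rw [smul_mk_eq, smul_smul, smul_smul]
        congr 1
        group
      · rintro ⟨a, ha, rfl⟩
        obtain ⟨b, r, hr, rfl⟩ := hdec a ha
        refine ⟨(b, ((S.ww i)⁻¹ * r * S.ww i) • (g : G ⧸ S.U)),
          Finset.mem_product.2 ⟨Finset.mem_univ _,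
            (mem_cosetOrb S).2 ⟨_, S.R_le i (hnw' r hr), rfl⟩⟩, ?_⟩
        show (S.xp i b * S.ww i) • _ • (g : G ⧸ S.U) = _
        rw [smul_mk_eq, smul_smul, smul_smul]
        congr 1
        group
    have hcard : (cosetOrb S S.U (S.ww i * g)).card =
        Fintype.card F * (cosetOrb S S.U g).card := by
      rw [← himg, Finset.card_image_of_injOn hinj, Finset.card_product, Finset.card_univ]
    have hTn : T (S.ww i * g) = 0 := by
      by_contra h0
      have hm : S.ww i * g ∈ Ms :=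
        Finset.mem_filter.2 ⟨Finset.mem_univ _, mul_mem (S.wy_mem i) hgN, h0⟩
      have := hmax _ hm
      rw [hcard] at this
      have hpos : 0 < (cosetOrb S S.U g).card :=
        Finset.card_pos.2 ⟨_, (mem_cosetOrb S).2 ⟨1, one_mem _, (one_smul _ _).symm⟩⟩
      have h2 : 1 < Fintype.card F := Fintype.one_lt_card
      nlinarith
    refine ⟨0, ?_, Or.inl rfl⟩
    rw [zero_smul, ← hTn]
    simp only [T]
    rw [← himg, Finset.sum_image hinj, Finset.sum_product, sig_apply]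
    refine Finset.sum_congr rfl fun a _ => ?_
    simp only [map_sum, Φ, cosetVec_smul, rho_mul]
  · -- the orbit splits along the root subgroup
    let Y : V := ∑ x ∈ cosetOrb S (S.R i) g, cosetVec S ρ v₀ hU x
    let Φ : F × (G ⧸ S.U) → G ⧸ S.U := fun z => S.xp i z.1 • z.2
    have hinj : Set.InjOn Φ ↑((Finset.univ : Finset F) ×ˢ cosetOrb S (S.R i) g) := by
      rintro ⟨a, x⟩ hx ⟨a', x'⟩ hx' he
      simp only [Finset.coe_product, Set.mem_prod, Finset.mem_coe] at hx hx'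
      obtain ⟨r, hr, rfl⟩ := (mem_cosetOrb S).1 hx.2
      obtain ⟨r', hr', rfl⟩ := (mem_cosetOrb S).1 hx'.2
      simp only [Φ, smul_smul] at he
      have h2 : g⁻¹ * ((S.xp i a' * r')⁻¹ * (S.xp i a * r)) * g ∈ S.U := by
        have h3 := QuotientGroup.eq.1 (he.symm : ((_ : G) : G ⧸ S.U) = _)
        simpa [mul_assoc] using h3
      have haa : a = a' := by
        by_contra hne
        set z := S.xp i (a - a') with hz
        have hr'' : z⁻¹ * r'⁻¹ * z ∈ S.R i := by
          have := S.R_conj i (up2 (a - a'))⁻¹ _ (inv_mem hr')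
          rwa [map_inv, inv_inv] at this
        have e : (S.xp i a' * r')⁻¹ * (S.xp i a * r) = z * ((z⁻¹ * r'⁻¹ * z) * r) := by
          rw [hz, sub_eq_neg_add a a', S.xp_add, S.xp_neg]; group
        rw [e] at h2
        exact S.key_xp i hgN hB (sub_ne_zero.2 hne) (mul_mem hr'' hr) h2
      subst haa
      refine Prod.ext rfl ?_
      rw [← smul_smul, ← smul_smul] at he
      exact MulAction.injective _ he
    have himg : ((Finset.univ : Finset F) ×ˢ cosetOrb S (S.R i) g).image Φ =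
        cosetOrb S S.U g := by
      ext x
      rw [Finset.mem_image, mem_cosetOrb]
      constructor
      · rintro ⟨⟨a, y⟩, hy, rfl⟩
        obtain ⟨r, hr, rfl⟩ := (mem_cosetOrb S).1 (Finset.mem_product.1 hy).2
        exact ⟨_, mul_mem (S.xp_mem i a) (S.R_le i hr), smul_smul _ _ _⟩
      · rintro ⟨a, ha, rfl⟩
        obtain ⟨b, r, hr, rfl⟩ := hdec a ha
        exact ⟨(b, r • (g : G ⧸ S.U)),
          Finset.mem_product.2 ⟨Finset.mem_univ _, (mem_cosetOrb S).2 ⟨_, hr, rfl⟩⟩, smul_smul _ _ _⟩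
    have hTY : T g = sig S ρ i Y := by
      simp only [T, Y]
      rw [← himg, Finset.sum_image hinj, Finset.sum_product, sig_apply]
      refine Finset.sum_congr rfl fun a _ => ?_
      simp only [map_sum, Φ, cosetVec_smul]
    have hmY : ∀ c : F, ρ (S.xm i c) Y = Y := fun c => by
      refine sum_cosetOrb_fixed S ρ v₀ hU fun r hr =>
        ⟨_, S.R_conj i (lo2 c) r hr, ?_⟩
      show (S.xm i c * r) • (g : G ⧸ S.U) =
        (S.xm i c * r * (S.xm i c)⁻¹) • (g : G ⧸ S.U)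
      have hfix : (S.xm i c) • (g : G ⧸ S.U) = (g : G ⧸ S.U) := by
        show ((S.xm i c * g : G) : G ⧸ S.U) = _
        rw [QuotientGroup.eq]
        have h2 : g⁻¹ * S.xm i (-c) * g ∈ S.U := hB (-c)
        have h3 : (S.xm i c * g)⁻¹ * g = g⁻¹ * S.xm i (-c) * g := by rw [S.xm_neg]; group
        rw [h3]; exact h2
      conv_rhs => rw [← hfix, smul_smul, inv_mul_cancel_right]
    have hhY : ∀ u, ρ (S.hh i u) Y = μ u • Y := heig _ (S.T_R i)
    refine ⟨∑ u : Fˣ, μ u, ?_, Or.inr rfl⟩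
    show sig S ρ i (ρ (S.ww i) (T g)) = (∑ u : Fˣ, μ u) • T g
    rw [hTY, sig_apply S ρ i Y, map_sum, map_sum, sum_eq_zero_add_sum_units]
    have h0 : sig S ρ i (ρ (S.ww i) (ρ (S.xp i (0 : F)) Y)) = 0 := by
      rw [S.xp_zero, map_one, Module.End.one_apply, sig_apply,
        Finset.sum_congr rfl (g := fun _ => ρ (S.ww i) Y) fun a _ => by
          rw [← rho_mul, ← neg_neg a, ← S.ww_mul_xm, rho_mul, hmY],
        Finset.sum_const, Finset.card_univ, ← Nat.cast_smul_eq_nsmul k]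
      obtain ⟨e, hpe, he⟩ := FiniteField.card F p
      rw [he, Nat.cast_pow, CharP.cast_eq_zero k p, zero_pow e.ne_zero, zero_smul]
    rw [h0, zero_add, ← sig_apply S ρ i Y, Finset.sum_smul]
    refine (Fintype.sum_equiv ((Equiv.neg Fˣ).trans (Equiv.inv Fˣ)) _ _ fun u => ?_).symm
    show _ = sig S ρ i (ρ (S.ww i) (ρ (S.xp i (((-u)⁻¹ : Fˣ) : F)) Y))
    rw [← rho_mul, S.ww_mul_xp, rho_mul, rho_mul, hmY, sig_xp, hhY, map_smul]
    simp

end existence

end Cfsg.Agent.Chars2.SplitBN
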