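import Cfsg.Agent.Chars2.SplitBN.ChevWeights
import Cfsg.Agent.Chev.TorusOrders
import Cfsg.Agent.Chev.CoxCheck

/-!
Classes of elements of order prime to the characteristic in the Chevalley groups with trivial
centre in the simply connected form.
-/

set_option autoImplicit false

universe u

namespace Cfsg.Agent.Chars2.SplitBN

open Cfsg.Lie Cfsg.Agent.Chev

theorem card_coprime_classes {F : Type u} [Field F] [Fintype F] (p : ℕ) [Fact p.Prime] [CharP F p]
    {D : ChevalleyDatum} (hD : D ∈ [chevG2, chevB2, chevD4, chevF4, chevE6, chevE7, chevE8])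
    (hcard : Nat.card (D.diagonalSubgroup F) = (Fintype.card F - 1) ^ D.rank) :
    Nat.card {c : ConjClasses ↥(D.group F) //
      ∃ g : ↥(D.group F), ConjClasses.mk g = c ∧ (orderOf g).Coprime p} =
      Fintype.card F ^ D.rank := by
  classical
  haveI : Fintype ↥(D.group F) := Fintype.ofFinite _
  obtain ⟨C⟩ := nonempty_cert.{u} hD
  obtain ⟨M, hM⟩ := exists_cox hD
  exact card_regCls_chev C hM p hcard

end Cfsg.Agent.Chars2.SplitBN
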