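import Cfsg.Agent.KnownA.Steinberg.BNChar

/-!
The Tits system of a standard parabolic subgroup and its alternating sum of permutation characters.
-/

set_option autoImplicit false
set_option linter.unusedSectionVars false

namespace Cfsg.Agent.Chars2.SplitBN.Rel

open Cfsg.Agent.Suzuki.BN Cfsg.Agent.KnownA.Steinberg

variable {G : Type*} [Group G]

theorem coe_mem_doubleCoset {H : Subgroup G} {K : Subgroup G} (hKH : K ≤ H) {a x : H}
    (h : (x : G) ∈ DoubleCoset.doubleCoset (a : G) (K : Set G) K) :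
    x ∈ DoubleCoset.doubleCoset a (K.subgroupOf H : Set H) (K.subgroupOf H) := by
  obtain ⟨b, hb, c, hc, e⟩ := DoubleCoset.mem_doubleCoset.1 h
  exact DoubleCoset.mem_doubleCoset.2 ⟨⟨b, hKH hb⟩, Subgroup.mem_subgroupOf.2 hb,
    ⟨c, hKH hc⟩, Subgroup.mem_subgroupOf.2 hc, Subtype.ext e⟩

/-- The monomial group of a standard parabolic subgroup. -/
def rN (P : Cfsg.BNPair G) (J : Set G) : Subgroup G := Subgroup.closure J ⊔ (P.B ⊓ P.N)

theorem rN_le {P : Cfsg.BNPair G} {J : Set G} (hJ : J ⊆ P.S) : rN P J ≤ P.N :=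
  sup_le ((Subgroup.closure_le _).2 (hJ.trans P.subset)) inf_le_right

theorem rN_le_parabolic (P : Cfsg.BNPair G) (J : Set G) : rN P J ≤ P.parabolic J :=
  sup_le le_sup_right (inf_le_left.trans le_sup_left)

theorem gen_le (P : Cfsg.BNPair G) (J : Set G) : J ⊆ (P.parabolic J : Set G) := fun _ hx =>
  Subgroup.mem_sup_right (Subgroup.subset_closure hx)

/-- The Tits system of a standard parabolic subgroup. -/
def rpair (P : Cfsg.BNPair G) (J : Set G) (hJ : J ⊆ P.S) : Cfsg.BNPair ↥(P.parabolic J) where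
  B := P.B.subgroupOf (P.parabolic J)
  N := (rN P J).subgroupOf (P.parabolic J)
  S := {x | (x : G) ∈ J}
  sup_eq_top := by
    rw [← Subgroup.subgroupOf_sup (show P.B ≤ P.parabolic J from le_sup_left)
      (rN_le_parabolic P J), Subgroup.subgroupOf_eq_top]
    exact sup_le le_sup_left (le_sup_of_le_right le_sup_left)
  conj_mem := fun n hn t ht => by
    rw [Subgroup.mem_inf, Subgroup.mem_subgroupOf, Subgroup.mem_subgroupOf] at ht
    rw [Subgroup.mem_subgroupOf] at hn ⊢
    simpa using P.conj_mem n (rN_le hJ hn) t (Subgroup.mem_inf.2 ⟨ht.1, rN_le hJ ht.2⟩)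
  subset := fun x hx => Subgroup.mem_subgroupOf.2 (Subgroup.mem_sup_left (Subgroup.subset_closure hx))
  sq_mem := fun s hs => Subgroup.mem_subgroupOf.2 (P.sq_mem s (hJ hs))
  inj := fun s hs s' hs' h => Subtype.ext (P.inj s (hJ hs) s' (hJ hs') (Subgroup.mem_subgroupOf.1 h))
  closure_sup := by
    apply Subgroup.map_injective (P.parabolic J).subtype_injective
    rw [Subgroup.map_sup, MonoidHom.map_closure, Subgroup.subgroupOf_map_subtype,
      inf_eq_left.2 (rN_le_parabolic P J)]
    have e : (P.parabolic J).subtype '' {x : ↥(P.parabolic J) | (x : G) ∈ J} = J := by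
      ext x
      exact ⟨fun ⟨y, hy, e⟩ => e ▸ hy, fun hx => ⟨⟨x, gen_le P J hx⟩, hx, rfl⟩⟩
    rw [e]
    refine le_antisymm (sup_le le_sup_left ?_) (sup_le le_sup_left (le_sup_of_le_right ?_))
    · rintro x ⟨y, hy, rfl⟩
      exact Subgroup.mem_subgroupOf.1 (Subgroup.mem_inf.1 hy).2
    · intro x hx
      exact ⟨⟨x, (Subgroup.mem_sup_left (Subgroup.mem_inf.1 hx).1 : x ∈ P.parabolic J)⟩,
        Subgroup.mem_inf.2 ⟨Subgroup.mem_subgroupOf.2 (Subgroup.mem_inf.1 hx).1,
          Subgroup.mem_subgroupOf.2 (Subgroup.mem_sup_right hx)⟩, rfl⟩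
  mul_mem_union := fun s hs n hn b hb => by
    rcases P.mul_mem_union s (hJ hs) n (rN_le hJ hn) b (Subgroup.mem_subgroupOf.1 hb) with h | h
    · exact Or.inl (coe_mem_doubleCoset le_sup_left (by simpa using h))
    · exact Or.inr (coe_mem_doubleCoset le_sup_left (by simpa using h))
  conj_ne := fun s hs h => by
    refine P.conj_ne s (hJ hs) (Set.ext fun x => ⟨?_, fun hx => ?_⟩)
    · rintro ⟨b, hb, rfl⟩
      have hm : s * ⟨b, le_sup_left (b := Subgroup.closure J) hb⟩ * s ∈
          (fun b : ↥(P.parabolic J) => s * b * s) '' (P.B.subgroupOf (P.parabolic J) : Set _) :=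
        ⟨_, Subgroup.mem_subgroupOf.2 hb, rfl⟩
      rw [h] at hm
      exact Subgroup.mem_subgroupOf.1 hm
    · have hm : (⟨x, le_sup_left (b := Subgroup.closure J) hx⟩ : ↥(P.parabolic J)) ∈
          (P.B.subgroupOf (P.parabolic J) : Set _) := Subgroup.mem_subgroupOf.2 hx
      rw [← h] at hm
      obtain ⟨b, hb, e⟩ := hm
      exact ⟨b, Subgroup.mem_subgroupOf.1 hb, congrArg Subtype.val e⟩

/-- A generator shortens an element conjugating a root element of its double coset into `B`. -/
theorem descent_of_conj {P : Cfsg.BNPair G} {t n z b₁ b₂ : G} (ht : t ∈ P.S) (hn : n ∈ P.N)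
    (hb₁ : b₁ ∈ P.B) (hb₂ : b₂ ∈ P.B) (hz : z = b₁ * t * b₂) (hzn : n⁻¹ * z * n ∈ P.B) :
    len P (t * n) < len P n := by
  by_contra hlt
  have h1 : t * (b₂ * n) ∈ dc P n :=
    mem_dc.2 ⟨b₁⁻¹, inv_mem hb₁, _, hzn, by rw [hz]; group⟩
  have h2 := left_mul_of_le ht hn (le_of_not_gt hlt) (mul_left_mem hb₂ (mem_dc_self n))
  exact not_sim_mul ht hn (sim_of_mem_mem (mul_mem (s_mem ht) hn) hn h2 h1)

theorem sum_sub_map {Q : Subgroup G} (H : Subgroup Q) {K : Subgroup G} (h : H.map Q.subtype = K)
    (f : G → ℂ) [Fintype H] [Fintype K] : ∑ x : H, f ((x : Q) : G) = ∑ x : K, f x := by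
  subst h
  exact Fintype.sum_equiv (H.equivMapOfInjective _ Q.subtype_injective).toEquiv _ _ fun x => rfl

theorem card_sub_map {Q : Subgroup G} (H : Subgroup Q) {K : Subgroup G}
    (h : H.map Q.subtype = K) : Nat.card K = Nat.card H := by
  subst h
  exact Subgroup.card_map_of_injective Q.subtype_injective

section finite

variable [Finite G] {ι : Type*} [Fintype ι] {P : Cfsg.BNPair G} {s : ι → G}
  (hs : Set.range s = P.S) (J : Finset ι)

/-- The generators of a standard parabolic subgroup. -/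
def rgen (P : Cfsg.BNPair G) (s : ι → G) (J : Finset ι) :
    J → ↥(P.parabolic (s '' (J : Set ι))) :=
  fun i => ⟨s i, gen_le P _ ⟨i, i.2, rfl⟩⟩

include hs

theorem image_sub : s '' (J : Set ι) ⊆ P.S := hs ▸ Set.image_subset_range _ _

theorem range_rgen : Set.range (rgen P s J) = (rpair P _ (image_sub hs J)).S := by
  ext x
  constructor
  · rintro ⟨i, rfl⟩
    exact ⟨i, i.2, rfl⟩
  · rintro ⟨i, hi, e⟩
    exact ⟨⟨i, hi⟩, Subtype.ext e⟩

theorem map_rparabolic (K : Finset J) :
    ((rpair P _ (image_sub hs J)).parabolic (rgen P s J '' (K : Set J))).map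
        (P.parabolic (s '' (J : Set ι))).subtype =
      P.parabolic (s '' ((K.map (Function.Embedding.subtype _) : Finset ι) : Set ι)) := by
  show Subgroup.map _ (P.B.subgroupOf (P.parabolic (s '' (J : Set ι))) ⊔ Subgroup.closure _) =
    P.B ⊔ Subgroup.closure _
  rw [Subgroup.map_sup, MonoidHom.map_closure, Set.image_image]
  rw [Subgroup.subgroupOf_map_subtype, inf_eq_left.2 (show P.B ≤ P.parabolic (s '' (J : Set ι)) from le_sup_left),
    Finset.coe_map, Set.image_image]
  rfl

variable [Fintype ↥(P.parabolic (s '' (J : Set ι)))]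

/-- The restriction of the alternating sum has inner product one with the relative one. -/
theorem inner_rel [Fintype G] :
    Cfsg.classInner (fun q : ↥(P.parabolic (s '' (J : Set ι))) => stFun P s (q : G))
      (stFun (rpair P _ (image_sub hs J)) (rgen P s J)) = 1 := by
  classical
  set R := rpair P _ (image_sub hs J)
  have hgen : Cfsg.IsGeneralizedCharacter G (stFun P s) := isGen_stFun
  have hcl : Cfsg.IsClassFunction ↥(P.parabolic (s '' (J : Set ι))) (fun q : ↥(P.parabolic (s '' (J : Set ι))) => stFun P s (q : G)) :=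
    Cfsg.Agent.Chars.isClassFunction_of_isGen (Cfsg.Agent.Chars.isGen_restrict hgen (P.parabolic (s '' (J : Set ι))))
  have hreal : ∀ q, (starRingEnd ℂ) (stFun R (rgen P s J) q) = stFun R (rgen P s J) q := by
    intro q
    simp [stFun, map_sum, Cfsg.fixedPointCharacter]
  rw [Cfsg.classInner]
  simp only [hreal]
  have hK : ∀ K : Finset J, ∑ q : ↥(P.parabolic (s '' (J : Set ι))), stFun P s (q : G) *
      Cfsg.fixedPointCharacter (R.parabolic (rgen P s J '' (K : Set J))) q =
      (Nat.card ↥(P.parabolic (s '' (J : Set ι))) : ℂ) * (if K = ∅ then 1 else 0) := by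
    intro K
    haveI := Fintype.ofFinite ↥(R.parabolic (rgen P s J '' (K : Set J)))
    haveI := Fintype.ofFinite
      ↥(P.parabolic (s '' ((K.map (Function.Embedding.subtype _) : Finset ι) : Set ι)))
    rw [sum_mul_fixed hcl]
    rw [sum_sub_map _ (map_rparabolic hs J K) (stFun P s), sum_stFun hs (K.map (Function.Embedding.subtype _)) rfl,
      card_sub_map _ (map_rparabolic hs J K), ← mul_assoc, ← Nat.cast_mul,
      Subgroup.index_mul_card]
    simp only [Finset.map_eq_empty]
  have h1 : ∑ q : ↥(P.parabolic (s '' (J : Set ι))), stFun P s (q : G) * stFun R (rgen P s J) q =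
      ∑ K : Finset J, (-1 : ℂ) ^ K.card * ((Nat.card ↥(P.parabolic (s '' (J : Set ι))) : ℂ) * (if K = ∅ then 1 else 0)) := by
    have h2 : ∀ q : ↥(P.parabolic (s '' (J : Set ι))), stFun P s (q : G) * stFun R (rgen P s J) q =
        ∑ K : Finset J, (-1 : ℂ) ^ K.card * (stFun P s (q : G) *
          Cfsg.fixedPointCharacter (R.parabolic (rgen P s J '' (K : Set J))) q) := fun q => by
      conv_lhs => arg 2; rw [stFun]
      rw [Finset.mul_sum]
      exact Finset.sum_congr rfl fun K _ => by ring
    rw [Finset.sum_congr rfl fun q _ => h2 q, Finset.sum_comm]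
    exact Finset.sum_congr rfl fun K _ => by rw [← Finset.mul_sum, hK K]
  refine (congrArg (fun z : ℂ => (Nat.card ↥(P.parabolic (s '' (J : Set ι))) : ℂ)⁻¹ * z) h1).trans ?_
  simp

/-- Translations by a normal subgroup of `B` do not move the relative alternating sum. -/
theorem rel_translate {R : Subgroup ↥(P.parabolic (s '' (J : Set ι)))} [hR : R.Normal]
    (hRB : R ≤ (rpair P _ (image_sub hs J)).B) (g : ↥(P.parabolic (s '' (J : Set ι)))) {r}
    (hr : r ∈ R) :
    stFun (rpair P _ (image_sub hs J)) (rgen P s J) (g * r) =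
      stFun (rpair P _ (image_sub hs J)) (rgen P s J) g := by
  refine Finset.sum_congr rfl fun K _ => ?_
  simp only [Cfsg.fixedPointCharacter]
  have key : ∀ q, r • q = (q : _ ⧸ (rpair P _ (image_sub hs J)).parabolic
      (rgen P s J '' (K : Set J))) := by
    intro q
    obtain ⟨x, rfl⟩ := QuotientGroup.mk_surjective q
    rw [MulAction.Quotient.smul_coe, smul_eq_mul, QuotientGroup.eq]
    refine (le_sup_left : (rpair P _ (image_sub hs J)).B ≤ _) (hRB ?_)
    rw [mul_inv_rev, mul_assoc]
    simpa [mul_assoc] using hR.conj_mem _ (inv_mem hr) x⁻¹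
  rw [show MulAction.fixedBy _ (g * r) = MulAction.fixedBy _ g from Set.ext fun q => by
    rw [MulAction.mem_fixedBy, MulAction.mem_fixedBy, mul_smul, key]]

/-- The relative alternating sum at an element lying in no smaller parabolic subgroup. -/
theorem rel_value (g : ↥(P.parabolic (s '' (J : Set ι))))
    (hmin : ∀ K : Finset ι, K.card < J.card → ∀ x : G,
      x⁻¹ * (g : G) * x ∉ P.parabolic (s '' (K : Set ι))) :
    stFun (rpair P _ (image_sub hs J)) (rgen P s J) g = (-1 : ℂ) ^ J.card := by
  classical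
  rw [stFun, Finset.sum_eq_single (Finset.univ : Finset J)]
  · have htop : (rpair P _ (image_sub hs J)).parabolic
        (rgen P s J '' ((Finset.univ : Finset J) : Set J)) = ⊤ := by
      rw [Finset.coe_univ, Set.image_univ, range_rgen hs J]
      exact parabolic_S
    rw [Finset.card_univ, Fintype.card_coe, Cfsg.fixedPointCharacter, htop]
    haveI : Subsingleton (↥(P.parabolic (s '' (J : Set ι))) ⧸
        (⊤ : Subgroup ↥(P.parabolic (s '' (J : Set ι))))) := QuotientGroup.subsingleton_quotient_top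
    have hfix : MulAction.fixedBy (↥(P.parabolic (s '' (J : Set ι))) ⧸
        (⊤ : Subgroup ↥(P.parabolic (s '' (J : Set ι))))) g = Set.univ :=
      Set.eq_univ_of_forall fun q => Subsingleton.elim _ _
    rw [hfix, Nat.card_congr (Equiv.Set.univ _), Nat.card_of_subsingleton (QuotientGroup.mk g),
      Nat.cast_one, mul_one]
  · intro K _ hK
    have hempty : IsEmpty ↥(MulAction.fixedBy (↥(P.parabolic (s '' (J : Set ι))) ⧸
        (rpair P _ (image_sub hs J)).parabolic (rgen P s J '' (K : Set J))) g) := by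
      refine ⟨fun ⟨q, hq⟩ => ?_⟩
      obtain ⟨x, rfl⟩ := QuotientGroup.mk_surjective q
      rw [mem_fixed_iff] at hq
      have h2 := inv_mem hq
      refine hmin (K.map (Function.Embedding.subtype _)) ?_ (x : G) ?_
      · rw [Finset.card_map, ← Fintype.card_coe J, ← Finset.card_univ]
        exact Finset.card_lt_card (Finset.ssubset_univ_iff.2 hK)
      · rw [← map_rparabolic hs J K]
        refine ⟨_, h2, ?_⟩
        simp [mul_assoc]
    rw [Cfsg.fixedPointCharacter, Nat.card_of_isEmpty, Nat.cast_zero, mul_zero]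
  · simp

/-- The degree of the relative alternating sum is an index. -/
theorem exists_rel_degree : ∃ w ∈ (rpair P _ (image_sub hs J)).N,
    AllDesc (rpair P _ (image_sub hs J)) w ∧ AllDesc (rpair P _ (image_sub hs J)) w⁻¹ ∧
    ∀ H : Subgroup ↥(rpair P _ (image_sub hs J)).B,
      (∀ c : ↥(rpair P _ (image_sub hs J)).B, w⁻¹ * c * w ∈ (rpair P _ (image_sub hs J)).B ↔ c ∈ H) →
      stFun (rpair P _ (image_sub hs J)) (rgen P s J) 1 = (H.index : ℂ) := by
  obtain ⟨w, hw, hwall, hwi⟩ := exists_allDesc (P := rpair P _ (image_sub hs J))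
  refine ⟨w, hw, hwall, hwi, fun H hH => ?_⟩
  rw [stFun_borel (s := rgen P s J) (range_rgen hs J) hw hwall (one_mem _) H hH,
    Cfsg.fixedPointCharacter, Subgroup.index]
  congr 1
  refine Nat.card_congr ((Equiv.subtypeEquivRight fun q => ?_).trans (Equiv.Set.univ _))
  simp only [Set.mem_univ, iff_true, MulAction.mem_fixedBy]
  exact one_smul _ q

end finite

end Cfsg.Agent.Chars2.SplitBN.Rel
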