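import Cfsg.Agent.Chars2.SplitBN.RelPair
import Cfsg.Agent.Chars2.SplitBN.AvgChar
import Cfsg.Agent.Chars2.SplitBN.TwoBlocks
import Cfsg.Agent.Chars2.SLDef.SteinbergPSL
import Cfsg.Agent.Coprime.Conjugacy
import Cfsg.Agent.Chev.Parabolic

/-!
The Steinberg character at an element of order prime to the characteristic.
-/

set_option autoImplicit false
set_option linter.unusedSectionVars false
set_option linter.style.haveILetI false
set_option maxHeartbeats 1000000

universe u

namespace Cfsg.Agent.Chars2.SplitBN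

open Cfsg Cfsg.Lie Cfsg.Agent.Chev Cfsg.Agent.Suzuki.BN Cfsg.Agent.KnownA.Steinberg

/-- In a group with a normal `p`-subgroup an element of order prime to `p` in the coset of another
one is conjugate to it under the subgroup. -/
theorem exists_conj_coset {Q : Type*} [Group Q] [Finite Q] {p : ℕ} [hp : Fact p.Prime]
    {R : Subgroup Q} [hRn : R.Normal] (hR : IsPGroup p R) {g u : Q} (hu : u ∈ R)
    (hg : ¬ p ∣ orderOf g) (hgu : ¬ p ∣ orderOf (g * u)) :
    ∃ r ∈ R, g * u = r * g * r⁻¹ := by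
  obtain ⟨k, hk⟩ := hR.exists_card_eq
  have hco : ∀ x : Q, ¬ p ∣ orderOf x → (orderOf x).Coprime (Nat.card R) := fun x hx => by
    rw [hk]
    exact (Nat.Coprime.pow_left _ ((hp.out.coprime_iff_not_dvd).2 hx)).symm
  have hone : ∀ x : Q, ¬ p ∣ orderOf x → ∀ n : ℕ, x ^ n ∈ R → x ^ n = 1 := by
    intro x hx n hn
    have h1 : orderOf (x ^ n) ∣ orderOf x := orderOf_pow_dvd n
    have h2 : orderOf (x ^ n) ∣ Nat.card R := by
      exact (Subgroup.orderOf_coe (⟨x ^ n, hn⟩ : R)) ▸ orderOf_dvd_natCard (⟨x ^ n, hn⟩ : R)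
    exact orderOf_eq_one_iff.1 (Nat.dvd_one.1 ((hco x hx).gcd_eq_one ▸ Nat.dvd_gcd h1 h2))
  have hpow : ∀ n : ℕ, (g ^ n)⁻¹ * (g * u) ^ n ∈ R := by
    intro n
    rw [← QuotientGroup.eq_one_iff]
    simp only [QuotientGroup.mk_mul, QuotientGroup.mk_inv, QuotientGroup.mk_pow]
    rw [(QuotientGroup.eq_one_iff u).2 hu, mul_one, inv_mul_cancel]
  have hord : orderOf (g * u) = orderOf g := by
    refine Nat.dvd_antisymm (orderOf_dvd_of_pow_eq_one (hone _ hgu _ ?_))
      (orderOf_dvd_of_pow_eq_one (hone _ hg _ ?_))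
    · have h := hpow (orderOf g)
      rwa [pow_orderOf_eq_one, inv_one, one_mul] at h
    · have h := hpow (orderOf (g * u))
      rwa [pow_orderOf_eq_one (g * u), mul_one, inv_mem_iff] at h
  obtain ⟨r, hr, he⟩ := Coprime.exists_conj_complement R _ (Subgroup.zpowers g)
    (Subgroup.zpowers (g * u)) rfl inferInstance (Subgroup.normalizer_eq_top R ▸ le_top)
    (Subgroup.zpowers_le.2 (mul_mem (Subgroup.mem_sup_right (Subgroup.mem_zpowers g))
      (Subgroup.mem_sup_left hu)))
    (by rw [Nat.card_zpowers, Nat.card_zpowers, hord])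
    (by rw [Nat.card_zpowers]; exact hco g hg)
  have hm : g * u ∈ (Subgroup.zpowers g).map (MulAut.conj r).toMonoidHom :=
    he ▸ Subgroup.mem_zpowers (g * u)
  obtain ⟨x, hx, hxe⟩ := Subgroup.mem_map.1 hm
  simp only [MulEquiv.coe_toMonoidHom, MulAut.conj_apply] at hxe
  refine ⟨r, hr, ?_⟩
  obtain ⟨n, hn⟩ := Submonoid.mem_powers_iff _ _ |>.1 (mem_powers_iff_mem_zpowers.2 hx)
  subst hn
  have hmem : g⁻¹ * g ^ n ∈ R := by
    rw [← QuotientGroup.eq_one_iff]
    have h := congrArg (QuotientGroup.mk : Q → Q ⧸ R) hxe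
    simp only [QuotientGroup.mk_mul, QuotientGroup.mk_inv, QuotientGroup.mk_pow] at h ⊢
    rw [(QuotientGroup.eq_one_iff r).2 hr, (QuotientGroup.eq_one_iff u).2 hu] at h
    simp only [one_mul, inv_one, mul_one] at h
    rw [h, inv_mul_cancel]
  have hg0 : 0 < orderOf g := orderOf_pos g
  have hinv : g⁻¹ = g ^ (orderOf g - 1) :=
    inv_eq_of_mul_eq_one_right (by rw [← pow_succ', Nat.sub_add_cancel hg0, pow_orderOf_eq_one])
  rw [hinv, ← pow_add] at hmem
  have h2 := hone g hg _ hmem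
  rw [pow_add, ← hinv, inv_mul_eq_one] at h2
  show g * u = r * g * r⁻¹
  rw [← h2] at hxe
  exact hxe.symm

variable {D : ChevalleyDatum} {F : Type u} [Field F] [Fintype F] (C : Cert.{u} D)
  {cox : CoxeterMatrix (Fin D.rank)}
include C

theorem mem_parabolic_iff {P : Cfsg.BNPair ↥(D.group F)}
    (hB : P.B = (D.borelSubgroup F).subgroupOf (D.group F)) (J : Finset (Fin D.rank))
    {q : ↥(D.group F)} :
    q ∈ P.parabolic (node C '' (J : Set (Fin D.rank))) ↔
      (q : GL D.Idx F) ∈ D.parabolicSubgroup F ((J.map Fin.valEmbedding : Finset ℕ) : Set ℕ) := by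
  rw [map_parabolic C hB]
  exact Subgroup.mem_subgroupOf

theorem radical_le_pos (J : Set ℕ) : D.unipotentRadical F J ≤ D.posUnipotent F := by
  rw [C.radical_eq]
  show _ ≤ spanGroup D F D.IsPosRoot
  exact C.span_mono fun r hr => hr.1

theorem isPGroup_radical (p : ℕ) [Fact p.Prime] [CharP F p] (J : Set ℕ) :
    IsPGroup p ↥(D.unipotentRadical F J) := by
  obtain ⟨n, -, hn⟩ := FiniteField.card F p
  have hU : IsPGroup p ↥(D.posUnipotent F) := by
    refine IsPGroup.of_card (n := (n : ℕ) * (D.nroots / 2)) ?_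
    rw [C.natCard_posUnipotent, hn, pow_mul]
  exact hU.to_le (radical_le_pos C J)

/-- The degree of the relative alternating sum of a standard parabolic subgroup. -/
theorem rel_degree_bound (hM : CoxOK D cox) {P : Cfsg.BNPair ↥(D.group F)}
    (hB : P.B = (D.borelSubgroup F).subgroupOf (D.group F))
    (hN : P.N = (D.monomialSubgroup F).subgroupOf (D.group F))
    (hs : Set.range (node C (F := F)) = P.S) (J : Finset (Fin D.rank))
    [Fintype ↥(P.parabolic (node C '' (J : Set (Fin D.rank))))] :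
    ∃ b : ℕ, stFun (Rel.rpair P _ (Rel.image_sub hs J)) (Rel.rgen P (node C) J) 1 = (b : ℂ) ∧
      0 < b ∧ Nat.card ↥(D.posUnipotent F) ≤
        Nat.card ↥(D.unipotentRadical F ((J.map Fin.valEmbedding : Finset ℕ) : Set ℕ)) * b := by
  classical
  set Jn : Set ℕ := ((J.map Fin.valEmbedding : Finset ℕ) : Set ℕ) with hJn
  set Pr := Rel.rpair P _ (Rel.image_sub hs J) with hPr
  obtain ⟨w, hw, hwall, -, hdeg⟩ := Rel.exists_rel_degree (s := node C) hs J
  let ρ : ↥(P.parabolic (node C '' (J : Set (Fin D.rank)))) →* GL D.Idx F :=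
    (D.group F).subtype.comp (Subgroup.subtype _)
  have hρ : Function.Injective ρ :=
    (D.group F).subtype_injective.comp (Subgroup.subtype_injective _)
  have hBr : ∀ c, c ∈ Pr.B ↔ ρ c ∈ D.borelSubgroup F := by
    intro c
    show ((c : ↥(D.group F)) ∈ P.B) ↔ _
    rw [hB]
    exact Subgroup.mem_subgroupOf
  have hwN : ρ w ∈ D.monomialSubgroup F := by
    have h : ((w : ↥(D.group F))) ∈ P.N :=
      Rel.rN_le (Rel.image_sub hs J) (Subgroup.mem_subgroupOf.1 hw)
    rw [hN] at h
    exact Subgroup.mem_subgroupOf.1 h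
  have hwQ : ρ w ∈ D.parabolicSubgroup F Jn := (mem_parabolic_iff C hB J).1 w.2
  obtain ⟨L, -, hL⟩ := C.monomial_conj_xu hM (inv_mem hwN)
  have hlt := C.fin_word_lt L
  have hneg : ∀ i ∈ J, D.IsNegRoot (act D (L.map Fin.val) (D.simple i)) := by
    intro i hi
    rcases C.posRoot_or_negRoot (C.act_lt hlt (C.simple_lt i i.isLt)) with hp | hn
    · exfalso
      set t : ↥(P.parabolic (node C '' (J : Set (Fin D.rank)))) := Rel.rgen P (node C) J ⟨i, hi⟩
      have ht : t ∈ Pr.S := ⟨i, hi, rfl⟩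
      have hρt : ρ t = C.nu (D.simple i) 1 := rfl
      have hzQ : C.xu (D.neg (D.simple i)) (1 : F) ∈ D.parabolicSubgroup F Jn := by
        refine C.xu_mem_parabolic (C.pos_simple i.isLt) (C.inRootSub_simple i.isLt ?_) _
        rw [hJn, Finset.mem_coe, Finset.mem_map]
        exact ⟨i, hi, rfl⟩
      have hlift : ∀ x ∈ D.parabolicSubgroup F Jn,
          ∃ y : ↥(P.parabolic (node C '' (J : Set (Fin D.rank)))), ρ y = x := fun x hx =>
        ⟨⟨⟨x, C.parabolic_le_group _ hx⟩, (mem_parabolic_iff C hB J).2 hx⟩, rfl⟩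
      have hbor : ∀ x ∈ D.borelSubgroup F, ∃ y ∈ Pr.B, ρ y = x := fun x hx => by
        obtain ⟨y, hy⟩ := hlift x (C.borel_le_parabolic Jn hx)
        exact ⟨y, (hBr y).2 (hy ▸ hx), hy⟩
      obtain ⟨z, hz⟩ := hlift _ hzQ
      obtain ⟨b₁, hb₁, hb₁e⟩ := hbor (C.xu (D.simple i) ((1 : F))⁻¹ * C.hu (D.simple i) (-((1 : F))⁻¹))
        (mul_mem (C.pos_le_borel (C.xu_mem_pos (C.pos_simple i.isLt) _))
          (C.diagonal_le_borel (C.hu_simple_mem_diagonal (C.simple_lt i i.isLt)
            (neg_ne_zero.mpr (inv_ne_zero one_ne_zero)))))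
      obtain ⟨b₂, hb₂, hb₂e⟩ := hbor (C.xu (D.simple i) ((1 : F))⁻¹)
        (C.pos_le_borel (C.xu_mem_pos (C.pos_simple i.isLt) _))
      have hdec : z = b₁ * t * b₂ := hρ (by
        rw [map_mul, map_mul, hz, hb₁e, hρt, hb₂e]
        exact C.xu_neg_decomp i.isLt one_ne_zero)
      have hcj : (t * w)⁻¹ * z * (t * w) ∈ Pr.B := by
        rw [hBr]
        simp only [map_mul, map_inv, hρt, hz]
        have hr := C.neg_lt _ (C.simple_lt i i.isLt)
        obtain ⟨c, -, hc⟩ := C.conj_inv_xu_simple (F := F) i.isLt hr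
        obtain ⟨c', -, hc'⟩ := hL _ (C.simple_lt i i.isLt)
        have e : D.reflectRoot i (D.neg (D.simple i)) = D.simple i := by
          rw [C.refl_neg i.isLt (C.simple_lt i i.isLt), C.refl_simple i.isLt,
            C.neg_neg _ (C.simple_lt i i.isLt)]
        rw [show (C.nu (D.simple i) 1 * ρ w)⁻¹ * C.xu (D.neg (D.simple i)) 1 *
            (C.nu (D.simple i) 1 * ρ w) = (ρ w)⁻¹ * ((C.nu (D.simple i) 1)⁻¹ *
            C.xu (D.neg (D.simple i)) 1 * C.nu (D.simple i) 1) * ((ρ w)⁻¹)⁻¹ by group, hc, e, hc']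
        exact C.pos_le_borel (C.xu_mem_pos hp _)
      have htw : t * w ∈ Pr.N := mul_mem (s_mem ht) hw
      have h1 := Rel.descent_of_conj ht htw hb₁ hb₂ hdec hcj
      have h2 : len Pr (t * (t * w)) = len Pr w := len_congr (cancel_left ht hw)
      have h3' : len Pr (t * w) < len Pr w := hwall t ht
      omega
    · exact hn
  have hJmem : ∀ j : ℕ, j ∈ Jn → ∃ i ∈ J, (i : ℕ) = j := by
    intro j hj
    rw [hJn, Finset.mem_coe, Finset.mem_map] at hj
    exact hj
  set UL := spanGroup D F (fun r => D.IsPosRoot r ∧ D.InRootSub Jn r) with hUL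
  have hULneg : UL ≤ (D.negUnipotent F).comap (MulAut.conj (ρ w)⁻¹).toMonoidHom := by
    refine C.span_le fun r hr s => ?_
    obtain ⟨c, -, hc⟩ := hL r hr.1.1
    show (ρ w)⁻¹ * C.xu r s * ((ρ w)⁻¹)⁻¹ ∈ D.negUnipotent F
    rw [hc]
    refine C.xu_mem_neg ((C.negRoot_iff _ (C.act_lt hlt hr.1.1)).mpr fun k hk => ?_) _
    rw [C.act_coef hlt hr.1.1 k hk]
    refine Finset.sum_nonpos fun j hj => ?_
    have hj' := Finset.mem_range.mp hj
    by_cases hjJ : j ∈ Jn
    · obtain ⟨i, hi, rfl⟩ := hJmem j hjJ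
      refine mul_nonpos_of_nonneg_of_nonpos ((C.pos_iff r hr.1.1).mp hr.1 _ hj') ?_
      exact (C.negRoot_iff _ (C.act_lt hlt (C.simple_lt i i.isLt))).mp (hneg i hi) k hk
    · rw [(C.inRootSub_iff.mp hr.2).2 j hj' hjJ, zero_mul]
  have hULP : UL ≤ D.parabolicSubgroup F Jn := by
    refine C.span_le fun r hr s => C.borel_le_parabolic _ (C.pos_le_borel (C.xu_mem_pos hr.1 s))
  have hUsup : D.posUnipotent F ≤ D.unipotentRadical F Jn ⊔ UL := by
    rw [C.radical_eq]
    show spanGroup D F D.IsPosRoot ≤ _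
    refine C.span_le fun r hr s => ?_
    by_cases hJ' : D.InRootSub Jn r
    · exact Subgroup.mem_sup_right
        (C.xu_mem_span (P := fun r => D.IsPosRoot r ∧ D.InRootSub Jn r) ⟨hr, hJ'⟩ s)
    · exact Subgroup.mem_sup_left
        (C.xu_mem_span (P := fun r => D.IsPosRoot r ∧ ¬ D.InRootSub Jn r) ⟨hr, hJ'⟩ s)
  have hcore : ∀ x ∈ D.posUnipotent F, (ρ w)⁻¹ * x * ρ w ∈ D.borelSubgroup F →
      x ∈ D.unipotentRadical F Jn := by
    intro x hx hxw
    obtain ⟨a, ha, l, hl, rfl⟩ := (Cert.mem_sup_of_normalised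
      (hULP.trans (C.parabolic_le_normalizer Jn))).mp (hUsup hx)
    have hn := C.parabolic_le_normalizer Jn (inv_mem hwQ)
    have h1 : (ρ w)⁻¹ * a * ρ w ∈ D.borelSubgroup F := by
      have := (Subgroup.mem_normalizer_iff.mp hn a).mp ha
      rw [inv_inv] at this
      exact C.pos_le_borel (radical_le_pos C Jn this)
    have h2 : (ρ w)⁻¹ * l * ρ w ∈ D.borelSubgroup F := by
      have := mul_mem (inv_mem h1) hxw
      simpa [mul_assoc] using this
    have h3 : (ρ w)⁻¹ * l * ρ w ∈ D.negUnipotent F := by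
      have : (ρ w)⁻¹ * l * ((ρ w)⁻¹)⁻¹ ∈ D.negUnipotent F := hULneg hl
      simpa using this
    have h4 : (ρ w)⁻¹ * l * ρ w ∈ D.borelSubgroup F ⊓ D.negUnipotent F :=
      Subgroup.mem_inf.2 ⟨h2, h3⟩
    rw [C.borel_inf_neg, Subgroup.mem_bot] at h4
    have hl1 : l = 1 := by
      have := congrArg (fun y => ρ w * y * (ρ w)⁻¹) h4
      simpa [mul_assoc] using this
    rw [hl1, mul_one]
    exact ha
  -- counting
  let φ : ↥Pr.B →* GL D.Idx F := ρ.comp Pr.B.subtype
  have hφ : Function.Injective φ := hρ.comp Pr.B.subtype_injective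
  let H : Subgroup ↥Pr.B :=
    (Pr.B.comap (MulAut.conj w⁻¹).toMonoidHom).subgroupOf Pr.B
  have hH : ∀ c : ↥Pr.B, w⁻¹ * c * w ∈ Pr.B ↔ c ∈ H := by
    intro c
    simp [H, Subgroup.mem_subgroupOf]
  have hrange : D.posUnipotent F ≤ φ.range := by
    intro x hx
    have hxB := C.pos_le_borel hx
    exact ⟨⟨⟨⟨x, C.borel_le_group hxB⟩, (mem_parabolic_iff C hB J).2 (C.borel_le_parabolic _ hxB)⟩,
      (hBr _).2 hxB⟩, rfl⟩
  have hcU : Nat.card ↥((D.posUnipotent F).comap φ) = Nat.card ↥(D.posUnipotent F) := by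
    rw [← Subgroup.card_map_of_injective hφ, Subgroup.map_comap_eq_self hrange]
  refine ⟨H.index, hdeg H hH, Nat.pos_of_ne_zero Subgroup.index_ne_zero_of_finite, ?_⟩
  set U' := (D.posUnipotent F).comap φ
  have hle1 : Nat.card ↥(H.subgroupOf U') ≤ Nat.card ↥(D.unipotentRadical F Jn) := by
    have hmem : ∀ c : ↥(H.subgroupOf U'), φ ((c : ↥U') : ↥Pr.B) ∈ D.unipotentRadical F Jn := by
      intro c
      refine hcore _ (c : ↥U').2 ?_
      have h := (hBr _).1 ((hH _).2 (Subgroup.mem_subgroupOf.1 c.2))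
      simpa only [φ, MonoidHom.comp_apply, Subgroup.coe_subtype, map_mul, map_inv] using h
    refine Nat.card_le_card_of_injective (fun c => ⟨_, hmem c⟩) fun c c' h => ?_
    exact Subtype.ext (Subtype.ext (hφ (Subtype.mk.inj h)))
  have hle2 : H.relIndex U' ≤ H.index := by
    rw [← H.relIndex_top_right]
    exact Subgroup.relIndex_le_of_le_right le_top
      (by rw [Subgroup.relIndex_top_right]; exact Subgroup.index_ne_zero_of_finite)
  calc Nat.card ↥(D.posUnipotent F) = Nat.card ↥(H.subgroupOf U') * H.relIndex U' := by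
        rw [← hcU, Subgroup.relIndex, Subgroup.card_mul_index]
    _ ≤ _ := Nat.mul_le_mul hle1 hle2

/-- The value of the Steinberg character at an element of order prime to `p` lying in a standard
parabolic subgroup and in no conjugate of a smaller one. -/
theorem value_in_parabolic (hM : CoxOK D cox) (p : ℕ) [Fact p.Prime] [CharP F p]
    {P : Cfsg.BNPair ↥(D.group F)}
    (hB : P.B = (D.borelSubgroup F).subgroupOf (D.group F))
    (hN : P.N = (D.monomialSubgroup F).subgroupOf (D.group F))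
    (hs : Set.range (node C (F := F)) = P.S)
    (hvan : ∀ x : ↥(D.group F), p ∣ orderOf x → D.steinbergCharacter F x = 0)
    (J : Finset (Fin D.rank)) {g : ↥(D.group F)}
    (hgJ : g ∈ P.parabolic (node C '' (J : Set (Fin D.rank))))
    (hmin : ∀ K : Finset (Fin D.rank), K.card < J.card → ∀ x : ↥(D.group F),
      x⁻¹ * g * x ∉ P.parabolic (node C '' (K : Set (Fin D.rank))))
    (hg : ¬ p ∣ orderOf g) :
    ∃ R : Subgroup ↥(D.group F), IsPGroup p R ∧
      R ≤ Subgroup.centralizer ({g} : Set ↥(D.group F)) ∧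
      (D.steinbergCharacter F g = (Nat.card R : ℂ) ∨
        D.steinbergCharacter F g = -(Nat.card R : ℂ)) := by
  classical
  haveI : Fintype ↥(D.group F) := Fintype.ofFinite _
  haveI : Fintype ↥(P.parabolic (node C '' (J : Set (Fin D.rank)))) := Fintype.ofFinite _
  set Jn : Set ℕ := ((J.map Fin.valEmbedding : Finset ℕ) : Set ℕ) with hJn
  let ρ : ↥(P.parabolic (node C '' (J : Set (Fin D.rank)))) →* GL D.Idx F :=
    (D.group F).subtype.comp (Subgroup.subtype _)
  have hρ : Function.Injective ρ :=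
    (D.group F).subtype_injective.comp (Subgroup.subtype_injective _)
  let R := (D.unipotentRadical F Jn).comap ρ
  haveI hRn : R.Normal := ⟨fun x hx y =>
    show ρ (y * x * y⁻¹) ∈ D.unipotentRadical F Jn by
      rw [map_mul, map_mul, map_inv]
      exact (Subgroup.mem_normalizer_iff.mp
        (C.parabolic_le_normalizer Jn ((mem_parabolic_iff C hB J).1 y.2)) _).mp hx⟩
  haveI : Fintype ↥R := Fintype.ofFinite _
  have hRB : R ≤ (Rel.rpair P _ (Rel.image_sub hs J)).B := by
    intro x hx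
    show (x : ↥(D.group F)) ∈ P.B
    rw [hB]
    exact Subgroup.mem_subgroupOf.2 (C.pos_le_borel (radical_le_pos C Jn hx))
  have hRp : IsPGroup p ↥R := (isPGroup_radical C p Jn).comap_of_injective ρ hρ
  have hRcard : Nat.card ↥R = Nat.card ↥(D.unipotentRadical F Jn) := by
    rw [← Subgroup.card_map_of_injective hρ, Subgroup.map_comap_eq_self]
    intro x hx
    have hxB := C.pos_le_borel (radical_le_pos C Jn hx)
    exact ⟨⟨⟨x, C.borel_le_group hxB⟩,
      (mem_parabolic_iff C hB J).2 (C.borel_le_parabolic _ hxB)⟩, rfl⟩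
  set χ : ↥(P.parabolic (node C '' (J : Set (Fin D.rank)))) → ℂ :=
    fun q => D.steinbergCharacter F (q : ↥(D.group F)) with hχdef
  have hχ : IsCharacter _ χ :=
    Chars.isCharacter_restrict (Chars.isCharacter_of_isIrr (steinberg_irr C hM)) _
  have hordR : ∀ q : ↥(P.parabolic (node C '' (J : Set (Fin D.rank)))),
      orderOf (q : ↥(D.group F)) = orderOf q := fun q => Subgroup.orderOf_coe q
  have hvanQ : ∀ q : ↥(P.parabolic (node C '' (J : Set (Fin D.rank)))),
      p ∣ orderOf q → χ q = 0 := fun q hq => hvan _ ((hordR q).symm ▸ hq)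
  obtain ⟨b, hb, hbpos, hbound⟩ := rel_degree_bound C hM hB hN hs J
  set f := stFun (Rel.rpair P _ (Rel.image_sub hs J)) (Rel.rgen P (node C) J) with hfdef
  have hfirr : IsIrrCharacter _ f := by
    rcases Chars.isIrrCharacter_of_gen_norm_one isGen_stFun
      (stFun_norm (Rel.range_rgen (s := node C) hs J)) with h | h
    · exact h
    · exfalso
      obtain ⟨n, hn⟩ := Chars.exists_apply_one_eq (Chars.isCharacter_of_isIrr h)
      rw [Pi.neg_apply, show stFun (Rel.rpair P _ (Rel.image_sub hs J)) (Rel.rgen P (node C) J) 1 =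
        (b : ℂ) from hb, neg_eq_iff_add_eq_zero, ← Nat.cast_add, Nat.cast_eq_zero] at hn
      omega
  have hinner : classInner χ f = 1 := by
    rw [hχdef, steinberg_eq_stFun C hB]
    exact Rel.inner_rel (s := node C) hs J
  have ha : χ 1 = ((Fintype.card F ^ (D.nroots / 2) : ℕ) : ℂ) := by
    rw [hχdef]
    simp [steinberg_one C hM]
  have hvanR : ∀ r ∈ R, r ≠ 1 → χ r = 0 := by
    intro r hr hr1
    refine hvanQ r ?_
    obtain ⟨k, hk⟩ := hRp ⟨r, hr⟩
    have hk' : r ^ p ^ k = 1 := by simpa using congrArg Subtype.val hk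
    obtain ⟨j, -, hj⟩ := (Nat.dvd_prime_pow Fact.out).1 (orderOf_dvd_of_pow_eq_one hk')
    rw [hj]
    refine dvd_pow_self p fun h0 => hr1 (orderOf_eq_one_iff.1 ?_)
    rw [hj, h0, pow_zero]
  set q0 : ↥(P.parabolic (node C '' (J : Set (Fin D.rank)))) := ⟨g, hgJ⟩ with hq0
  have hgq : ¬ p ∣ orderOf q0 := fun h => hg ((hordR q0).symm ▸ h)
  have h1 : ∑ u : ↥R, χ (q0 * u) = (Nat.card ↥R : ℂ) * f q0 :=
    Avg.sum_coset_eq R hχ hfirr
      (fun x r hr => Rel.rel_translate (s := node C) hs J hRB x hr) hinner hvanR ha hb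
      (by rw [hRcard, ← C.natCard_posUnipotent]; exact hbound) q0
  have h2 := Avg.sum_coset_regular (p := p) R (χ := χ) (Chars.isClassFunction_of_isCharacter hχ)
    hvanQ (g := q0) fun u hu hgu => exists_conj_coset hRp hu hgq hgu
  have hv : f q0 = (-1 : ℂ) ^ J.card := Rel.rel_value (s := node C) hs J q0 hmin
  rw [h1, hv] at h2
  set K := R ⊓ Subgroup.centralizer ({q0} : Set ↥(P.parabolic (node C '' (J : Set (Fin D.rank)))))
  refine ⟨K.map (Subgroup.subtype _), (hRp.to_le inf_le_left).map _, ?_, ?_⟩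
  · rintro _ ⟨x, hx, rfl⟩
    have h := Subgroup.mem_centralizer_singleton_iff.1 (Subgroup.mem_inf.1 hx).2
    exact Subgroup.mem_centralizer_singleton_iff.2 (congrArg Subtype.val h)
  · rw [Subgroup.card_map_of_injective (Subgroup.subtype_injective _)]
    have hne : (Nat.card ↥R : ℂ) ≠ 0 := by exact_mod_cast Nat.card_pos.ne'
    have h3 : D.steinbergCharacter F g = (-1 : ℂ) ^ J.card * (Nat.card ↥K : ℂ) := by
      apply mul_right_cancel₀ hne
      rw [show D.steinbergCharacter F g = χ q0 from rfl, ← h2]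
      ring
    rcases neg_one_pow_eq_or ℂ J.card with h | h
    · left; rw [h3, h, one_mul]
    · right; rw [h3, h, neg_one_mul]

/-- The Steinberg character at an element of order prime to the characteristic is, up to sign, the
`p`-part of the order of the centraliser. -/
theorem steinberg_semisimple (hM : CoxOK D cox) (p : ℕ) [hp : Fact p.Prime] [CharP F p]
    {g : ↥(D.group F)} (hg : ¬ p ∣ orderOf g) :
    D.steinbergCharacter F g =
        ((p ^ (Nat.card ↥(Subgroup.centralizer ({g} : Set ↥(D.group F)))).factorization p : ℕ) : ℂ) ∨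
      D.steinbergCharacter F g =
        -((p ^ (Nat.card ↥(Subgroup.centralizer ({g} : Set ↥(D.group F)))).factorization p : ℕ) : ℂ) := by
  classical
  haveI : Fintype ↥(D.group F) := Fintype.ofFinite _
  obtain ⟨P, hB, hN, hS⟩ := C.exists_bnPair (F := F) hM
  have hs : Set.range (node C (F := F)) = P.S := (hS.trans (range_node C).symm).symm
  obtain ⟨M, hMmax, hpM⟩ := DegreeGraph.exists_isMaximal_mem p
  have hMp : IsPModular p M := ⟨hp.out, hMmax, hpM⟩
  have hirr := steinberg_irr C (F := F) hM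
  have hchar := Chars.isCharacter_of_isIrr hirr
  obtain ⟨d, hd, hdp, -⟩ := steinberg_degree (p := p) C hM (F := F)
  have hvan : ∀ x : ↥(D.group F), p ∣ orderOf x → D.steinbergCharacter F x = 0 := by
    intro x hx
    refine SLDef.defect_zero_vanish (χ := ⟨_, hirr⟩) hMp ?_ hx
    have h := (Blocks.charDegree_eq hirr).1
    rw [hd] at h
    rw [show charDegree (D.steinbergCharacter F) = d by exact_mod_cast h.symm, hdp]
    exact Nat.not_dvd_ordCompl hp.out Nat.card_pos.ne'
  let good : Finset (Fin D.rank) → Prop := fun J =>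
    ∃ x : ↥(D.group F), x⁻¹ * g * x ∈ P.parabolic (node C '' (J : Set (Fin D.rank)))
  have huniv : good Finset.univ := ⟨1, by
    rw [Finset.coe_univ, Set.image_univ, hs, parabolic_S]; trivial⟩
  obtain ⟨J, hJ, hJmin⟩ := Finset.exists_min_image (Finset.univ.filter good) Finset.card
    ⟨_, Finset.mem_filter.2 ⟨Finset.mem_univ _, huniv⟩⟩
  obtain ⟨x, hx⟩ := (Finset.mem_filter.1 hJ).2
  have hord : orderOf (x⁻¹ * g * x) = orderOf g := by
    rw [show x⁻¹ * g * x = MulAut.conj x⁻¹ g by simp [MulAut.conj_apply], MulEquiv.orderOf_eq]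
  obtain ⟨R, hRp, hRC, hval⟩ := value_in_parabolic C hM p hB hN hs hvan J hx (fun K hK y hy => by
      have := hJmin K (Finset.mem_filter.2 ⟨Finset.mem_univ _, x * y, by
        simpa [mul_assoc] using hy⟩)
      omega) (by rwa [hord])
  have hSt : D.steinbergCharacter F (x⁻¹ * g * x) = D.steinbergCharacter F g := by
    have h := Chars.isClassFunction_of_isCharacter hchar g x⁻¹
    rwa [inv_inv] at h
  rw [hSt] at hval
  set R' := R.map (MulAut.conj x).toMonoidHom with hR'
  have hR'C : R' ≤ Subgroup.centralizer ({g} : Set ↥(D.group F)) := by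
    rintro _ ⟨r, hr, rfl⟩
    have h := Subgroup.mem_centralizer_singleton_iff.1 (hRC hr)
    refine Subgroup.mem_centralizer_singleton_iff.2 ?_
    simp only [MulEquiv.coe_toMonoidHom, MulAut.conj_apply]
    calc x * r * x⁻¹ * g = x * (r * (x⁻¹ * g * x)) * x⁻¹ := by group
      _ = g * (x * r * x⁻¹) := by rw [h]; group
  obtain ⟨k, hk⟩ := (hRp.map (MulAut.conj x).toMonoidHom).exists_card_eq
  have hcard : Nat.card ↥R = p ^ k := by
    rw [← hk, Subgroup.card_map_of_injective (MulAut.conj x).injective]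
  set Cg := Subgroup.centralizer ({g} : Set ↥(D.group F))
  obtain ⟨S⟩ : Nonempty (Sylow p ↥Cg) := inferInstance
  have hSdvd : p ^ (Nat.card ↥Cg).factorization p ∣ p ^ k := by
    rw [← hcard, ← S.card_eq_multiplicity,
      ← Subgroup.card_map_of_injective (K := (S : Subgroup ↥Cg)) Cg.subtype_injective]
    exact Avg.card_dvd_value hchar hvan hval (S.isPGroup'.map _) (Subgroup.map_subtype_le _) hg
  have hRdvd : p ^ k ∣ Nat.card ↥Cg := hk ▸ Subgroup.card_dvd_of_le hR'C
  have hle : k ≤ (Nat.card ↥Cg).factorization p :=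
    (hp.out.pow_dvd_iff_le_factorization Nat.card_pos.ne').1 hRdvd
  have hfin : p ^ k = p ^ (Nat.card ↥Cg).factorization p :=
    Nat.dvd_antisymm (pow_dvd_pow p hle) hSdvd
  rw [← hfin, ← hcard]
  exact hval

end Cfsg.Agent.Chars2.SplitBN
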