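import Cfsg.Agent.Chars2.SplitBN.Module
import Cfsg.Agent.Chars2.SLDef.Unique
import Cfsg.Agent.Chars2.SLDef.DefectZero
import Cfsg.Agent.Chars2.SLDef.BlocksGeneric
import Cfsg.Agent.DegreeGraph.AbelianNormal

/-!
A group with split rank one data has at most one irreducible character of defect zero in the
defining characteristic.
-/

set_option autoImplicit false
set_option linter.unusedSectionVars false
set_option linter.style.haveILetI false
set_option maxHeartbeats 1000000
set_option synthInstance.maxHeartbeats 200000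

namespace Cfsg.Agent.Chars2.SplitBN

open Matrix Cfsg Cfsg.Agent.Blocks
open Cfsg.Agent.Chars2.SLDef (sum_eq_zero_add_sum_units natCard_F_cast resRep
  resRep_irr sum_char_resRep sum_char_resRep_of_ne)
open scoped Classical

universe u v w w' x y

variable {F : Type u} [Field F] [Fintype F] {G : Type x} [Group G] [Fintype G] {ι : Type w'}
  (S : Data F G ι) {k : Type v} [Field k] {V : Type w} [AddCommGroup V] [Module k V]
  {V' : Type y} [AddCommGroup V'] [Module k V']
  (p : ℕ) [Fact p.Prime] [CharP F p] [CharP k p] [IsAlgClosed k]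
include p

/-- The vector generating an irreducible module of maximal dimension. -/
theorem exists_top_vector (hP : IsPGroup p S.U) [FiniteDimensional k V] (ρ : Representation k G V)
    (hirr : ∀ W : Submodule k V, (∀ g, ∀ x ∈ W, ρ g x ∈ W) → W = ⊥ ∨ W = ⊤)
    (hdim : Nat.card S.Uneg ≤ Module.finrank k V) :
    ∃ v : V, lowSpan S ρ v = ⊤ ∧ (∀ u ∈ S.U, ρ u v = v) ∧
      ∀ i : ι, (∀ u, ρ (S.hh i u) v = v) ∧ sig S ρ i (ρ (S.ww i) v) = -v := by
  haveI : Nontrivial V :=
    Module.nontrivial_of_finrank_pos (R := k) (Nat.card_pos.trans_le hdim)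
  obtain ⟨v, hv0, hU, -, hdata⟩ := exists_vector S p hP ρ
  have hgood : IsGood S ρ v := ⟨hU, fun i u => by
      obtain ⟨μ, hμ, -⟩ := hdata i; exact ⟨_, hμ u⟩, fun i => by
      obtain ⟨μ, -, c, hc, -⟩ := hdata i; exact ⟨c, hc⟩⟩
  have htop : lowSpan S ρ v = ⊤ := (hirr _ fun g x hx => hgood.stable S g hx).resolve_left
    fun h => hv0 ((Submodule.mem_bot k).1 (h ▸ self_mem_lowSpan S ρ v))
  have hli : LinearIndependent k (fun u : S.Uneg => ρ (u : G) v) := by
    refine linearIndependent_of_top_le_span_of_card_eq_finrank htop.ge (le_antisymm ?_ ?_)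
    · rw [← Nat.card_eq_fintype_card]; exact hdim
    · have h : (Set.range fun u : S.Uneg => ρ (u : G) v).finrank k ≤ Fintype.card S.Uneg :=
        finrank_range_le_card _
      have h' : (Set.range fun u : S.Uneg => ρ (u : G) v).finrank k = Module.finrank k V := by
        unfold Set.finrank
        rw [show Submodule.span k (Set.range fun u : S.Uneg => ρ (u : G) v) = ⊤ from htop,
          finrank_top]
      rwa [h'] at h
  refine ⟨v, htop, hU, fun i => ?_⟩
  obtain ⟨μ, hμ, c, hc, hcμ⟩ := hdata i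
  have hUa : ∀ a : F, ρ (S.xp i a) v = v := fun a => hU _ (S.xp_mem i a)
  have hμmul : ∀ a b, μ (a * b) = μ a * μ b := fun a b => by
    refine smul_left_injective k hv0 ?_
    show μ (a * b) • v = (μ a * μ b) • v
    rw [← hμ, S.hh_mul, rho_mul, hμ, map_smul, hμ, smul_smul, mul_comm]
  have hμ1 : μ 1 = 1 := by
    refine smul_left_injective k hv0 ?_
    show μ 1 • v = (1 : k) • v
    rw [← hμ, S.hh_one, map_one, one_smul]; rfl
  have hw := ww_apply_eq S ρ i hUa hμ hc
  have hc0 : c ≠ 0 := by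
    intro h0
    rw [h0, zero_smul, zero_sub] at hw
    have h2 : μ (-1) • v = -∑ a : Fˣ, (μ (-a) * μ a⁻¹) • ρ (S.xm i (-(a : F))) v := by
      rw [← hμ, ← S.ww_mul_ww, rho_mul]
      conv_lhs => rw [hw, map_neg, map_sum]
      congr 1
      refine Finset.sum_congr rfl fun a _ => ?_
      rw [map_smul, ← rho_mul, S.ww_mul_xm, rho_mul, ← Units.val_neg, ← rho_mul, S.xp_mul_ww,
        rho_mul, rho_mul, hUa, hμ, map_smul, smul_smul, neg_neg, inv_neg, inv_inv, Units.val_neg]
    have hmem : v ∈ Submodule.span k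
        ((fun u : S.Uneg => ρ (u : G) v) '' {u | u ≠ 1}) := by
      have hsum : ∑ a : Fˣ, (μ (-a) * μ a⁻¹) • ρ (S.xm i (-(a : F))) v ∈
          Submodule.span k ((fun u : S.Uneg => ρ (u : G) v) '' {u | u ≠ 1}) := by
        refine Submodule.sum_mem _ fun a _ => Submodule.smul_mem _ _ (Submodule.subset_span
          ⟨⟨S.xm i (-(a : F)), S.xm_mem i _⟩, fun h => ?_, rfl⟩)
        exact S.xm_ne_one i (neg_ne_zero.2 a.ne_zero) (congrArg Subtype.val h)
      have hu : μ (-1) * μ (-1) = 1 := by rw [← hμmul, neg_mul_neg, mul_one, hμ1]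
      have h5 : μ (-1) • v ∈ Submodule.span k
          ((fun u : S.Uneg => ρ (u : G) v) '' {u | u ≠ 1}) := by
        rw [h2]; exact Submodule.neg_mem _ hsum
      have h6 := Submodule.smul_mem _ (μ (-1)) h5
      rwa [smul_smul, hu, one_smul] at h6
    refine hli.notMem_span_image (s := {u : S.Uneg | u ≠ 1}) (x := (1 : S.Uneg))
      (fun h => h rfl) ?_
    rw [show ρ ((1 : S.Uneg) : G) v = v by simp]
    exact hmem
  have hcμ' : c = ∑ u : Fˣ, μ u := hcμ.resolve_left hc0
  let μh : Fˣ →* k := { toFun := μ, map_one' := hμ1, map_mul' := hμmul }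
  have hμh : μh = 1 := by
    by_contra h
    exact hc0 (hcμ'.trans (sum_hom_units_eq_zero μh h))
  have hμone : ∀ u, μ u = 1 := fun u => DFunLike.congr_fun hμh u
  refine ⟨fun u => by rw [hμ, hμone, one_smul], ?_⟩
  rw [hc, hcμ', Finset.sum_congr rfl (g := fun _ => (1 : k)) (fun u _ => hμone u),
    Finset.sum_const, nsmul_one, Finset.card_univ, Fintype.card_units, Nat.cast_sub Fintype.card_pos,
    ← Nat.card_eq_fintype_card, natCard_F_cast p, zero_sub, Nat.cast_one, neg_one_smul]

/-- Two vectors with the weight of the top vector cannot be separated when the dimensions exceed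
the order of the opposite unipotent group. -/
theorem pair_false [FiniteDimensional k V] [FiniteDimensional k V']
    (ρ : Representation k G V) (ρ' : Representation k G V')
    (hdim : Nat.card S.Uneg < Module.finrank k V + Module.finrank k V')
    {v : V} (htop : lowSpan S ρ v = ⊤) (hU : ∀ u ∈ S.U, ρ u v = v)
    (hdata : ∀ i : ι, (∀ u, ρ (S.hh i u) v = v) ∧ sig S ρ i (ρ (S.ww i) v) = -v)
    {v' : V'} (htop' : lowSpan S ρ' v' = ⊤) (hU' : ∀ u ∈ S.U, ρ' u v' = v')
    (hdata' : ∀ i : ι, (∀ u, ρ' (S.hh i u) v' = v') ∧ sig S ρ' i (ρ' (S.ww i) v') = -v')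
    (f : G → k) (hf : ∑ g, f g • ρ g = 1) (hf' : ∑ g, f g • ρ' g = 0) : False := by
  let π : Representation k G (V × V') :=
    { toFun := fun g => (ρ g).prodMap (ρ' g)
      map_one' := by rw [map_one, map_one]; rfl
      map_mul' := fun a b => by rw [map_mul, map_mul]; rfl }
  have hπ : ∀ g (x : V × V'), π g x = (ρ g x.1, ρ' g x.2) := fun g x => rfl
  have hgood : IsGood S π (v, v') := by
    refine ⟨fun u hu => ?_, fun i u => ⟨1, ?_⟩, fun i => ⟨-1, ?_⟩⟩
    · rw [hπ, hU u hu, hU' u hu]
    · rw [hπ, (hdata i).1, (hdata' i).1, one_smul]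
    · have h1 := (hdata i).2
      have h2 := (hdata' i).2
      rw [sig_apply] at h1 h2 ⊢
      rw [neg_one_smul, Prod.neg_mk, ← h1, ← h2]
      refine Prod.ext ?_ ?_
      · rw [Prod.fst_sum]; exact Finset.sum_congr rfl fun a _ => rfl
      · rw [Prod.snd_sum]; exact Finset.sum_congr rfl fun a _ => rfl
  set W := lowSpan S π (v, v')
  have hstab : ∀ g, ∀ x ∈ W, π g x ∈ W := fun g x hx => hgood.stable S g hx
  have hfst : ∀ x : V × V', x ∈ W → (x.1, (0 : V')) ∈ W := fun x hx => by
    have h : (x.1, (0 : V')) = ∑ g, f g • π g x := by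
      refine Prod.ext ?_ ?_
      · have := LinearMap.congr_fun hf x.1
        simp only [LinearMap.sum_apply, LinearMap.smul_apply, Module.End.one_apply] at this
        rw [Prod.fst_sum]
        exact this.symm.trans (Finset.sum_congr rfl fun a _ => rfl)
      · have := LinearMap.congr_fun hf' x.2
        simp only [LinearMap.sum_apply, LinearMap.smul_apply, LinearMap.zero_apply] at this
        rw [Prod.snd_sum]
        exact this.symm.trans (Finset.sum_congr rfl fun a _ => rfl)
    rw [h]
    exact W.sum_mem fun g _ => W.smul_mem _ (hstab g x hx)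
  have hvv : (v, v') ∈ W := self_mem_lowSpan S π _
  have h1 : (v, (0 : V')) ∈ W := hfst _ hvv
  have h2 : ((0 : V), v') ∈ W := by
    have := W.sub_mem hvv h1
    simpa using this
  have hV : lowSpan S ρ v ≤ W.comap (LinearMap.inl k V V') := Submodule.span_le.2 (by
    rintro _ ⟨u, rfl⟩
    have := hstab u _ h1
    rw [hπ, map_zero] at this
    exact this)
  have hV' : lowSpan S ρ' v' ≤ W.comap (LinearMap.inr k V V') := Submodule.span_le.2 (by
    rintro _ ⟨u, rfl⟩
    have := hstab u _ h2
    rw [hπ, map_zero] at this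
    exact this)
  have hS : W = ⊤ := Submodule.eq_top_iff'.2 fun x => by
    have e : x = LinearMap.inl k V V' x.1 + LinearMap.inr k V V' x.2 := by simp
    rw [e]
    exact W.add_mem (hV (htop ▸ Submodule.mem_top)) (hV' (htop' ▸ Submodule.mem_top))
  have h3 : (Set.range fun u : S.Uneg => π (u : G) (v, v')).finrank k ≤
      Fintype.card S.Uneg := finrank_range_le_card _
  have h4 : (Set.range fun u : S.Uneg => π (u : G) (v, v')).finrank k =
      Module.finrank k (V × V') := by
    unfold Set.finrank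
    rw [show Submodule.span k (Set.range fun u : S.Uneg => π (u : G) (v, v')) = ⊤ from hS,
      finrank_top]
  rw [h4, Module.finrank_prod, ← Nat.card_eq_fintype_card] at h3
  omega

theorem not_separated (hP : IsPGroup p S.U) [FiniteDimensional k V] [FiniteDimensional k V']
    (ρ : Representation k G V) (ρ' : Representation k G V')
    (hirr : ∀ W : Submodule k V, (∀ g, ∀ x ∈ W, ρ g x ∈ W) → W = ⊥ ∨ W = ⊤)
    (hirr' : ∀ W : Submodule k V', (∀ g, ∀ x ∈ W, ρ' g x ∈ W) → W = ⊥ ∨ W = ⊤)
    (hdim : Nat.card S.Uneg ≤ Module.finrank k V)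
    (hdim' : Nat.card S.Uneg ≤ Module.finrank k V')
    (f : G → k) (hf : ∑ g, f g • ρ g = 1) (hf' : ∑ g, f g • ρ' g = 0) : False := by
  obtain ⟨v, htop, hU, hdata⟩ := exists_top_vector S p hP ρ hirr hdim
  obtain ⟨v', htop', hU', hdata'⟩ := exists_top_vector S p hP ρ' hirr' hdim'
  exact pair_false S p ρ ρ' (by have : 0 < Nat.card S.Uneg := Nat.card_pos; omega)
    htop hU hdata htop' hU' hdata' f hf hf'

omit [CharP k p] [IsAlgClosed k] in
/-- At most one irreducible character has degree divisible by the full `p`-part of the order. -/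
theorem defect_zero_unique (hP : IsPGroup p S.U) (hN : IsPGroup p S.Uneg)
    {χ χ' : IrrCharacter G} {a a' : ℕ} (h1 : (χ : G → ℂ) 1 = a) (h1' : (χ' : G → ℂ) 1 = a')
    (ha : p ^ (Nat.card G).factorization p ∣ a) (ha' : p ^ (Nat.card G).factorization p ∣ a') :
    χ = χ' := by
  classical
  obtain ⟨M, hMmax, hpM⟩ := Cfsg.Agent.DegreeGraph.exists_isMaximal_mem p
  haveI : M.IsMaximal := hMmax
  by_contra hne
  haveI := BlockChar.charP_res (M := M) hpM
  obtain ⟨d, ρ, hd, hd1, htr, hR, hs⟩ := exists_locRep hpM χ.2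
  obtain ⟨d', ρ', hd', hd1', htr', hR', hs'⟩ := exists_locRep hpM χ'.2
  have facts : ∀ {ψ : IrrCharacter G} {b c : ℕ}, (ψ : G → ℂ) 1 = (b : ℂ) → (ψ : G → ℂ) 1 = (c : ℂ) →
      p ^ (Nat.card G).factorization p ∣ c →
      Nat.card G = b * (Nat.card G / b) ∧ ¬ p ∣ Nat.card G / b ∧ Nat.card S.Uneg ≤ b := by
    intro ψ b c hb hc hcd
    have hbc : b = c := by exact_mod_cast hb.symm.trans hc
    subst hbc
    have hb0 : b ≠ 0 := fun h0 => Chars.irr_apply_one_ne_zero ψ.2 (by rw [hb, h0, Nat.cast_zero])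
    have hdvd : b ∣ Nat.card G := by
      have h := charDegree_dvd ψ.2
      rwa [show charDegree (ψ : G → ℂ) = b by simp [charDegree, hb]] at h
    refine ⟨(Nat.mul_div_cancel' hdvd).symm, fun h => ?_, ?_⟩
    · obtain ⟨t, ht⟩ := h
      have h2 : p ^ ((Nat.card G).factorization p + 1) ∣ Nat.card G := by
        rw [pow_succ]
        nth_rw 2 [← Nat.mul_div_cancel' hdvd]
        rw [ht]
        exact mul_dvd_mul hcd (Dvd.intro t rfl)
      exact absurd h2 (Nat.pow_succ_factorization_not_dvd Nat.card_pos.ne' Fact.out)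
    · obtain ⟨e, he⟩ := (IsPGroup.iff_card).1 hN
      rw [he]
      refine Nat.le_of_dvd (Nat.pos_of_ne_zero hb0) ((pow_dvd_pow p ?_).trans hcd)
      refine (Nat.Prime.pow_dvd_iff_le_factorization Fact.out Nat.card_pos.ne').1 ?_
      rw [← he]
      exact Subgroup.card_subgroup_dvd_card _
  obtain ⟨hm, hpm, hdim⟩ := facts hd1 h1 ha
  obtain ⟨hm', hpm', hdim'⟩ := facts hd1' h1' ha'
  refine not_separated S (k := Res M) p hP (resRep ρ hR) (resRep ρ' hR')
    (resRep_irr hR hpM hm hpm hd hs) (resRep_irr hR' hpM hm' hpm' hd' hs')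
    (by rwa [Module.finrank_fin_fun]) (by rwa [Module.finrank_fin_fun]) _
    (sum_char_resRep hR hpM hm hpm htr hd hs)
    (sum_char_resRep_of_ne hpM hpm hR' hd' htr' hd1' hs' (Ne.symm hne))

end Cfsg.Agent.Chars2.SplitBN
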